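import Cfsg.Agent.Lib.Mouf.Defs

/-!
# Package BASE1: segments, actions, commutator relations (see `plans/MOUF.md`)
-/

set_option autoImplicit false

namespace CfsgLib.Mouf
open scoped commutatorElement

variable {G : Type*} [Group G] {U : ℤ → Subgroup G} {n : ℕ} {a b i j k l i' j' c c' ε ε' : ℤ} {g h u v x y : G}

theorem mem_seg (hu : u ∈ U k) (h1 : i ≤ k) (h2 : k ≤ j) : u ∈ seg U i j := by
  exact le_iSup₂ (f := fun k (_ : i ≤ k ∧ k ≤ j) => U k) k ⟨h1, h2⟩ hu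

theorem seg_le {H : Subgroup G} (h : ∀ k, i ≤ k → k ≤ j → U k ≤ H) : seg U i j ≤ H := by
  exact iSup₂_le fun k hk => h k hk.1 hk.2

theorem seg_mono (hx : x ∈ seg U i j) (h1 : i' ≤ i) (h2 : j ≤ j') : x ∈ seg U i' j' := by
  exact seg_le (H := seg U i' j') (fun k a b u hu => mem_seg hu (by omega) (by omega)) hx

theorem seg_self (hx : x ∈ seg U i j) (h1 : k = i) (h2 : k = j) : x ∈ U k := by
  refine seg_le (H := U k) (fun l a b => ?_) hx
  obtain rfl : l = k := by omega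
  exact le_rfl

theorem seg_empty (hx : x ∈ seg U i j) (h : j < i) : x = 1 := by
  exact Subgroup.mem_bot.1 (seg_le (H := ⊥) (fun k a b => by omega) hx)

theorem seg_commute (h : ∀ k, i ≤ k → k ≤ j → ∀ u ∈ U k, Commute g u) (hx : x ∈ seg U i j) : Commute g x := by
  have : seg U i j ≤ Subgroup.centralizer ({g} : Set G) := seg_le fun k a b u hu =>
    Subgroup.mem_centralizer_singleton_iff.2 (h k a b u hu).symm.eq
  exact (Subgroup.mem_centralizer_singleton_iff.1 (this hx)).symm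

theorem seg_conj {H : Subgroup G} (h : ∀ k, i ≤ k → k ≤ j → ∀ u ∈ U k, g * u * g⁻¹ ∈ H) (hx : x ∈ seg U i j) :
    g * x * g⁻¹ ∈ H := by
  have : seg U i j ≤ H.comap (MulAut.conj g).toMonoidHom := seg_le fun k a b u hu => h k a b u hu
  exact this hx

theorem seg_congr {U' : ℤ → Subgroup G} (h : ∀ k, i ≤ k → k ≤ j → U k = U' k) : seg U i j = seg U' i j := by
  refine le_antisymm (seg_le fun k a b u hu => ?_) (seg_le fun k a b u hu => ?_)
  · exact mem_seg (h k a b ▸ hu) a b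
  · exact mem_seg ((h k a b).symm ▸ hu) a b

theorem seg_line (h : ε = 1 ∧ i' = c + i ∧ j' = c + j ∨ ε = -1 ∧ i' = c - j ∧ j' = c - i) :
    seg (fun k => U (c + ε * k)) i j = seg U i' j' := by
  refine le_antisymm (seg_le fun k a b u hu => ?_) (seg_le fun k a b u hu => ?_)
  · rcases h with ⟨rfl, rfl, rfl⟩ | ⟨rfl, rfl, rfl⟩ <;> exact mem_seg hu (by omega) (by omega)
  · rcases h with ⟨rfl, rfl, rfl⟩ | ⟨rfl, rfl, rfl⟩
    · refine mem_seg (k := k - c) ?_ (by omega) (by omega)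
      show u ∈ U _
      rwa [show c + 1 * (k - c) = k by ring]
    · refine mem_seg (k := c - k) ?_ (by omega) (by omega)
      show u ∈ U _
      rwa [show c + -1 * (c - k) = k by ring]

namespace Act

theorem conj (h : Act U g c ε) (hx : x ∈ U j) (e : k = c + ε * j) : g * x * g⁻¹ ∈ U k := by
  subst e
  exact (h j x).1 hx

theorem conj_inv (h : Act U g c ε) (hx : x ∈ U k) (e : k = c + ε * j) : g⁻¹ * x * g ∈ U j := by
  subst e
  refine (h j _).2 ?_
  rwa [show g * (g⁻¹ * x * g) * g⁻¹ = x by group]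

theorem one : Act U 1 0 1 := by
  intro j x
  simp

theorem mul {g' : G} {d δ : ℤ} (h : Act U g c ε) (h' : Act U g' c' ε') (e : d = c + ε * c' ∧ δ = ε * ε') :
    Act U (g * g') d δ := by
  obtain ⟨rfl, rfl⟩ := e
  intro j x
  rw [h' j x, h _ _, show c + ε * c' + ε * ε' * j = c + ε * (c' + ε' * j) by ring,
    show g * g' * x * (g * g')⁻¹ = g * (g' * x * g'⁻¹) * g⁻¹ by group]

theorem inv (h : Act U g c ε) (e : ε = 1 ∧ c' = -c ∨ ε = -1 ∧ c' = c) : Act U g⁻¹ c' ε := by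
  intro j x
  rw [h (c' + ε * j) _, show g * (g⁻¹ * x * g⁻¹⁻¹) * g⁻¹ = x by group,
    show c + ε * (c' + ε * j) = j by rcases e with ⟨rfl, rfl⟩ | ⟨rfl, rfl⟩ <;> ring]

theorem seg (h : Act U g c ε) (hx : x ∈ seg U i j)
    (e : ε = 1 ∧ i' = c + i ∧ j' = c + j ∨ ε = -1 ∧ i' = c - j ∧ j' = c - i) : g * x * g⁻¹ ∈ seg U i' j' := by
  refine seg_conj (fun k a b u hu => ?_) hx
  rcases e with ⟨rfl, rfl, rfl⟩ | ⟨rfl, rfl, rfl⟩ <;> exact mem_seg (h.conj hu rfl) (by omega) (by omega)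

theorem card (h : Act U g c ε) (e : k = c + ε * j) : Nat.card (U j) = Nat.card (U k) := by
  exact Nat.card_congr
    { toFun := fun x => ⟨g * x * g⁻¹, h.conj x.2 e⟩
      invFun := fun x => ⟨g⁻¹ * x * g, h.conj_inv x.2 e⟩
      left_inv := fun x => Subtype.ext (by simp only; group)
      right_inv := fun x => Subtype.ext (by simp only; group) }

end Act

namespace Comm

theorem mono {a' b' : ℤ} (h : Comm n U a b) (h1 : a ≤ a') (h2 : b' ≤ b) : Comm n U a' b' := by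
  intro i j a b c d u hu v hv
  exact h i j (by omega) b (by omega) d u hu v hv

/-- `seg (i - 1) (j + 1)` normalises `seg i j` -/
theorem conj (h : Comm n U a b) (hg : g ∈ seg U i' j') (hx : x ∈ seg U i j)
    (e : a ≤ i ∧ a ≤ i' ∧ j ≤ b ∧ j' ≤ b ∧ i - 1 ≤ i' ∧ j' ≤ j + 1 ∧ j + 1 < i + n) : g * x * g⁻¹ ∈ seg U i j := by
  obtain ⟨e1, e2, e3, e4, e5, e6, e7⟩ := e
  have A : ∀ k, i' ≤ k → k ≤ j' → ∀ u ∈ U k, ∀ x ∈ seg U i j, u * x * u⁻¹ ∈ seg U i j := by
    intro k h1 h2 u hu x hx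
    refine seg_conj (fun l l1 l2 v hv => ?_) hx
    have hv' : v ∈ seg U i j := mem_seg hv l1 l2
    by_cases c1 : k < i
    · rw [show u * v * u⁻¹ = ⁅u, v⁆ * v by rw [commutatorElement_def]; group]
      exact mul_mem (seg_mono (h k l (by omega) (by omega) (by omega) (by omega) u hu v hv) (by omega) (by omega)) hv'
    by_cases c2 : j < k
    · rw [show u * v * u⁻¹ = v * ⁅v⁻¹, u⁆ by rw [commutatorElement_def]; group]
      exact mul_mem hv' (seg_mono (h l k (by omega) (by omega) (by omega) (by omega) _ (inv_mem hv) u hu)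
        (by omega) (by omega))
    · have hu' : u ∈ seg U i j := mem_seg hu (by omega) (by omega)
      exact mul_mem (mul_mem hu' hv') (inv_mem hu')
  have : seg U i' j' ≤ Subgroup.normalizer (seg U i j : Set G) := by
    refine seg_le fun k h1 h2 u hu => Subgroup.mem_normalizer_iff.2 fun x => ⟨A k h1 h2 u hu x, fun hx => ?_⟩
    have := A k h1 h2 _ (inv_mem hu) _ hx
    rwa [show u⁻¹ * (u * x * u⁻¹) * u⁻¹⁻¹ = x by group] at this
  exact (Subgroup.mem_normalizer_iff.1 (this hg) x).1 hx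

theorem left (h : Comm n U a b) (hx : x ∈ seg U i j) (e : a ≤ i ∧ j ≤ b ∧ i ≤ j ∧ j < i + n ∧ k = i + 1) :
    ∃ u ∈ U i, ∃ y ∈ seg U k j, x = u * y := by
  obtain ⟨e1, e2, e3, e4, e5⟩ := e
  have A : ∀ u ∈ U i, ∀ y ∈ seg U k j, u * y * u⁻¹ ∈ seg U k j := fun u hu y hy =>
    h.conj (i' := i) (j' := i) (mem_seg hu le_rfl le_rfl) hy (by omega)
  let H : Subgroup G :=
    { carrier := {x | ∃ u ∈ U i, ∃ y ∈ seg U k j, x = u * y}
      one_mem' := ⟨1, one_mem _, 1, one_mem _, by simp⟩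
      mul_mem' := by
        rintro _ _ ⟨u, hu, y, hy, rfl⟩ ⟨u', hu', y', hy', rfl⟩
        exact ⟨u * u', mul_mem hu hu', _, mul_mem (A _ (inv_mem hu') y hy) hy', by group⟩
      inv_mem' := by
        rintro _ ⟨u, hu, y, hy, rfl⟩
        exact ⟨u⁻¹, inv_mem hu, _, A u hu _ (inv_mem hy), by group⟩ }
  have : seg U i j ≤ H := by
    refine seg_le fun l l1 l2 v hv => ?_
    by_cases c : l = i
    · subst c
      exact ⟨v, hv, 1, one_mem _, by simp⟩
    · exact ⟨1, one_mem _, v, mem_seg hv (by omega) l2, by simp⟩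
  exact this hx

theorem right (h : Comm n U a b) (hx : x ∈ seg U i j) (e : a ≤ i ∧ j ≤ b ∧ i ≤ j ∧ j < i + n ∧ k = j - 1) :
    ∃ y ∈ seg U i k, ∃ u ∈ U j, x = y * u := by
  obtain ⟨e1, e2, e3, e4, e5⟩ := e
  have A : ∀ u ∈ U j, ∀ y ∈ seg U i k, u * y * u⁻¹ ∈ seg U i k := fun u hu y hy =>
    h.conj (i' := j) (j' := j) (mem_seg hu le_rfl le_rfl) hy (by omega)
  let H : Subgroup G :=
    { carrier := {x | ∃ y ∈ seg U i k, ∃ u ∈ U j, x = y * u}
      one_mem' := ⟨1, one_mem _, 1, one_mem _, by simp⟩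
      mul_mem' := by
        rintro _ _ ⟨y, hy, u, hu, rfl⟩ ⟨y', hy', u', hu', rfl⟩
        exact ⟨_, mul_mem hy (A u hu y' hy'), u * u', mul_mem hu hu', by group⟩
      inv_mem' := by
        rintro _ ⟨y, hy, u, hu, rfl⟩
        exact ⟨_, A _ (inv_mem hu) _ (inv_mem hy), u⁻¹, inv_mem hu, by group⟩ }
  have : seg U i j ≤ H := by
    refine seg_le fun l l1 l2 v hv => ?_
    by_cases c : l = j
    · subst c
      exact ⟨1, one_mem _, v, hv, by simp⟩
    · exact ⟨v, mem_seg hv l1 (by omega), 1, one_mem _, by simp⟩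
  exact this hx

theorem comm_seg (h : Comm n U a b) (hx : x ∈ seg U i j') (hy : y ∈ seg U i' j)
    (e : a ≤ i ∧ j ≤ b ∧ j < i + n ∧ i' = i + 1 ∧ j' = j - 1) : ⁅x, y⁆ ∈ seg U i' j' := by
  obtain ⟨e1, e2, e3, e4, e5⟩ := e
  by_cases c : j ≤ i
  · rw [seg_empty hx (by omega)]
    simp
  have A : ∀ g ∈ seg U i j, ∀ y ∈ seg U i' j', g * y * g⁻¹ ∈ seg U i' j' := fun u hu y hy =>
    h.conj hu hy (by omega)
  obtain ⟨u, hu, x', hx', rfl⟩ := h.left (k := i') hx (by omega)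
  obtain ⟨y', hy', v, hv, rfl⟩ := h.right (k := j') hy (by omega)
  have h1 : ⁅u, v⁆ ∈ seg U i' j' := by
    rw [e4, e5]
    exact h i j e1 (by omega) e2 e3 u hu v hv
  rw [show ⁅u * x', y' * v⁆ = u * (x' * y' * (v * x'⁻¹ * v⁻¹)) * u⁻¹ * ⁅u, v⁆ * y'⁻¹ by
    simp only [commutatorElement_def]; group]
  exact mul_mem (mul_mem (A u (mem_seg hu le_rfl (by omega)) _ (mul_mem (mul_mem hx' hy')
    (A v (mem_seg hv (by omega) le_rfl) _ (inv_mem hx')))) h1) (inv_mem hy')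

end Comm

end CfsgLib.Mouf
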