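import Cfsg.Agent.Lib.Mouf.Base1

/-!
# Package BASE2: root group data (see `plans/MOUF.md`)
-/

set_option autoImplicit false

namespace CfsgLib.Mouf
open scoped commutatorElement

namespace RD
variable {G : Type*} [Group G] {n : ℕ} (R : RD n G) {i j k l i' j' c ε : ℤ} {g h p q p' q' u u' v x x' y y' z : G}

theorem per' (e : (2 * n : ℤ) ∣ i - j) : R.U i = R.U j := by
  obtain ⟨t, ht⟩ := e
  have hp : Function.Periodic R.U (2 * n : ℤ) := R.per
  have := hp.zsmul t j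
  rw [show i = j + t • (2 * n : ℤ) by rw [smul_eq_mul]; linarith, this]

theorem exists_ne (i : ℤ) : ∃ u ∈ R.U i, u ≠ 1 := by
  by_contra h
  push Not at h
  exact R.ne i (eq_bot_iff.2 fun u hu => Subgroup.mem_bot.2 (h u hu))

theorem adj_comm (hu : u ∈ R.U i) (hv : v ∈ R.U j) (e : j = i + 1 ∨ j = i - 1) : Commute u v := by
  have := R.three
  rcases e with rfl | rfl
  · exact commutatorElement_eq_one_iff_commute.1
      (seg_empty (R.comm i (i + 1) i (i + 1) le_rfl (by omega) le_rfl (by omega) u hu v hv) (by omega))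
  · exact (commutatorElement_eq_one_iff_commute.1
      (seg_empty (R.comm (i - 1) i (i - 1) i le_rfl (by omega) le_rfl (by omega) v hv u hu) (by omega))).symm

theorem comm_mem (hu : u ∈ R.U i) (hv : v ∈ R.U j) (e : i < j ∧ j < i + n ∧ k = i + 1 ∧ l = j - 1) :
    ⁅u, v⁆ ∈ seg R.U k l ∧ ⁅v, u⁆ ∈ seg R.U k l := by
  obtain ⟨e1, e2, rfl, rfl⟩ := e
  have := R.comm i j i j le_rfl e1 le_rfl e2 u hu v hv
  exact ⟨this, by rw [← commutatorElement_inv]; exact inv_mem this⟩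

theorem conj_seg (hg : g ∈ seg R.U i' j') (hx : x ∈ seg R.U i j) (e : i - 1 ≤ i' ∧ j' ≤ j + 1 ∧ j + 1 < i + n) :
    g * x * g⁻¹ ∈ seg R.U i j := by
  exact (R.comm (min i i') (max j j')).conj hg hx (by omega)

theorem left (hx : x ∈ seg R.U i j) (e : i ≤ j ∧ j < i + n ∧ k = i + 1) :
    ∃ u ∈ R.U i, ∃ y ∈ seg R.U k j, x = u * y := by
  exact (R.comm i j).left hx (by omega)

theorem right (hx : x ∈ seg R.U i j) (e : i ≤ j ∧ j < i + n ∧ k = j - 1) :
    ∃ y ∈ seg R.U i k, ∃ u ∈ R.U j, x = y * u := by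
  exact (R.comm i j).right hx (by omega)

theorem eq_one_left (hu : u ∈ R.U i) (hs : u ∈ seg R.U k l) (e : i < k ∧ l ≤ i + n ∨ l < i ∧ i - n ≤ k) : u = 1 := by
  rcases e with e | e
  · exact R.disj i u hu (seg_mono hs (by omega) (by omega))
  · exact R.disj' i u hu (seg_mono hs (by omega) (by omega))

theorem inf_U (hu : u ∈ R.U i) (hu' : u ∈ R.U j) (e : i < j ∧ j ≤ i + n ∨ j < i ∧ i ≤ j + n) : u = 1 := by
  exact R.eq_one_left hu (mem_seg hu' le_rfl le_rfl) (by omega)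

theorem inf (hx : x ∈ seg R.U i j) (hx' : x ∈ seg R.U k l) (e : i ≤ k ∧ j ≤ l ∧ j < i + n ∧ l ≤ i + n) :
    x ∈ seg R.U k j := by
  have A : ∀ m : ℕ, ∀ i, k - i = m → x ∈ seg R.U i j → j < i + n → l ≤ i + n → x ∈ seg R.U k j := by
    intro m
    induction m with
    | zero => intro i h1 h2 _ _; exact seg_mono h2 (by omega) le_rfl
    | succ m ih =>
      intro i h1 h2 h3 h4
      by_cases c : j < i
      · rw [seg_empty h2 c]; exact one_mem _
      obtain ⟨u, hu, y, hy, rfl⟩ := R.left (k := i + 1) h2 (by omega)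
      have h5 : u ∈ seg R.U (i + 1) (i + n) := by
        rw [show u = u * y * y⁻¹ by group]
        exact mul_mem (seg_mono hx' (by omega) h4) (inv_mem (seg_mono hy le_rfl (by omega)))
      have h6 := R.disj i u hu h5
      refine ih (i + 1) (by omega) ?_ (by omega) (by omega)
      rwa [h6, one_mul]
  exact A (k - i).toNat i (by omega) hx e.2.2.1 e.2.2.2

theorem left_inj (hu : u ∈ R.U i) (hu' : u' ∈ R.U i) (hy : y ∈ seg R.U k l) (hy' : y' ∈ seg R.U k l)
    (e : i < k ∧ l ≤ i + n) (h : u * y = u' * y') : u = u' ∧ y = y' := by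
  have h1 : u'⁻¹ * u = y' * y⁻¹ := by
    rw [inv_mul_eq_iff_eq_mul, ← mul_assoc, ← h]; group
  have h2 : u'⁻¹ * u = 1 :=
    R.eq_one_left (mul_mem (inv_mem hu') hu) (h1 ▸ mul_mem hy' (inv_mem hy)) (Or.inl e)
  have h3 : u = u' := (inv_mul_eq_one.1 h2).symm
  subst h3
  exact ⟨rfl, mul_left_cancel h⟩

theorem right_inj (hu : u ∈ R.U i) (hu' : u' ∈ R.U i) (hy : y ∈ seg R.U k l) (hy' : y' ∈ seg R.U k l)
    (e : l < i ∧ i - n ≤ k) (h : y * u = y' * u') : y = y' ∧ u = u' := by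
  have h1 : u * u'⁻¹ = y⁻¹ * y' := by
    rw [eq_inv_mul_iff_mul_eq, ← mul_assoc, h]; group
  have h2 : u * u'⁻¹ = 1 :=
    R.eq_one_left (mul_mem hu (inv_mem hu')) (h1 ▸ mul_mem (inv_mem hy) hy') (Or.inr e)
  have h3 : u = u' := mul_inv_eq_one.1 h2
  subst h3
  exact ⟨mul_right_cancel h, rfl⟩

theorem act_per {c' : ℤ} (h : Act R.U g c ε) (e : (2 * n : ℤ) ∣ c - c') : Act R.U g c' ε := by
  intro j x
  rw [h j x, R.per' (i := c + ε * j) (j := c' + ε * j) (by rwa [add_sub_add_right_eq_sub])]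

/-! ### central elations -/

theorem mem_V : z ∈ R.V i ↔
    z ∈ R.U i ∧ ∀ j, i - (n / 2 : ℕ) ≤ j → j ≤ i + (n / 2 : ℕ) → ∀ u ∈ R.U j, Commute z u := by
  constructor
  · rintro ⟨h1, h2⟩
    exact ⟨h1, fun j a b u hu => (h2 u (mem_seg hu a b)).symm⟩
  · rintro ⟨h1, h2⟩
    exact ⟨h1, fun x hx => (seg_commute h2 hx).symm.eq⟩

variable {R}

theorem V_U (hz : z ∈ R.V i) : z ∈ R.U i := by
  exact hz.1

theorem V_comm (hz : z ∈ R.V i) (hu : u ∈ R.U j) (e : i - (n / 2 : ℕ) ≤ j ∧ j ≤ i + (n / 2 : ℕ)) : Commute z u := by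
  exact (R.mem_V.1 hz).2 j e.1 e.2 u hu

theorem V_comm_seg (hz : z ∈ R.V i) (hx : x ∈ seg R.U k l) (e : i - (n / 2 : ℕ) ≤ k ∧ l ≤ i + (n / 2 : ℕ)) :
    Commute z x := by
  exact seg_commute (fun m a b u hu => V_comm hz hu (by omega)) hx

theorem V_conj (h : Act R.U g c ε) (hz : z ∈ R.V j) (e : (ε = 1 ∨ ε = -1) ∧ k = c + ε * j) :
    g * z * g⁻¹ ∈ R.V k := by
  obtain ⟨e1, e2⟩ := e
  refine R.mem_V.2 ⟨h.conj (V_U hz) e2, fun l a b u hu => ?_⟩
  have h1 : g⁻¹ * u * g ∈ R.U (ε * (l - c)) := h.conj_inv hu (by rcases e1 with rfl | rfl <;> ring)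
  have h2 := V_comm hz h1 (by rcases e1 with rfl | rfl <;> omega)
  have h3 := h2.eq
  show _ = _
  calc g * z * g⁻¹ * u = g * (z * (g⁻¹ * u * g)) * g⁻¹ := by group
    _ = u * (g * z * g⁻¹) := by rw [h3]; group

theorem V_conj_inv (h : Act R.U g c ε) (hz : z ∈ R.V k) (e : (ε = 1 ∨ ε = -1) ∧ k = c + ε * j) :
    g⁻¹ * z * g ∈ R.V j := by
  obtain ⟨e1, e2⟩ := e
  have := V_conj (h.inv (c' := -(ε * c)) (by rcases e1 with rfl | rfl <;> simp)) hz (k := j)
    ⟨e1, by rcases e1 with rfl | rfl <;> omega⟩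
  rwa [inv_inv] at this

theorem V_card (h : Act R.U g c ε) (e : (ε = 1 ∨ ε = -1) ∧ k = c + ε * j) : Nat.card (R.V j) = Nat.card (R.V k) := by
  exact Nat.card_congr
    { toFun := fun x => ⟨g * x * g⁻¹, V_conj h x.2 e⟩
      invFun := fun x => ⟨g⁻¹ * x * g, V_conj_inv h x.2 e⟩
      left_inv := fun x => Subtype.ext (by simp only; group)
      right_inv := fun x => Subtype.ext (by simp only; group) }

theorem V_per (R : RD n G) (e : (2 * n : ℤ) ∣ i - j) : R.V i = R.V j := by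
  have h1 : Act R.U 1 (i - j) 1 := R.act_per Act.one (by rw [zero_sub]; exact e.neg_right)
  ext z
  constructor
  · intro hz
    simpa using V_conj_inv h1 hz (j := j) ⟨Or.inl rfl, by ring⟩
  · intro hz
    simpa using V_conj h1 hz (k := i) ⟨Or.inl rfl, by ring⟩

/-! ### the elements `μ(u)` -/

theorem exists_mu (hu : u ∈ R.U i) (ne : u ≠ 1) (e : j = i + n ∨ j = i - n) : ∃ p q, R.Mu i j p u q := by
  obtain ⟨p, hp, q, hq, h⟩ := R.mu i u hu ne
  have h1 : R.U (i + n) = R.U j := R.per' (by rcases e with rfl | rfl <;> [simp; exact ⟨1, by ring⟩])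
  exact ⟨p, q, e, hu, ne, h1 ▸ hp, h1 ▸ hq,
    R.act_per h (by rcases e with rfl | rfl <;> [exact ⟨0, by ring⟩; exact ⟨1, by ring⟩])⟩

/-- a non-trivial element of `U j` does not normalise the opposite root group -/
theorem eq_one_of_norm (R : RD n G) (hp : p ∈ R.U j) (e : j = i + n ∨ j = i - n)
    (h : ∀ x ∈ R.U i, p * x * p⁻¹ ∈ R.U i) : p = 1 := by
  by_contra ne
  have := R.three
  obtain ⟨a, b, hm⟩ := exists_mu (j := i) hp ne (by omega)
  obtain ⟨x, hx, hx1⟩ := R.exists_ne i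
  have h1 : a * p * b * x * (a * p * b)⁻¹ ∈ R.U j := hm.act.conj hx (by ring)
  have h2 : a * p * b * x * (a * p * b)⁻¹ ∈ R.U i := by
    rw [show a * p * b * x * (a * p * b)⁻¹ = a * (p * (b * x * b⁻¹) * p⁻¹) * a⁻¹ by group]
    exact mul_mem (mul_mem hm.p_mem (h _ (mul_mem (mul_mem hm.q_mem hx) (inv_mem hm.q_mem)))) (inv_mem hm.p_mem)
  exact hx1 (conj_eq_one_iff.1 (R.inf_U h1 h2 (by omega)))

namespace Mu

theorem act' (h : R.Mu i j p u q) (e : c = i + j) : Act R.U (p * u * q) c (-1) := by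
  subst e
  exact h.act

theorem p_ne (h : R.Mu i j p u q) : p ≠ 1 := by
  rintro rfl
  have := R.three
  have e := h.opp
  obtain ⟨x, hx, hx1⟩ := R.exists_ne j
  have h1 : 1 * u * q * x * (1 * u * q)⁻¹ ∈ R.U i := h.act.conj hx (by ring)
  have h2 : q * x * q⁻¹ ∈ R.U i := by
    rw [show q * x * q⁻¹ = u⁻¹ * (1 * u * q * x * (1 * u * q)⁻¹) * u by group]
    exact mul_mem (mul_mem (inv_mem h.u_mem) h1) h.u_mem
  exact hx1 (conj_eq_one_iff.1
    (R.inf_U h2 (mul_mem (mul_mem h.q_mem hx) (inv_mem h.q_mem)) (by omega)))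

theorem inv (h : R.Mu i j p u q) : R.Mu i j q⁻¹ u⁻¹ p⁻¹ := by
  refine ⟨h.opp, inv_mem h.u_mem, inv_ne_one.2 h.ne, inv_mem h.q_mem, inv_mem h.p_mem, ?_⟩
  have := h.act.inv (c' := i + j) (Or.inr ⟨rfl, rfl⟩)
  rwa [show (p * u * q)⁻¹ = q⁻¹ * u⁻¹ * p⁻¹ by group] at this

theorem q_ne (h : R.Mu i j p u q) : q ≠ 1 := by
  exact inv_ne_one.1 h.inv.p_ne

theorem unique_p (h : R.Mu i j p u q) (h' : R.Mu i j p' u q') : p = p' := by
  have h0 : p' * p⁻¹ = 1 := by
    refine R.eq_one_of_norm (mul_mem h'.p_mem (inv_mem h.p_mem)) h.opp fun x hx => ?_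
    have h1 : (p * u * q)⁻¹ * x * (p * u * q) ∈ R.U j := h.act.conj_inv hx (by ring)
    have h2 := mul_mem (mul_mem (inv_mem h'.q_mem) (mul_mem (mul_mem h.q_mem h1) (inv_mem h.q_mem))) h'.q_mem
    have h3 := h'.act.conj (k := i) h2 (by ring)
    rwa [show p' * u * q' * (q'⁻¹ * (q * ((p * u * q)⁻¹ * x * (p * u * q)) * q⁻¹) * q') * (p' * u * q')⁻¹ =
      p' * p⁻¹ * x * (p' * p⁻¹)⁻¹ by group] at h3
  exact (mul_inv_eq_one.1 h0).symm

theorem unique (h : R.Mu i j p u q) (h' : R.Mu i j p' u q') : p = p' ∧ q = q' := by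
  exact ⟨h.unique_p h', inv_injective (h.inv.unique_p h'.inv)⟩

theorem invol (h : R.Mu i j p u q) (hu : u * u = 1) : q = p⁻¹ ∧ p * u * q * (p * u * q) = 1 := by
  have h1 : u⁻¹ = u := inv_eq_of_mul_eq_one_right hu
  have h2 := h.inv
  rw [h1] at h2
  have h3 : q = p⁻¹ := (h.unique h2).2
  refine ⟨h3, ?_⟩
  rw [h3, show p * u * p⁻¹ * (p * u * p⁻¹) = p * (u * u) * p⁻¹ by group, hu]
  group

/-- conjugation; the opposite root group may be indexed by either index -/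
theorem conj (h : R.Mu i j p u q) (hg : Act R.U g c ε)
    (e : (ε = 1 ∨ ε = -1) ∧ i' = c + ε * i ∧ (j' = i' + n ∨ j' = i' - n)) :
    R.Mu i' j' (g * p * g⁻¹) (g * u * g⁻¹) (g * q * g⁻¹) := by
  obtain ⟨e1, e2, e3⟩ := e
  have e4 := h.opp
  have hd : (2 * n : ℤ) ∣ c + ε * j - j' := by
    rcases e1 with rfl | rfl <;> rcases e3 with rfl | rfl <;> rcases e4 with rfl | rfl <;> subst e2 <;>
      first | exact ⟨0, by ring1⟩ | exact ⟨1, by ring1⟩ | exact ⟨-1, by ring1⟩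
  have h1 : R.U (c + ε * j) = R.U j' := R.per' hd
  refine ⟨e3, hg.conj h.u_mem e2, fun h0 => h.ne (conj_eq_one_iff.1 h0), h1 ▸ hg.conj h.p_mem rfl,
    h1 ▸ hg.conj h.q_mem rfl, ?_⟩
  have h2 : Act R.U (g * (p * u * q) * g⁻¹) (c + ε * i + (c + ε * j)) (-1) :=
    (hg.mul h.act ⟨rfl, rfl⟩).mul (hg.inv (c' := -(ε * c)) (by rcases e1 with rfl | rfl <;> simp))
      (by rcases e1 with rfl | rfl <;> constructor <;> ring)
  rw [show g * p * g⁻¹ * (g * u * g⁻¹) * (g * q * g⁻¹) = g * (p * u * q) * g⁻¹ by group]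
  exact R.act_per h2 (by rw [e2]; convert hd using 1; ring)

/-- `μ(q) = μ(u)` -/
theorem right (h : R.Mu i j p u q) :
    R.Mu j i u q ((p * u * q)⁻¹ * p * (p * u * q)) ∧ u * q * ((p * u * q)⁻¹ * p * (p * u * q)) = p * u * q := by
  have e := h.opp
  have h1 : u * q * ((p * u * q)⁻¹ * p * (p * u * q)) = p * u * q := by group
  refine ⟨⟨by omega, h.q_mem, h.q_ne, h.u_mem, h.act.conj_inv h.p_mem (by ring), ?_⟩, h1⟩
  rw [h1, add_comm]
  exact h.act

/-- `μ(p) = μ(u)` -/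
theorem left (h : R.Mu i j p u q) :
    R.Mu j i (p * u * q * q * (p * u * q)⁻¹) p u ∧ p * u * q * q * (p * u * q)⁻¹ * p * u = p * u * q := by
  have e := h.opp
  have h1 : p * u * q * q * (p * u * q)⁻¹ * p * u = p * u * q := by group
  refine ⟨⟨by omega, h.p_mem, h.p_ne, h.act.conj h.q_mem (by ring), h.u_mem, ?_⟩, h1⟩
  rw [h1, add_comm]
  exact h.act

theorem conj_eq (p u q v : G) (hc : Commute q v) :
    u * v * u⁻¹ = p⁻¹ * (p * u * q * v * (p * u * q)⁻¹) * p := by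
  rw [show p⁻¹ * (p * u * q * v * (p * u * q)⁻¹) * p = u * (q * v * q⁻¹) * u⁻¹ by group, hc.eq]
  group

end Mu

/-- a rotation -/
theorem exists_rot (R : RD n G) (e : (2 : ℤ) ∣ c) : ∃ g, Act R.U g c 1 := by
  obtain ⟨t, rfl⟩ := e
  obtain ⟨u, hu, h1⟩ := R.exists_ne t
  obtain ⟨v, hv, h2⟩ := R.exists_ne 0
  obtain ⟨p, q, hm⟩ := exists_mu hu h1 (Or.inl rfl)
  obtain ⟨p', q', hm'⟩ := exists_mu hv h2 (Or.inl rfl)
  exact ⟨_, hm.act.mul hm'.act ⟨by ring, by ring⟩⟩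

theorem card_two (R : RD n G) (e : (2 : ℤ) ∣ i - j) : Nat.card (R.U i) = Nat.card (R.U j) := by
  obtain ⟨g, hg⟩ := R.exists_rot e
  exact (hg.card (by ring)).symm

theorem card_V_two (R : RD n G) (e : (2 : ℤ) ∣ i - j) : Nat.card (R.V i) = Nat.card (R.V j) := by
  obtain ⟨g, hg⟩ := R.exists_rot e
  exact (V_card hg ⟨Or.inl rfl, by ring⟩).symm

/-! ### renumbering -/

/-- the datum `j ↦ U (c + ε j)` -/
def line (R : RD n G) (c ε : ℤ) (hε : ε = 1 ∨ ε = -1) : RD n G where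
  U j := R.U (c + ε * j)
  three := R.three
  per i := R.per' (by rcases hε with rfl | rfl <;> [exact ⟨1, by ring⟩; exact ⟨-1, by ring⟩])
  ne i := R.ne _
  comm := by
    intro a b i j _ h2 _ h4 u hu v hv
    rcases hε with rfl | rfl
    · rw [seg_line (Or.inl ⟨rfl, rfl, rfl⟩)]
      exact (R.comm_mem hu hv (by omega)).1
    · rw [seg_line (Or.inr ⟨rfl, rfl, rfl⟩)]
      exact (R.comm_mem hv hu (by omega)).2
  disj := by
    intro i u hu hs
    rcases hε with rfl | rfl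
    · rw [seg_line (Or.inl ⟨rfl, rfl, rfl⟩)] at hs
      exact R.eq_one_left hu hs (by omega)
    · rw [seg_line (Or.inr ⟨rfl, rfl, rfl⟩)] at hs
      exact R.eq_one_left hu hs (by omega)
  disj' := by
    intro i u hu hs
    rcases hε with rfl | rfl
    · rw [seg_line (Or.inl ⟨rfl, rfl, rfl⟩)] at hs
      exact R.eq_one_left hu hs (by omega)
    · rw [seg_line (Or.inr ⟨rfl, rfl, rfl⟩)] at hs
      exact R.eq_one_left hu hs (by omega)
  mu := by
    intro i u hu ne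
    obtain ⟨p, q, hm⟩ := exists_mu (j := c + ε * (i + n)) hu ne (by rcases hε with rfl | rfl <;> omega)
    refine ⟨p, hm.p_mem, q, hm.q_mem, fun j x => ?_⟩
    rw [hm.act (c + ε * j) x,
      show c + ε * i + (c + ε * (i + n)) + -1 * (c + ε * j) = c + ε * (2 * i + n + -1 * j) by ring]

variable {hε : ε = 1 ∨ ε = -1}

theorem line_U (e : k = c + ε * j) : (R.line c ε hε).U j = R.U k := by
  subst e
  rfl

theorem line_seg (e : ε = 1 ∧ i' = c + i ∧ j' = c + j ∨ ε = -1 ∧ i' = c - j ∧ j' = c - i) :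
    seg (R.line c ε hε).U i j = seg R.U i' j' := by
  exact seg_line e

theorem line_V (e : k = c + ε * j) : (R.line c ε hε).V j = R.V k := by
  unfold V
  rw [line_U e, line_seg (i' := k - (n / 2 : ℕ)) (j' := k + (n / 2 : ℕ)) (by rcases hε with rfl | rfl <;> omega)]

theorem line_act : Act (R.line c ε hε).U g k (-1) ↔ Act R.U g (2 * c + ε * k) (-1) := by
  constructor
  · intro h j x
    have := h (ε * (j - c)) x
    rwa [line_U (k := j) (by rcases hε with rfl | rfl <;> ring),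
      line_U (k := 2 * c + ε * k + -1 * j) (by rcases hε with rfl | rfl <;> ring)] at this
  · intro h j x
    rw [line_U rfl, line_U (k := 2 * c + ε * k + -1 * (c + ε * j)) (by ring)]
    exact h _ x

theorem line_Mu (e : i' = c + ε * i ∧ j' = c + ε * j) : (R.line c ε hε).Mu i j p u q ↔ R.Mu i' j' p u q := by
  obtain ⟨rfl, rfl⟩ := e
  constructor
  · intro h
    have e := h.opp
    refine ⟨by rcases hε with rfl | rfl <;> omega, h.u_mem, h.ne, h.p_mem, h.q_mem, ?_⟩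
    have := line_act.1 h.act
    rwa [show 2 * c + ε * (i + j) = c + ε * i + (c + ε * j) by ring] at this
  · intro h
    have e := h.opp
    refine ⟨by rcases hε with rfl | rfl <;> omega, h.u_mem, h.ne, h.p_mem, h.q_mem, line_act.2 ?_⟩
    rw [show 2 * c + ε * (i + j) = c + ε * i + (c + ε * j) by ring]
    exact h.act

theorem Oct.line {R : RD 8 G} (h : R.Oct) (c ε : ℤ) (hε : ε = 1 ∨ ε = -1) (hc : Even c) : (R.line c ε hε).Oct := by
  have he : ∀ i, Even i → Even (c + ε * i) := fun i hi => hc.add (hi.mul_left ε)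
  obtain ⟨t, ht⟩ := hc
  refine ⟨fun i => h.two _, fun i hi => ?_, fun i j k hi e z hz a ha => ?_, fun i => h.ci _, ?_⟩
  · rw [line_V rfl]
    exact h.neV _ (he i hi)
  · rw [line_V rfl] at hz ⊢
    exact h.cv _ _ _ (he i hi) (by rcases hε with rfl | rfl <;> omega) z hz a ha
  · rw [line_U rfl, line_U rfl, R.card_two (j := 0) ⟨t, by omega⟩,
      R.card_two (i := c + ε * 1) (j := 1) (by rcases hε with rfl | rfl <;> omega)]
    exact h.fh

theorem Hex.line {R : RD 6 G} (h : R.Hex) (c ε : ℤ) (hε : ε = 1 ∨ ε = -1) (hc : Even c) : (R.line c ε hε).Hex := by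
  intro i hi
  rw [line_U rfl, line_V rfl]
  exact h _ (hc.add (hi.mul_left ε))

end RD

end CfsgLib.Mouf
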