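import Cfsg.Agent.Lib.Mouf.HDefs

/-!
# Package CN1: finite cubic norm structures, the dimension (see `plans/MOUF.md`)
-/

set_option autoImplicit false

namespace CfsgLib.Mouf
open scoped commutatorElement

namespace CNS
variable {F J : Type} [Field F] [AddCommGroup J] [Module F J] (A : CNS F J)

theorem N_zero : A.N 0 = 0 := by simpa using A.N_smul 0 0

theorem sh_zero : A.sh 0 = 0 := by simpa using A.sh_smul 0 0

theorem N_neg (a : J) : A.N (-a) = -A.N a := by
  have := A.N_smul (-1) a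
  rwa [neg_one_smul, show (-1 : F) ^ 3 = -1 by ring, neg_one_mul] at this

theorem sh_neg (a : J) : A.sh (-a) = A.sh a := by simpa using A.sh_smul (-1) a

theorem e_ne : A.e ≠ 0 := fun h => by
  have := A.N_e
  rw [h, A.N_zero] at this
  exact zero_ne_one this

theorem cr_symm (a b : J) : A.cr a b = A.cr b a := by
  have h := A.sh_add a b
  rw [add_comm a b, A.sh_add, add_comm (A.sh b)] at h
  exact (add_left_cancel h).symm

theorem cr_self (a : J) : A.cr a a = A.sh a + A.sh a := by
  have h := A.sh_smul 2 a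
  rw [two_smul, A.sh_add, mul_smul, two_smul, two_smul] at h
  exact add_left_cancel h

theorem T_ee : A.T A.e A.e = 3 := by
  have := A.T_sh A.e
  rwa [A.sh_e, A.N_e, mul_one] at this

theorem T_eq (a b : J) : A.T a b = A.T A.e a * A.T A.e b - A.T A.e (A.cr a b) := by
  have h := A.T_cr a b A.e
  rw [A.T_symm, A.cr_symm a A.e, A.e_cr, map_sub, map_smul, smul_eq_mul, A.T_symm b A.e, A.T_symm b a] at h
  rw [h]; ring

theorem cr_sh (a : J) : A.cr a (A.sh a) =
    (A.T A.e a * A.T A.e (A.sh a) - A.N a) • A.e - A.T A.e (A.sh a) • a - A.T A.e a • A.sh a := by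
  have h := A.sh_cr a A.e
  rw [A.cr_symm a A.e, A.e_cr, map_sub, map_smul, A.cr_symm _ A.e, A.e_cr, A.cr_symm _ a, A.T_symm (A.sh a)] at h
  linear_combination (norm := module) -h

theorem N_sub (x : F) (a : J) :
    A.N (x • A.e - a) = x ^ 3 - A.T A.e a * x ^ 2 + A.T A.e (A.sh a) * x - A.N a := by
  rw [sub_eq_add_neg, A.N_add, A.N_smul, A.N_neg, A.sh_smul, A.sh_neg, A.sh_e, A.N_e]
  simp only [map_smul, map_neg, LinearMap.smul_apply, smul_eq_mul]
  ring

theorem linInd {a : J} (ha : ∀ s : F, a ≠ s • A.e) : LinearIndependent F ![A.e, a, A.sh a] := by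
  rw [Fintype.linearIndependent_iff]
  intro g hg
  rw [Fin.sum_univ_three] at hg
  simp only [Matrix.cons_val_zero, Matrix.cons_val_one, Matrix.cons_val] at hg
  have h2 : g 2 = 0 := by
    by_contra hz
    obtain ⟨α, β, hs⟩ : ∃ α β : F, A.sh a = α • A.e + β • a := ⟨-(g 0 / g 2), -(g 1 / g 2), by
      have : A.sh a = (g 2)⁻¹ • (g 2 • A.sh a) := by rw [smul_smul, inv_mul_cancel₀ hz, one_smul]
      rw [this, eq_neg_of_add_eq_zero_right hg]
      match_scalars <;> field_simp⟩
    have hb : A.sh (β • A.e + a) = (β * β + α + β * A.T A.e a) • A.e := by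
      rw [A.sh_add, A.sh_smul, A.sh_e, hs, map_smul, LinearMap.smul_apply, A.e_cr]; module
    have hne : β • A.e + a ≠ 0 := fun h => ha (-β) (by rw [neg_smul]; exact eq_neg_of_add_eq_zero_right h)
    have hN := A.N_ne _ hne
    have h3 := A.shsh (β • A.e + a)
    rw [hb, A.sh_smul, A.sh_e] at h3
    set γ := (β * β + α + β * A.T A.e a) * (β * β + α + β * A.T A.e a)
    set n := A.N (β • A.e + a)
    refine ha (γ / n - β) ?_
    have : β • A.e + a = n⁻¹ • (n • (β • A.e + a)) := by rw [smul_smul, inv_mul_cancel₀ hN, one_smul]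
    rw [← h3, smul_smul] at this
    rw [sub_smul, div_eq_inv_mul, ← this]; abel
  rw [h2, zero_smul, add_zero] at hg
  have h1 : g 1 = 0 := by
    by_contra hy
    refine ha (-(g 0 / g 1)) ?_
    have : a = (g 1)⁻¹ • (g 1 • a) := by rw [smul_smul, inv_mul_cancel₀ hy, one_smul]
    rw [this, eq_neg_of_add_eq_zero_right hg]
    match_scalars; field_simp
  rw [h1, zero_smul, add_zero] at hg
  have h0 : g 0 = 0 := (smul_eq_zero.1 hg).resolve_right A.e_ne
  intro i
  fin_cases i
  exacts [h0, h1, h2]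

theorem sh_coord (a : J) (x y z : F) : A.sh (x • A.e + y • a + z • A.sh a) =
    (x * x + x * y * A.T A.e a + x * z * A.T A.e (A.sh a) + y * z * (A.T A.e a * A.T A.e (A.sh a) - A.N a)) • A.e +
      (z * z * A.N a - x * y - y * z * A.T A.e (A.sh a)) • a + (y * y - x * z - y * z * A.T A.e a) • A.sh a := by
  rw [A.sh_add, A.sh_add, A.sh_smul, A.sh_smul, A.sh_smul, A.sh_e, A.shsh]
  simp only [map_add, map_smul, LinearMap.add_apply, LinearMap.smul_apply, A.e_cr, A.cr_sh]
  module

open MvPolynomial in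
private theorem exists_poly {σ : Type} (b : σ → J) (s : Finset σ) :
    (∀ L : J →ₗ[F] F, ∃ f : MvPolynomial σ F, f.IsHomogeneous 1 ∧ ∀ x, eval x f = L (∑ i ∈ s, x i • b i)) ∧
    (∀ L : J →ₗ[F] F, ∃ f : MvPolynomial σ F, f.IsHomogeneous 2 ∧ ∀ x, eval x f = L (A.sh (∑ i ∈ s, x i • b i))) ∧
    ∃ f : MvPolynomial σ F, f.IsHomogeneous 3 ∧ ∀ x, eval x f = A.N (∑ i ∈ s, x i • b i) := by
  classical
  induction s using Finset.induction_on with
  | empty =>
    exact ⟨fun L => ⟨0, isHomogeneous_zero _ _ _, fun x => by simp⟩,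
      fun L => ⟨0, isHomogeneous_zero _ _ _, fun x => by simp [A.sh_zero]⟩,
      ⟨0, isHomogeneous_zero _ _ _, fun x => by simp [A.N_zero]⟩⟩
  | insert i s hi ih =>
    obtain ⟨h1, h2, f3, hf3, e3⟩ := ih
    have hX := isHomogeneous_X F i
    have hC := fun c : F => isHomogeneous_C σ c
    refine ⟨fun L => ?_, fun L => ?_, ?_⟩
    · obtain ⟨f, hf, e⟩ := h1 L
      exact ⟨X i * C (L (b i)) + f, (hX.mul (hC _)).add hf, fun x => by simp [Finset.sum_insert hi, e]⟩
    · obtain ⟨f, hf, e⟩ := h2 L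
      obtain ⟨g, hg, e'⟩ := h1 (L ∘ₗ A.cr (b i))
      refine ⟨X i * X i * C (L (A.sh (b i))) + f + X i * g, (((hX.mul hX).mul (hC _)).add hf).add (hX.mul hg),
        fun x => ?_⟩
      rw [Finset.sum_insert hi, A.sh_add, A.sh_smul]
      simp only [map_add, map_mul, eval_X, eval_C, e, e', map_smul, LinearMap.smul_apply, smul_eq_mul,
        LinearMap.comp_apply]
    · obtain ⟨f, hf, e⟩ := h2 (A.T (b i))
      obtain ⟨g, hg, e'⟩ := h1 (A.T (A.sh (b i)))
      refine ⟨X i * X i * X i * C (A.N (b i)) + f3 + X i * X i * g + X i * f,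
        (((((hX.mul hX).mul hX).mul (hC _)).add hf3).add ((hX.mul hX).mul hg)).add (hX.mul hf), fun x => ?_⟩
      rw [Finset.sum_insert hi, A.N_add, A.sh_smul, A.N_smul]
      simp only [map_add, map_mul, eval_X, eval_C, e, e', e3, map_smul, LinearMap.smul_apply, smul_eq_mul]
      ring

include A in
theorem finrank_le [Finite F] [Finite J] : Module.finrank F J ≤ 3 := by
  classical
  by_contra hlt
  have := Fintype.ofFinite F
  obtain ⟨b, hb⟩ := exists_linearIndependent_of_le_finrank (R := F) (M := J) (n := 4) (by omega)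
  obtain ⟨-, -, f, hf, e⟩ := A.exists_poly b Finset.univ
  obtain ⟨p, hp⟩ := CharP.exists F
  have h1 := char_dvd_card_solutions p (f := f) (lt_of_le_of_lt hf.totalDegree_le (by simp))
  have h2 : Fintype.card {x : Fin 4 → F // MvPolynomial.eval x f = 0} = 1 := by
    refine Fintype.card_eq_one_iff.2 ⟨⟨0, by rw [e]; simp [A.N_zero]⟩, fun x => Subtype.ext (funext fun i => ?_)⟩
    refine Fintype.linearIndependent_iff.1 hb x.1 ?_ i
    by_contra h
    exact A.N_ne _ h ((e _).symm.trans x.2)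
  rw [h2, Nat.dvd_one] at h1
  exact CharP.char_ne_one F p h1

theorem finrank_eq [Finite F] [Finite J] {a : J} (ha : ∀ s : F, a ≠ s • A.e) : Module.finrank F J = 3 :=
  le_antisymm A.finrank_le (by simpa using (A.linInd ha).fintype_card_le_finrank)

theorem span [Finite F] [Finite J] {a : J} (ha : ∀ s : F, a ≠ s • A.e) (b : J) :
    ∃ x y z : F, b = x • A.e + y • a + z • A.sh a := by
  have h := (A.linInd ha).span_eq_top_of_card_eq_finrank' (by simp [A.finrank_eq ha])
  obtain ⟨c, hc⟩ := (Submodule.mem_span_range_iff_exists_fun F).1 (h ▸ Submodule.mem_top (x := b))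
  exact ⟨c 0, c 1, c 2, by rw [← hc, Fin.sum_univ_three]; rfl⟩

include A in
theorem card [Finite F] [Finite J] : Nat.card J = Nat.card F ∨ Nat.card J = Nat.card F ^ 3 := by
  rw [Module.natCard_eq_pow_finrank (K := F)]
  by_cases h : ∃ a : J, ∀ s : F, a ≠ s • A.e
  · obtain ⟨a, ha⟩ := h
    exact .inr (by rw [A.finrank_eq ha])
  · push Not at h
    exact .inl (by rw [(finrank_eq_one_iff_of_nonzero' A.e A.e_ne).2 fun a => (h a).imp fun _ => Eq.symm, pow_one])

end CNS

end CfsgLib.Mouf
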