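import Cfsg.Agent.Lib.Mouf.CN1

/-!
# Package CN2: finite cubic norm structures, uniqueness (see `plans/MOUF.md`)
-/

set_option autoImplicit false

namespace CfsgLib.Mouf
open scoped commutatorElement

namespace CNS
variable {F J F' J' : Type} [Field F] [AddCommGroup J] [Module F J] [Field F'] [AddCommGroup J'] [Module F' J']

/-- a linear map that preserves the base point and the adjoint preserves everything -/
theorem preserve [Module F J'] (A : CNS F J) (A' : CNS F J') (ψ : J ≃ₗ[F] J') (he : ψ A.e = A'.e)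
    (hs : ∀ a, ψ (A.sh a) = A'.sh (ψ a)) : (∀ a, A'.N (ψ a) = A.N a) ∧ (∀ a b, A'.T (ψ a) (ψ b) = A.T a b) ∧
      ∀ a b, ψ (A.cr a b) = A'.cr (ψ a) (ψ b) := by
  have hc : ∀ a b, ψ (A.cr a b) = A'.cr (ψ a) (ψ b) := fun a b => by
    have h := hs (a + b)
    rw [A.sh_add, map_add, map_add, map_add, A'.sh_add, hs, hs] at h
    exact add_left_cancel h
  have hT : ∀ b, A'.T A'.e (ψ b) = A.T A.e b := fun b => by
    have h := hc A.e b
    rw [he, A.e_cr, A'.e_cr, map_sub, map_smul, he, sub_left_inj] at h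
    exact (smul_left_injective F A'.e_ne h).symm
  refine ⟨fun a => ?_, fun a b => by rw [A.T_eq, A'.T_eq, ← hc, hT, hT, hT], hc⟩
  by_cases ha : a = 0
  · rw [ha, map_zero, A.N_zero, A'.N_zero]
  · have h := hs (A.sh a)
    rw [A.shsh, hs, A'.shsh, map_smul] at h
    exact (smul_left_injective F ((map_ne_zero_iff ψ ψ.injective).2 ha) h).symm

theorem N_coord (A : CNS F J) (a : J) (x y z t s n : F) (ht : A.T A.e a = t) (hs : A.T A.e (A.sh a) = s)
    (hn : A.N a = n) : A.N (x • A.e + y • a + z • A.sh a) =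
      x ^ 3 + y ^ 3 * n + x * x * y * t + x * y * y * s + z ^ 3 * n * n +
        z * (x * x * s + y * y * (s * s - 2 * n * t) + x * y * (t * s - 3 * n)) +
        z * z * n * (x * t + y * (t * t - 2 * s)) := by
  have h1 : A.T a (A.sh a) = 3 * n := hn ▸ A.T_sh a
  have h2 : A.T (A.sh a) (A.sh a) = s * s - 2 * n * t := by
    rw [A.T_eq, A.cr_self, A.shsh, map_add, map_smul, hs, ht, hn, smul_eq_mul]; ring
  have h3 : A.T a a = t * t - 2 * s := by rw [A.T_eq, A.cr_self, map_add, hs, ht]; ring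
  rw [A.N_add, A.N_add, A.sh_add, A.N_smul, A.N_smul, A.N_smul, A.sh_smul, A.sh_smul, A.sh_smul, A.sh_e, A.shsh,
    A.N_e, A.N_sh]
  simp only [map_add, map_smul, LinearMap.add_apply, LinearMap.smul_apply, A.e_cr, map_sub, LinearMap.sub_apply,
    smul_eq_mul, h1, h2, h3, ht, hs, hn]
  ring

theorem field_aux [Finite F] [Finite J] (A : CNS F J) {a : J} (ha : ∀ s : F, a ≠ s • A.e) {t s n : F}
    (ht : A.T A.e a = t) (hs : A.T A.e (A.sh a) = s) (hn : A.N a = n) {E : Type} [Field E] [Algebra F E]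
    [Module.Finite F E] (hE : Module.finrank F E = 3) {θ : E}
    (hθ : θ ^ 3 - algebraMap F E t * θ ^ 2 + algebraMap F E s * θ - algebraMap F E n = 0) :
    ∃ ι : J ≃ₗ[F] E, ι A.e = 1 ∧ Module.finrank F E = 3 ∧
      (∀ b, ι (A.sh b) = ι b ^ 2 - A.T A.e b • ι b + algebraMap F E (A.T A.e (A.sh b))) ∧
      ∀ b, ι b * ι (A.sh b) = algebraMap F E (A.N b) := by
  let B := basisOfLinearIndependentOfCardEqFinrank (A.linInd ha) (by simp [A.finrank_eq ha])
  let ι : J →ₗ[F] E := B.constr F ![1, θ, θ ^ 2 - algebraMap F E t * θ + algebraMap F E s]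
  have hB : ∀ i, ι (![A.e, a, A.sh a] i) = ![1, θ, θ ^ 2 - algebraMap F E t * θ + algebraMap F E s] i := fun i => by
    rw [← coe_basisOfLinearIndependentOfCardEqFinrank (A.linInd ha) (by simp [A.finrank_eq ha])]
    exact B.constr_basis F _ i
  have h0 : ι A.e = 1 := hB 0
  have h1 : ι a = θ := hB 1
  have h2 : ι (A.sh a) = θ ^ 2 - algebraMap F E t * θ + algebraMap F E s := hB 2
  have e1 : ∀ b, ι (A.sh b) = ι b ^ 2 - A.T A.e b • ι b + algebraMap F E (A.T A.e (A.sh b)) := fun b => by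
    obtain ⟨x, y, z, rfl⟩ := A.span ha b
    rw [A.sh_coord]
    simp only [map_add, map_smul, h0, h1, h2, ht, hs, hn, A.T_ee, smul_eq_mul, Algebra.smul_def, map_mul, map_sub,
      map_ofNat]
    linear_combination (-algebraMap F E z ^ 2 * θ - 2 * algebraMap F E y * algebraMap F E z +
      algebraMap F E t * algebraMap F E z ^ 2) * hθ
  have e2 : ∀ b, ι b * ι (A.sh b) = algebraMap F E (A.N b) := fun b => by
    obtain ⟨x, y, z, rfl⟩ := A.span ha b
    rw [A.sh_coord, A.N_coord a x y z t s n ht hs hn]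
    simp only [map_add, map_smul, h0, h1, h2, ht, hs, hn, Algebra.smul_def, map_mul, map_sub, map_ofNat, map_pow]
    generalize algebraMap F E x = x, algebraMap F E y = y, algebraMap F E z = z, algebraMap F E t = t,
      algebraMap F E s = s, algebraMap F E n = n at hθ ⊢
    linear_combination (z * (y * y - x * z - y * z * t) * θ + z * (z * z * n - x * y - y * z * s) -
      t * z * (y * y - x * z - y * z * t) + y * (y * y - x * z - y * z * t)) * hθ
  have hi : Function.Injective ι := (injective_iff_map_eq_zero ι).2 fun b hb => by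
    by_contra h
    have := e2 b
    rw [hb, zero_mul, eq_comm, map_eq_zero] at this
    exact A.N_ne b h this
  exact ⟨ι.linearEquivOfInjective hi (by rw [A.finrank_eq ha, hE]), h0, hE, e1, e2⟩

open Polynomial in
/-- the structure lives in a cubic extension -/
theorem exists_field [Finite F] [Finite J] (A : CNS F J) {a : J} (ha : ∀ s : F, a ≠ s • A.e) :
    ∃ (E : Type) (_ : Field E) (_ : Algebra F E) (ι : J ≃ₗ[F] E), ι A.e = 1 ∧ Module.finrank F E = 3 ∧
      (∀ b, ι (A.sh b) = ι b ^ 2 - A.T A.e b • ι b + algebraMap F E (A.T A.e (A.sh b))) ∧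
      ∀ b, ι b * ι (A.sh b) = algebraMap F E (A.N b) := by
  obtain ⟨t, ht⟩ : ∃ t, A.T A.e a = t := ⟨_, rfl⟩
  obtain ⟨s, hs⟩ : ∃ s, A.T A.e (A.sh a) = s := ⟨_, rfl⟩
  obtain ⟨n, hn⟩ : ∃ n, A.N a = n := ⟨_, rfl⟩
  let f : F[X] := X ^ 3 - C t * X ^ 2 + C s * X - C n
  have hd : f.natDegree = 3 := by simp only [f]; compute_degree!
  have hf0 : f ≠ 0 := fun h => by rw [h] at hd; simp at hd
  have hirr : Irreducible f := (irreducible_iff_roots_eq_zero_of_degree_le_three (by omega) hd.le).2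
    (Multiset.eq_zero_of_forall_notMem fun x hx => by
      have h1 := ((mem_roots hf0).1 hx).eq_zero
      refine A.N_ne (x • A.e - a) (fun h => ha x (sub_eq_zero.1 h).symm) ?_
      rw [A.N_sub, ht, hs, hn]
      simpa [f] using h1)
  have := Fact.mk hirr
  have hE : Module.finrank F (AdjoinRoot f) = 3 := by rw [(AdjoinRoot.powerBasis hf0).finrank, AdjoinRoot.powerBasis_dim, hd]
  have := (AdjoinRoot.powerBasis hf0).finite
  have hθ : aeval (AdjoinRoot.root f) f = 0 := by rw [AdjoinRoot.aeval_eq, AdjoinRoot.mk_self]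
  exact ⟨AdjoinRoot f, inferInstance, inferInstance,
    A.field_aux ha ht hs hn hE (θ := AdjoinRoot.root f) (by simpa [f] using hθ)⟩

theorem exists_equiv_same [Module F J'] [Finite F] [Finite J] [Finite J'] (A : CNS F J) (A' : CNS F J')
    (hc : Nat.card J = Nat.card J') : ∃ ψ : J ≃ₗ[F] J', ψ A.e = A'.e ∧ ∀ a, ψ (A.sh a) = A'.sh (ψ a) := by
  have hr : Module.finrank F J = Module.finrank F J' := by
    rw [Module.natCard_eq_pow_finrank (K := F), Module.natCard_eq_pow_finrank (K := F) (V := J')] at hc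
    exact Nat.pow_right_injective Finite.one_lt_card hc
  have h1 : ∀ {K : Type} [AddCommGroup K] [Module F K] (D : CNS F K), (¬ ∃ a : K, ∀ s : F, a ≠ s • D.e) →
      Module.finrank F K = 1 := fun D h => by
    push Not at h
    exact (finrank_eq_one_iff_of_nonzero' D.e D.e_ne).2 fun a => (h a).imp fun _ => Eq.symm
  have key : ∀ ψ : J ≃ₗ[F] J', ψ A.e = A'.e → ∀ s : F, ψ (A.sh (s • A.e)) = A'.sh (ψ (s • A.e)) := fun ψ he s => by
    rw [A.sh_smul, A.sh_e, map_smul, map_smul, he, A'.sh_smul, A'.sh_e]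
  by_cases h : ∃ a : J, ∀ s : F, a ≠ s • A.e
  · obtain ⟨a, ha⟩ := h
    obtain ⟨a', ha'⟩ : ∃ a : J', ∀ s : F, a ≠ s • A'.e := by
      by_contra h'
      have := h1 A' h'
      rw [← hr, A.finrank_eq ha] at this
      omega
    obtain ⟨E, _, _, ι, i0, hE, i1, i2⟩ := A.exists_field ha
    obtain ⟨E', _, _, ι', i0', hE', i1', i2'⟩ := A'.exists_field ha'
    have : Finite E' := Finite.of_equiv _ ι'.toEquiv
    have : Finite E := Finite.of_equiv _ ι.toEquiv
    obtain ⟨g⟩ := FiniteField.nonempty_algHom_of_finrank_dvd (F := F) (K := E) (L := E') (by rw [hE, hE'])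
    let g' := g.toLinearMap.linearEquivOfInjective g.injective (by rw [hE, hE'])
    let ψ := (ι.trans g').trans ι'.symm
    have hψ : ∀ b, ι' (ψ b) = g (ι b) := fun b => ι'.apply_symm_apply _
    have he : ψ A.e = A'.e := ι'.injective (by rw [hψ, i0, i0', map_one])
    refine ⟨ψ, he, fun b => ?_⟩
    by_cases hb : ∃ s : F, b = s • A.e
    · obtain ⟨s, rfl⟩ := hb
      exact key ψ he s
    have hb' : ∀ s : F, ψ b ≠ s • A'.e := fun s e => hb ⟨s, ψ.injective (by rw [e, map_smul, he])⟩
    have j1 := congrArg g (i1 b)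
    have j2 := congrArg g (i2 b)
    have j3 := i1' (ψ b)
    have j4 := i2' (ψ b)
    rw [map_mul, AlgHom.commutes, j1] at j2
    simp only [map_add, map_sub, map_pow, map_smul, AlgHom.commutes, ← hψ] at j1 j2
    set t := A.T A.e b
    set s := A.T A.e (A.sh b)
    set t' := A'.T A'.e (ψ b)
    set s' := A'.T A'.e (A'.sh (ψ b))
    have hl := Fintype.linearIndependent_iff.1 (A'.linInd hb')
      ![A.N b - A'.N (ψ b) - (t - t') * s', (t - t') * t' + s' - s, t - t'] (ι'.injective (by
        rw [Fin.sum_univ_three]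
        simp only [Matrix.cons_val_zero, Matrix.cons_val_one, Matrix.cons_val, map_add, map_smul, i0', map_zero]
        rw [j3] at j4 ⊢
        simp only [Algebra.smul_def, map_sub, map_mul, map_add] at j2 j4 ⊢
        linear_combination j4 - j2))
    have l2 : t - t' = 0 := hl 2
    have l1 : (t - t') * t' + s' - s = 0 := hl 1
    rw [l2, zero_mul, zero_add, sub_eq_zero] at l1
    exact ι'.injective (by rw [j1, j3, l1, sub_eq_zero.1 l2])
  · have r1 := h1 A h
    let B := FiniteDimensional.basisSingleton Unit r1 A.e A.e_ne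
    let B' := FiniteDimensional.basisSingleton Unit (hr ▸ r1) A'.e A'.e_ne
    have he : B.equiv B' (Equiv.refl _) A.e = A'.e := by
      have := B.equiv_apply () B' (Equiv.refl _)
      simpa [B, B'] using this
    push Not at h
    refine ⟨_, he, fun b => ?_⟩
    obtain ⟨s, rfl⟩ := h b
    exact key _ he s

theorem exists_equiv [Finite F] [Finite J] [Finite J'] (A : CNS F J) (A' : CNS F' J') (φ : F ≃+* F')
    (hc : Nat.card J = Nat.card J') : ∃ ψ : J ≃+ J', (∀ (s : F) a, ψ (s • a) = φ s • ψ a) ∧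
      (∀ a, ψ (A.sh a) = A'.sh (ψ a)) ∧ (∀ a, A'.N (ψ a) = φ (A.N a)) ∧ (∀ a b, A'.T (ψ a) (ψ b) = φ (A.T a b)) ∧
      ∀ a b, ψ (A.cr a b) = A'.cr (ψ a) (ψ b) := by
  let _ : Module F J' := Module.compHom J' (φ : F →+* F')
  have sm : ∀ (s : F) (a : J'), s • a = φ s • a := fun _ _ => rfl
  let D : CNS F J' :=
    { e := A'.e
      N := fun a => φ.symm (A'.N a)
      sh := A'.sh
      T := LinearMap.mk₂ F (fun a b => φ.symm (A'.T a b)) (fun _ _ _ => by simp) (fun _ _ _ => by simp [sm])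
        (fun _ _ _ => by simp) (fun _ _ _ => by simp [sm])
      cr := LinearMap.mk₂ F (fun a b => A'.cr a b) (fun _ _ _ => by simp) (fun _ _ _ => by simp [sm])
        (fun _ _ _ => by simp) (fun _ _ _ => by simp [sm])
      sh_add := A'.sh_add
      sh_smul := fun s a => by rw [sm, sm, A'.sh_smul, map_mul]
      N_add := fun a b => by simp [A'.N_add]
      N_smul := fun s a => by simp [sm, A'.N_smul]
      N_ne := fun a ha => by simpa using A'.N_ne a ha
      N_e := by simp [A'.N_e]
      sh_e := A'.sh_e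
      T_symm := fun a b => by simp [A'.T_symm a b]
      T_sh := fun a => by simp [A'.T_sh, map_ofNat]
      T_cr := fun a b c => by simp [A'.T_cr a b c]
      shsh := fun a => by simp [sm, A'.shsh]
      N_sh := fun a => by simp [A'.N_sh]
      e_cr := fun b => by simp [sm, A'.e_cr]
      sh_cr := fun a b => by simp [sm, A'.sh_cr] }
  obtain ⟨ψ, he, hs⟩ := A.exists_equiv_same D hc
  obtain ⟨h1, h2, h3⟩ := A.preserve D ψ he hs
  exact ⟨ψ.toAddEquiv, fun s a => ψ.map_smul s a, hs, fun a => φ.symm_apply_eq.1 (h1 a),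
    fun a b => φ.symm_apply_eq.1 (h2 a b), h3⟩

end CNS

end CfsgLib.Mouf
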