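import Mathlib

/-!
# Root group data of rank two: definitions (project MOUF, see `plans/MOUF.md`)
-/

set_option autoImplicit false

namespace CfsgLib.Mouf
open scoped commutatorElement

variable {G : Type*} [Group G]

/-- the subgroup generated by `U i, …, U j` -/
def seg (U : ℤ → Subgroup G) (i j : ℤ) : Subgroup G := ⨆ k, ⨆ _ : i ≤ k ∧ k ≤ j, U k

/-- `g` maps `U j` onto `U (c + ε j)` -/
def Act (U : ℤ → Subgroup G) (g : G) (c ε : ℤ) : Prop := ∀ j x, x ∈ U j ↔ g * x * g⁻¹ ∈ U (c + ε * j)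

/-- the commutator relations -/
def Comm (n : ℕ) (U : ℤ → Subgroup G) (a b : ℤ) : Prop :=
  ∀ i j, a ≤ i → i < j → j ≤ b → j < i + n → ∀ u ∈ U i, ∀ v ∈ U j, ⁅u, v⁆ ∈ seg U (i + 1) (j - 1)

/-- `h` acts on the family `f` by the scalar `s` -/
def Sc {K : Type*} [Mul K] (h : G) (f : K → G) (s : K) : Prop := ∀ t, h * f t * h⁻¹ = f (s * t)

/-- a root group datum for the dihedral group of order `2 n` -/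
structure RD (n : ℕ) (G : Type*) [Group G] where
  U : ℤ → Subgroup G
  three : 3 ≤ n
  per : ∀ i, U (i + 2 * n) = U i
  ne : ∀ i, U i ≠ ⊥
  comm : ∀ a b, Comm n U a b
  disj : ∀ i, ∀ u ∈ U i, u ∈ seg U (i + 1) (i + n) → u = 1
  disj' : ∀ i, ∀ u ∈ U i, u ∈ seg U (i - n) (i - 1) → u = 1
  mu : ∀ i, ∀ u ∈ U i, u ≠ 1 → ∃ p ∈ U (i + n), ∃ q ∈ U (i + n), Act U (p * u * q) (2 * i + n) (-1)

namespace RD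
variable {n : ℕ} (R : RD n G)

/-- the central elations -/
def V (i : ℤ) : Subgroup G := R.U i ⊓ Subgroup.centralizer (seg R.U (i - (n / 2 : ℕ)) (i + (n / 2 : ℕ)) : Set G)

/-- `p * u * q = μ(u)` for `u` in `U i`, `U j` the opposite root group -/
structure Mu (i j : ℤ) (p u q : G) : Prop where
  opp : j = i + n ∨ j = i - n
  u_mem : u ∈ R.U i
  ne : u ≠ 1
  p_mem : p ∈ R.U j
  q_mem : q ∈ R.U j
  act : Act R.U (p * u * q) (i + j) (-1)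

/-- the root groups with index in `[a, b]` of two data correspond under `Γ` -/
structure Match {G' : Type*} [Group G'] (R' : RD n G') (Γ : ℤ → Subgroup (G × G')) (a b : ℤ) : Prop where
  le : ∀ i, a ≤ i → i ≤ b → ∀ g ∈ Γ i, g.1 ∈ R.U i ∧ g.2 ∈ R'.U i
  surj : ∀ i, a ≤ i → i ≤ b → ∀ u ∈ R.U i, ∃ u', (u, u') ∈ Γ i
  surj' : ∀ i, a ≤ i → i ≤ b → ∀ u' ∈ R'.U i, ∃ u, (u, u') ∈ Γ i
  inj : ∀ i, a ≤ i → i ≤ b → ∀ g ∈ Γ i, g.1 = 1 ↔ g.2 = 1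

/-- the hypotheses for octagons -/
structure Oct (R : RD 8 G) : Prop where
  two : ∀ i, IsPGroup 2 (R.U i)
  neV : ∀ i, Even i → R.V i ≠ ⊥
  cv : ∀ i j k, Even i → (j = i + 5 ∧ k = i + 2 ∨ j = i - 5 ∧ k = i - 2) → ∀ z ∈ R.V i, ∀ a ∈ R.U j, ⁅a, z⁆ ∈ R.V k
  ci : ∀ i, ∀ u ∈ R.U i, u * u = 1 → ∀ v ∈ R.U i, Commute u v
  fh : IsSquare (2 * Nat.card (R.U 0) * Nat.card (R.U 1))

/-- the qualitative structure of an octagon -/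
structure Oct2 (R : RD 8 G) : Prop extends Oct R where
  c2 : ∀ i j, Odd i → j = i + 2 → ∀ u ∈ R.U i, ∀ v ∈ R.U j, Commute u v
  c4 : ∀ i j, j = i + 4 → ∀ u ∈ R.U i, ∀ v ∈ R.U j, Commute u v
  c3 : ∀ i j k, Odd i → (j = i + 3 ∧ k = i + 1 ∨ j = i - 3 ∧ k = i - 1) → ∀ x ∈ R.U i, ∀ a ∈ R.U j, ⁅a, x⁆ ∈ R.V k
  ker : ∀ i j, Odd i → (j = i + 3 ∨ j = i - 3) → ∀ x ∈ R.U i, x ≠ 1 → ∀ a ∈ R.U j, Commute a x → a ∈ R.V j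
  e5 : ∀ x ∈ R.U 3, ∀ a ∈ R.U 8, ∃ z₄ ∈ R.V 4, ∃ x₅ ∈ R.U 5, ∃ z₆ ∈ R.V 6, a * x * a⁻¹ = x * z₄ * x₅ * z₆
  e6 : ∀ z ∈ R.V 2, ∀ a ∈ R.U 8, ∃ x₃ ∈ R.U 3, ∃ z₄ ∈ R.V 4, ∃ x₅ ∈ R.U 5, ∃ z₆ ∈ R.V 6,
    a * z * a⁻¹ = z * x₃ * z₄ * x₅ * z₆
  zz : ∀ z ∈ R.V 2, ∀ w ∈ R.V 8, ∀ z₄ ∈ R.V 4, ∀ z₆ ∈ R.V 6, w * z * w⁻¹ = z * z₄ * z₆ → z = 1 ∨ w = 1

/-- the subgroup `E₈` -/
def E (R : RD 8 G) : Subgroup G :=
  R.V 4 ⊔ R.V 6 ⊔ Subgroup.closure {g | ∃ a ∈ R.U 8, ∃ z ∈ R.V 2, g = a * z * a⁻¹}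

/-- coordinates `x k` for `U (2 k + 1)` and `z k` for `V (2 k)` -/
structure O1 (R : RD 8 G) (K : Type) [Field K] where
  x : ℤ → K → G
  z : ℤ → K → G
  n1 : G
  n8 : G
  two : (2 : K) = 0
  xadd : ∀ k s t, x k (s + t) = x k s * x k t
  zadd : ∀ k s t, z k (s + t) = z k s * z k t
  xU : ∀ k g, g ∈ R.U (2 * k + 1) ↔ ∃ t, x k t = g
  zV : ∀ k g, g ∈ R.V (2 * k) ↔ ∃ t, z k t = g
  xinj : ∀ k t, x k t = 1 → t = 0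
  zinj : ∀ k t, z k t = 1 → t = 0
  n1n1 : n1 * n1 = 1
  n8n8 : n8 * n8 = 1
  mu1 : ∃ p, R.Mu 1 9 p (x 0 1) p⁻¹ ∧ n1 = p * x 0 1 * p⁻¹
  mu8 : ∃ p, R.Mu 8 0 p (z 4 1) p⁻¹ ∧ n8 = p * z 4 1 * p⁻¹
  n1x : ∀ k t, n1 * x k t * n1⁻¹ = x (4 - k) t
  n1z : ∀ k t, n1 * z k t * n1⁻¹ = z (5 - k) t
  n8x : ∀ k t, n8 * x k t * n8⁻¹ = x (3 - k) t
  n8z : ∀ k t, n8 * z k t * n8⁻¹ = z (4 - k) t
  xz : ∀ r t, x 3 r * z 1 t * (x 3 r)⁻¹ = z 1 t * z 2 (t * r)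
  sc : ∀ v p q, R.Mu 8 0 p (z 4 v) q → ∃ s, ∀ t, (p * z 4 v * q) * z 1 t * (p * z 4 v * q)⁻¹ = z 3 (s * t)

/-- the endomorphism `σ` and the torus -/
structure O2 (R : RD 8 G) (K : Type) [Field K] (σ : K →+* K) extends O1 R K where
  c : K
  c0 : c ≠ 0
  ss : ∀ t, σ (σ t) = t * t
  zz : ∀ v t, z 4 v * z 1 t * (z 4 v)⁻¹ = z 1 t * z 2 (σ t * v) * x 2 (c * t * v) * z 3 (t * σ v)
  tor : ∀ s, s ≠ 0 → ∃ h ∈ R.U 0 ⊔ R.U 8, Act R.U h 0 1 ∧ Sc h (z 1) s ∧ Sc h (z 2) 1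

/-- the action of `a` on `E₈` -/
structure O1.Dat {R : RD 8 G} {K : Type} [Field K] (O : O1 R K) (σ : K →+* K) (a : G) (π ε η ρ γ₄ γ₅ γ₆ π' : K) :
    Prop where
  a5 : ∀ r, a * O.x 2 r * a⁻¹ = O.x 2 r * O.z 3 (r * π')
  a3 : ∀ r, a * O.x 1 r * a⁻¹ = O.x 1 r * O.z 2 (σ r * γ₄) * O.x 2 (r * γ₅) * O.z 3 (r * γ₆)
  a2 : ∀ t, a * O.z 1 t * a⁻¹ = O.z 1 t * O.x 1 (t * π) * O.z 2 (σ t * η) * O.x 2 (t * ε) * O.z 3 (t * ρ)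

/-- coordinates `y k s * z k t` for `U (2 k)` -/
structure O3 (R : RD 8 G) (K : Type) [Field K] (σ : K →+* K) extends O2 R K σ where
  y : ℤ → K → G
  c1 : c = 1
  yadd : ∀ k s t, y k s * y k t = y k (s + t) * z k (s * σ t)
  yU : ∀ k g, g ∈ R.U (2 * k) ↔ ∃ s t, y k s * z k t = g
  yinj : ∀ k s t, y k s * z k t = 1 → s = 0 ∧ t = 0
  n1y : ∀ k t, n1 * y k t * n1⁻¹ = y (5 - k) t
  n8y : ∀ k t, n8 * y k t * n8⁻¹ = y (4 - k) t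
  dat : ∀ u, toO1.Dat σ (y 4 u) u (u * σ u) 0 (u * u * σ u) u (σ u) 0 u
  st : z 0 1 * (y 4 1 * z 4 1) = y 4 1 * z 4 1 * n8

/-- the hypothesis for hexagons -/
def Hex (R : RD 6 G) : Prop := ∀ i, Even i → R.U i ≤ R.V i

end RD

end CfsgLib.Mouf
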