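import Mathlib
import Cfsg.Agent.Lib.Push.Jordan

/-!
# Package FLD: fields (see `plans/MOUF.md`)
-/

set_option autoImplicit false

namespace CfsgLib.Mouf
open scoped commutatorElement

variable {G : Type*} [Group G]

/-- a type with `n` elements and no instances -/
def FldCar (n : ℕ) : Type := Fin n

theorem fld_core {A : Type*} [AddCommGroup A] [Finite A] (S : Subring (AddMonoid.End A)) {v₀ : A} (ne : v₀ ≠ 0)
    (inj : ∀ s ∈ S, s ≠ 0 → Function.Injective s) :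
    ∃ (K : Type) (_ : Field K) (_ : Finite K), Nonempty (K ≃+* S) := by
  have : Finite (AddMonoid.End A) := Finite.of_injective (fun s : AddMonoid.End A => (s : A → A))
    DFunLike.coe_injective
  have : Nontrivial S := ⟨1, 0, fun h => ne (by simpa using congrArg (fun s : S => (s : AddMonoid.End A) v₀) h)⟩
  have : NoZeroDivisors S := ⟨fun {a b} h => or_iff_not_imp_left.2 fun ha => Subtype.ext (AddMonoidHom.ext fun v =>
    inj a a.2 (fun h0 => ha (Subtype.ext h0))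
      ((congrArg (fun s : S => (s : AddMonoid.End A) v) h).trans (map_zero _).symm))⟩
  have : IsDomain S := NoZeroDivisors.to_isDomain S
  let e : FldCar (Nat.card S) ≃ S := (Finite.equivFin S).symm
  letI := e.ring
  have hF : IsField (FldCar (Nat.card S)) := e.ringEquiv.toMulEquiv.isField (Finite.isDomain_to_isField S)
  exact ⟨_, hF.toField, Finite.of_equiv _ e.symm, ⟨e.ringEquiv⟩⟩

theorem fld_aux (V : Subgroup G) [Finite V] (H : Set G) {v₀ : G} (h0 : v₀ ∈ V) (ne : v₀ ≠ 1)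
    (comm : ∀ v ∈ V, ∀ w ∈ V, Commute v w) (norm : ∀ h ∈ H, ∀ v ∈ V, h * v * h⁻¹ ∈ V)
    (add : ∀ h ∈ H, ∀ h' ∈ H, (∃ k ∈ H, ∀ v ∈ V, k * v * k⁻¹ = h * v * h⁻¹ * (h' * v * h'⁻¹)) ∨
      ∀ v ∈ V, h * v * h⁻¹ * (h' * v * h'⁻¹) = 1)
    (hm : (∀ h ∈ H, ∀ h' ∈ H, ∃ k ∈ H, ∀ v ∈ V, k * v * k⁻¹ = h * h' * v * (h * h')⁻¹) ∨
      (∀ h ∈ H, ∃ k ∈ H, ∀ v ∈ V, k * h * v * (k * h)⁻¹ = v) ∧ ∃ h ∈ H, ∀ v ∈ V, h * v * h⁻¹ = v)
    (trans : ∀ v ∈ V, v ≠ 1 → ∃ h ∈ H, h * v₀ * h⁻¹ = v) :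
    ∃ (K : Type) (_ : Field K) (_ : Finite K) (ζ : K → G), (∀ s t, ζ (s + t) = ζ s * ζ t) ∧ (∀ t, ζ t = 1 → t = 0) ∧
      (∀ g, g ∈ V ↔ ∃ t, ζ t = g) ∧ ζ 1 = v₀ ∧ (∀ h ∈ H, ∃ s, ∀ t, h * ζ t * h⁻¹ = ζ (s * t)) ∧
      ∀ s, s ≠ 0 → ∃ h ∈ H, ∀ t, h * ζ t * h⁻¹ = ζ (s * t) := by
  letI : CommGroup V := { (inferInstance : Group V) with mul_comm := fun a b => Subtype.ext (comm _ a.2 _ b.2) }
  have : Finite (AddMonoid.End (Additive V)) :=
    Finite.of_injective (fun s : AddMonoid.End (Additive V) => (s : Additive V → Additive V)) DFunLike.coe_injective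
  obtain ⟨ι, hι⟩ : ∃ ι : Additive V → G, ι = fun a => (a.toMul : G) := ⟨_, rfl⟩
  have ι_inj : Function.Injective ι := fun a b e => by simpa [hι] using e
  have ι_add : ∀ a b, ι (a + b) = ι a * ι b := fun a b => by simp [hι]
  have ι0 : ι 0 = 1 := by simp [hι]
  have ιV : ∀ a, ι a ∈ V := fun a => by simp [hι]
  have ιs : ∀ v ∈ V, ∃ a, ι a = v := fun v hv => ⟨Additive.ofMul ⟨v, hv⟩, by simp [hι]⟩
  obtain ⟨a₀, rfl⟩ := ιs v₀ h0
  have a0 : a₀ ≠ 0 := fun e => ne (by rw [e, ι0])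
  have ex : ∀ h ∈ H, ∃ s : AddMonoid.End (Additive V), ∀ a, ι (s a) = h * ι a * h⁻¹ := fun h hh => by
    choose f hf using fun a => ιs _ (norm h hh _ (ιV a))
    exact ⟨AddMonoidHom.mk' f fun a b => ι_inj (by rw [ι_add, hf, hf, hf, ι_add]; group), hf⟩
  let J₀ : AddSubmonoid (AddMonoid.End (Additive V)) :=
    { carrier := {s | s = 0 ∨ ∃ h ∈ H, ∀ a, ι (s a) = h * ι a * h⁻¹}
      zero_mem' := Or.inl rfl
      add_mem' := by
        rintro s s' (rfl | ⟨h, hh, e⟩) hs'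
        · simpa using hs'
        rcases hs' with rfl | ⟨h', hh', e'⟩
        · exact Or.inr ⟨h, hh, by simpa using e⟩
        have e0 : ∀ a, ι ((s + s') a) = h * ι a * h⁻¹ * (h' * ι a * h'⁻¹) := fun a => by
          rw [← e, ← e', ← ι_add]; rfl
        rcases add h hh h' hh' with ⟨k, hk, e1⟩ | e1
        · exact Or.inr ⟨k, hk, fun a => by rw [e0, e1 _ (ιV a)]⟩
        · exact Or.inl (AddMonoidHom.ext fun a => ι_inj ((e0 a).trans ((e1 _ (ιV a)).trans ι0.symm))) }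
  let J : AddSubgroup (AddMonoid.End (Additive V)) :=
    { J₀ with
      neg_mem' := fun {s} hs => by
        obtain ⟨n, hn⟩ : -s ∈ AddSubmonoid.multiples s :=
          mem_multiples_iff_mem_zmultiples.2 (neg_mem (AddSubgroup.mem_zmultiples s))
        exact hn ▸ J₀.nsmul_mem hs n }
  have hJ : ∀ s ∈ J, s ≠ 0 → ∃ h ∈ H, ∀ a, ι (s a) = h * ι a * h⁻¹ := fun s hs h0 => hs.resolve_left h0
  have inj : ∀ s ∈ J, s ≠ 0 → Function.Injective s := fun s hs h0 a b e => by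
    obtain ⟨h, -, e1⟩ := hJ s hs h0
    exact ι_inj (by simpa [e1] using congrArg ι e)
  have ev : ∀ s ∈ J, s a₀ = 0 → s = 0 := fun s hs e => by
    by_contra h0
    exact a0 (inj s hs h0 (e.trans (map_zero s).symm))
  have surj : ∀ a, ∃ s ∈ J, s a₀ = a := fun a => by
    by_cases h1 : a = 0
    · exact ⟨0, J.zero_mem, h1.symm⟩
    obtain ⟨h, hh, e⟩ := trans _ (ιV a) fun e => h1 (ι_inj (e.trans ι0.symm))
    obtain ⟨s, hs⟩ := ex h hh
    exact ⟨s, Or.inr ⟨h, hh, hs⟩, ι_inj (by rw [hs, e])⟩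
  have h1 : 1 ∈ J ∧ ∀ s ∈ J, ∀ s' ∈ J, s * s' ∈ J := by
    rcases hm with mul | ⟨inv, h, hh, one⟩
    · have h2 : ∀ s ∈ J, ∀ s' ∈ J, s * s' ∈ J := by
        rintro s (rfl | ⟨h, hh, e⟩) s' hs'
        · exact Or.inl (zero_mul _)
        rcases hs' with rfl | ⟨h', hh', e'⟩
        · exact Or.inl (mul_zero _)
        obtain ⟨k, hk, e1⟩ := mul h hh h' hh'
        exact Or.inr ⟨k, hk, fun a => by
          show ι (s (s' a)) = _
          rw [e, e', e1 _ (ιV a)]; group⟩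
      obtain ⟨s, hs, e⟩ := surj a₀
      have h3 := ev _ (J.sub_mem (h2 s hs s hs) hs) (by
        show s (s a₀) - s a₀ = 0
        rw [e, e, sub_self])
      have h4 : s = 1 := AddMonoidHom.ext fun a => inj s hs (fun h0 => a0 (by rw [← e, h0]; rfl))
        (DFunLike.congr_fun (sub_eq_zero.1 h3) a)
      exact ⟨h4 ▸ hs, h2⟩
    · have h2 : 1 ∈ J := Or.inr ⟨h, hh, fun a => (one _ (ιV a)).symm⟩
      have h3 : ∀ x ∈ J, x ≠ 0 → ∃ y ∈ J, x * y = 1 ∧ y * x = 1 := fun x hx h0 => by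
        obtain ⟨h, hh, e⟩ := hJ x hx h0
        obtain ⟨k, hk, e1⟩ := inv h hh
        obtain ⟨y, hy⟩ := ex k hk
        have h4 : y * x = 1 := AddMonoidHom.ext fun a => ι_inj (by
          show ι (y (x a)) = ι a
          rw [hy, e]
          conv_rhs => rw [← e1 _ (ιV a)]
          group)
        exact ⟨y, Or.inr ⟨k, hk, hy⟩, mul_eq_one_comm.1 h4, h4⟩
      exact ⟨h2, fun s hs s' hs' => (Push.jordanDiv_of_inv h2 h2 h3 h3).2.mul_mem hs hs'⟩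
  let S : Subring (AddMonoid.End (Additive V)) :=
    { J with
      one_mem' := h1.1
      mul_mem' := fun ha hb => h1.2 _ ha _ hb }
  obtain ⟨K, _, _, ⟨φ⟩⟩ := fld_core S a0 inj
  refine ⟨K, inferInstance, inferInstance, fun t => ι ((φ t : AddMonoid.End (Additive V)) a₀), fun s t => ?_,
    fun t ht => ?_, fun g => ⟨fun hg => ?_, fun ⟨t, ht⟩ => ht ▸ ιV _⟩, by simp, fun h hh => ?_, fun s hs => ?_⟩
  · simp only [map_add, ← ι_add]; rfl
  · exact φ.injective (Subtype.ext ((ev _ (φ t).2 (ι_inj (ht.trans ι0.symm))).trans (by simp)))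
  · obtain ⟨a, rfl⟩ := ιs g hg
    obtain ⟨s, hs, rfl⟩ := surj a
    exact ⟨φ.symm ⟨s, hs⟩, by simp⟩
  · obtain ⟨s, hs⟩ := ex h hh
    exact ⟨φ.symm ⟨s, Or.inr ⟨h, hh, hs⟩⟩, fun t => by simp [← hs]⟩
  · obtain ⟨h, hh, e⟩ := hJ _ (φ s).2 fun h0 => hs (φ.injective (Subtype.ext (h0.trans (by simp))))
    exact ⟨h, hh, fun t => by simp [← e]⟩

/-- A set `H` of elements which acts on the abelian group `V` like the non-zero elements of a field: closed under sums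
and products. -/
theorem exists_field (V : Subgroup G) [Finite V] (H : Set G) {v₀ : G} (h0 : v₀ ∈ V) (ne : v₀ ≠ 1)
    (comm : ∀ v ∈ V, ∀ w ∈ V, Commute v w) (norm : ∀ h ∈ H, ∀ v ∈ V, h * v * h⁻¹ ∈ V)
    (add : ∀ h ∈ H, ∀ h' ∈ H, (∃ k ∈ H, ∀ v ∈ V, k * v * k⁻¹ = h * v * h⁻¹ * (h' * v * h'⁻¹)) ∨
      ∀ v ∈ V, h * v * h⁻¹ * (h' * v * h'⁻¹) = 1)
    (mul : ∀ h ∈ H, ∀ h' ∈ H, ∃ k ∈ H, ∀ v ∈ V, k * v * k⁻¹ = h * h' * v * (h * h')⁻¹)
    (trans : ∀ v ∈ V, v ≠ 1 → ∃ h ∈ H, h * v₀ * h⁻¹ = v) :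
    ∃ (K : Type) (_ : Field K) (_ : Finite K) (ζ : K → G), (∀ s t, ζ (s + t) = ζ s * ζ t) ∧ (∀ t, ζ t = 1 → t = 0) ∧
      (∀ g, g ∈ V ↔ ∃ t, ζ t = g) ∧ ζ 1 = v₀ ∧ (∀ h ∈ H, ∃ s, ∀ t, h * ζ t * h⁻¹ = ζ (s * t)) ∧
      ∀ s, s ≠ 0 → ∃ h ∈ H, ∀ t, h * ζ t * h⁻¹ = ζ (s * t) := by
  exact fld_aux V H h0 ne comm norm add (Or.inl mul) trans

/-- The same with closure under inverses in place of products (the identity of Hua). -/
theorem exists_field' (V : Subgroup G) [Finite V] (H : Set G) {v₀ : G} (h0 : v₀ ∈ V) (ne : v₀ ≠ 1)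
    (comm : ∀ v ∈ V, ∀ w ∈ V, Commute v w) (norm : ∀ h ∈ H, ∀ v ∈ V, h * v * h⁻¹ ∈ V)
    (add : ∀ h ∈ H, ∀ h' ∈ H, (∃ k ∈ H, ∀ v ∈ V, k * v * k⁻¹ = h * v * h⁻¹ * (h' * v * h'⁻¹)) ∨
      ∀ v ∈ V, h * v * h⁻¹ * (h' * v * h'⁻¹) = 1)
    (inv : ∀ h ∈ H, ∃ k ∈ H, ∀ v ∈ V, k * h * v * (k * h)⁻¹ = v) (one : ∃ h ∈ H, ∀ v ∈ V, h * v * h⁻¹ = v)
    (trans : ∀ v ∈ V, v ≠ 1 → ∃ h ∈ H, h * v₀ * h⁻¹ = v) :
    ∃ (K : Type) (_ : Field K) (_ : Finite K) (ζ : K → G), (∀ s t, ζ (s + t) = ζ s * ζ t) ∧ (∀ t, ζ t = 1 → t = 0) ∧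
      (∀ g, g ∈ V ↔ ∃ t, ζ t = g) ∧ ζ 1 = v₀ ∧ (∀ h ∈ H, ∃ s, ∀ t, h * ζ t * h⁻¹ = ζ (s * t)) ∧
      ∀ s, s ≠ 0 → ∃ h ∈ H, ∀ t, h * ζ t * h⁻¹ = ζ (s * t) := by
  exact fld_aux V H h0 ne comm norm add (Or.inr ⟨inv, one⟩) trans

/-- the square root of the Frobenius map is unique -/
theorem exists_equiv_tits {K K' : Type} [Field K] [Field K'] [Finite K] [Finite K'] (σ : K →+* K) (σ' : K' →+* K')
    (two : (2 : K) = 0) (ss : ∀ t, σ (σ t) = t * t) (ss' : ∀ t, σ' (σ' t) = t * t) (hc : Nat.card K = Nat.card K') :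
    ∃ e : K ≃+* K', ∀ t, e (σ t) = σ' (e t) := by
  have := Fintype.ofFinite K
  have := Fintype.ofFinite K'
  let e := FiniteField.ringEquivOfCardEq (K := K) (K' := K') (by simpa using hc)
  have : CharP K 2 := CharTwo.of_one_ne_zero_of_two_eq_zero one_ne_zero two
  let _ := ZMod.algebra K 2
  have : Finite (K →+* K) := Finite.of_injective (fun g : K →+* K => (g : K → K)) DFunLike.coe_injective
  have h1 : Function.Surjective fun g : K →+* K => g * g := fun g => by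
    obtain ⟨i, hi⟩ := (FiniteField.bijective_frobeniusAlgHom_pow (ZMod 2) K).2
      ⟨g, fun x => RingHom.congr_fun (Subsingleton.elim (g.comp (algebraMap (ZMod 2) K)) _) x⟩
    refine ⟨σ ^ i.1, RingHom.ext fun x => ?_⟩
    have h2 : σ * σ = (FiniteField.frobeniusAlgHom (ZMod 2) K : K →+* K) := RingHom.ext fun x => by
      simp [ss, sq]
    have h3 := DFunLike.congr_fun hi x
    simp only [← (Commute.refl σ).mul_pow, h2]
    simpa [RingHom.coe_pow, AlgHom.coe_pow] using h3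
  have h2 := Finite.injective_iff_surjective.2 h1 (a₁ := σ)
    (a₂ := (e.symm : K' →+* K).comp (σ'.comp (e : K →+* K'))) (RingHom.ext fun x => by simp [ss, ss'])
  exact ⟨e, fun t => by rw [h2]; simp⟩

theorem exists_tits_root {K : Type} [Field K] [Finite K] (σ : K →+* K) (ss : ∀ t, σ (σ t) = t * t) {m : K}
    (hm : m ≠ 0) : ∃ s, s ≠ 0 ∧ σ s = (m * σ m)⁻¹ ∧ s * s = (m * m * σ m)⁻¹ := by
  obtain ⟨s, hs⟩ := Finite.injective_iff_surjective.1 σ.injective (m * σ m)⁻¹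
  refine ⟨s, fun h0 => ?_, hs, ?_⟩
  · rw [h0, map_zero] at hs
    exact inv_ne_zero (mul_ne_zero hm ((map_ne_zero σ).2 hm)) hs.symm
  · rw [← ss, hs, map_inv₀, map_mul, ss, mul_comm]

end CfsgLib.Mouf
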