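import Cfsg.Agent.Lib.Mouf.HDefs
import Cfsg.Agent.Lib.Push.Jordan

/-!
# Package FLD2: modules (see `plans/MOUF.md`)
-/

set_option autoImplicit false

namespace CfsgLib.Mouf
open scoped commutatorElement

variable {G : Type*} [Group G]

/-- closure under sums and inverses implies closure under products -/
theorem mul_of_inv (V : Subgroup G) [Finite V] (H : Set G) (comm : ∀ v ∈ V, ∀ w ∈ V, Commute v w)
    (norm : ∀ h ∈ H, ∀ v ∈ V, h * v * h⁻¹ ∈ V) (one : ∃ h ∈ H, ∀ v ∈ V, h * v * h⁻¹ = v)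
    (add : ∀ h ∈ H, ∀ h' ∈ H, (∃ k ∈ H, ∀ v ∈ V, k * v * k⁻¹ = h * v * h⁻¹ * (h' * v * h'⁻¹)) ∨
      ∀ v ∈ V, h * v * h⁻¹ * (h' * v * h'⁻¹) = 1)
    (inv : ∀ h ∈ H, ∃ k ∈ H, ∀ v ∈ V, k * h * v * (k * h)⁻¹ = v) (ne : V ≠ ⊥) {h h' : G} (hh : h ∈ H) (hh' : h' ∈ H) :
    ∃ k ∈ H, ∀ v ∈ V, k * v * k⁻¹ = h * h' * v * (h * h')⁻¹ := by
  letI : CommGroup V := { (inferInstance : Group V) with mul_comm := fun a b => Subtype.ext (comm _ a.2 _ b.2) }
  have : Finite (AddMonoid.End (Additive V)) :=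
    Finite.of_injective (fun s : AddMonoid.End (Additive V) => (s : Additive V → Additive V)) DFunLike.coe_injective
  obtain ⟨ι, hι⟩ : ∃ ι : Additive V → G, ι = fun a => (a.toMul : G) := ⟨_, rfl⟩
  have ι_inj : Function.Injective ι := fun a b e => by simpa [hι] using e
  have ι_add : ∀ a b, ι (a + b) = ι a * ι b := fun a b => by simp [hι]
  have ι0 : ι 0 = 1 := by simp [hι]
  have ιV : ∀ a, ι a ∈ V := fun a => by simp [hι]
  have ιs : ∀ v ∈ V, ∃ a, ι a = v := fun v hv => ⟨Additive.ofMul ⟨v, hv⟩, by simp [hι]⟩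
  have ex : ∀ h ∈ H, ∃ s : AddMonoid.End (Additive V), ∀ a, ι (s a) = h * ι a * h⁻¹ := fun h hh => by
    choose f hf using fun a => ιs _ (norm h hh _ (ιV a))
    exact ⟨AddMonoidHom.mk' f fun a b => ι_inj (by rw [ι_add, hf, hf, hf, ι_add]; group), hf⟩
  let J₀ : AddSubmonoid (AddMonoid.End (Additive V)) :=
    { carrier := {s | s = 0 ∨ ∃ h ∈ H, ∀ a, ι (s a) = h * ι a * h⁻¹}
      zero_mem' := Or.inl rfl
      add_mem' := by
        rintro s s' (rfl | ⟨h, hh, e⟩) hs'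
        · simpa using hs'
        rcases hs' with rfl | ⟨h', hh', e'⟩
        · exact Or.inr ⟨h, hh, by simpa using e⟩
        have e0 : ∀ a, ι ((s + s') a) = h * ι a * h⁻¹ * (h' * ι a * h'⁻¹) := fun a => by
          rw [← e, ← e', ← ι_add]; rfl
        rcases add h hh h' hh' with ⟨k, hk, e1⟩ | e1
        · exact Or.inr ⟨k, hk, fun a => by rw [e0, e1 _ (ιV a)]⟩
        · exact Or.inl (AddMonoidHom.ext fun a => ι_inj ((e0 a).trans ((e1 _ (ιV a)).trans ι0.symm))) }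
  let J : AddSubgroup (AddMonoid.End (Additive V)) :=
    { J₀ with
      neg_mem' := fun {s} hs => by
        obtain ⟨n, hn⟩ : -s ∈ AddSubmonoid.multiples s :=
          mem_multiples_iff_mem_zmultiples.2 (neg_mem (AddSubgroup.mem_zmultiples s))
        exact hn ▸ J₀.nsmul_mem hs n }
  obtain ⟨h₁, hh₁, one⟩ := one
  have h2 : 1 ∈ J := Or.inr ⟨h₁, hh₁, fun a => (one _ (ιV a)).symm⟩
  have h3 : ∀ x ∈ J, x ≠ 0 → ∃ y ∈ J, x * y = 1 ∧ y * x = 1 := fun x hx h0 => by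
    obtain ⟨h, hh, e⟩ := hx.resolve_left h0
    obtain ⟨k, hk, e1⟩ := inv h hh
    obtain ⟨y, hy⟩ := ex k hk
    have h4 : y * x = 1 := AddMonoidHom.ext fun a => ι_inj (by
      show ι (y (x a)) = ι a
      rw [hy, e]
      conv_rhs => rw [← e1 _ (ιV a)]
      group)
    exact ⟨y, Or.inr ⟨k, hk, hy⟩, mul_eq_one_comm.1 h4, h4⟩
  obtain ⟨s, hs⟩ := ex h hh
  obtain ⟨s', hs'⟩ := ex h' hh'
  have e0 : ∀ a, ι ((s * s') a) = h * h' * ι a * (h * h')⁻¹ := fun a => by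
    show ι (s (s' a)) = _
    rw [hs, hs']; group
  rcases (Push.jordanDiv_of_inv h2 h2 h3 h3).2.mul_mem (Or.inr ⟨h, hh, hs⟩) (Or.inr ⟨h', hh', hs'⟩) with
    h0 | ⟨k, hk, e⟩
  · refine absurd (eq_bot_iff.2 fun v hv => ?_) ne
    obtain ⟨a, rfl⟩ := ιs v hv
    have := e0 a
    rw [h0, show (0 : AddMonoid.End (Additive V)) a = 0 from rfl, ι0, eq_comm, conj_eq_one_iff] at this
    exact Subgroup.mem_bot.2 this
  · refine ⟨k, hk, fun v hv => ?_⟩
    obtain ⟨a, rfl⟩ := ιs v hv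
    rw [← e, e0]

theorem exists_module {F : Type} [Field F] (V : Subgroup G) [Finite V] (h : F → G)
    (comm : ∀ v ∈ V, ∀ w ∈ V, Commute v w) (norm : ∀ s, s ≠ 0 → ∀ v ∈ V, h s * v * (h s)⁻¹ ∈ V)
    (one : ∀ v ∈ V, h 1 * v * (h 1)⁻¹ = v)
    (mul : ∀ s t, s ≠ 0 → t ≠ 0 → ∀ v ∈ V, h (s * t) * v * (h (s * t))⁻¹ = h s * h t * v * (h s * h t)⁻¹)
    (add : ∀ s t, s ≠ 0 → t ≠ 0 → s + t ≠ 0 → ∀ v ∈ V,
      h (s + t) * v * (h (s + t))⁻¹ = h s * v * (h s)⁻¹ * (h t * v * (h t)⁻¹))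
    (neg : ∀ s, s ≠ 0 → ∀ v ∈ V, h s * v * (h s)⁻¹ * (h (-s) * v * (h (-s))⁻¹) = 1) :
    ∃ (J : Type) (_ : AddCommGroup J) (_ : Module F J) (_ : Finite J) (x : J → G), Par x V ∧
      ∀ s, s ≠ 0 → ∀ a, h s * x a * (h s)⁻¹ = x (s • a) := by
  classical
  letI : CommGroup V := { (inferInstance : Group V) with mul_comm := fun a b => Subtype.ext (comm _ a.2 _ b.2) }
  let J := Shrink.{0} (Additive V)
  let φ : J ≃+ Additive V := Shrink.addEquiv
  obtain ⟨x, hx⟩ : ∃ x : J → G, x = fun a => ((φ a).toMul : G) := ⟨_, rfl⟩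
  have P : Par x V := ⟨fun a b => by simp [hx], fun a e => by simpa [hx] using e, fun g =>
    ⟨fun hg => ⟨φ.symm (Additive.ofMul ⟨g, hg⟩), by simp [hx]⟩, fun ⟨a, e⟩ => by simp [← e, hx]⟩⟩
  have ex : ∀ (s : F) (a : J), ∃ b : J, x b = if s = 0 then 1 else h s * x a * (h s)⁻¹ := fun s a => by
    split_ifs with hs
    · exact ⟨0, P.zero⟩
    · exact (P.mem_iff _).1 (norm s hs _ (P.mem a))
  choose sm hsm using ex
  have h0 : ∀ a, sm 0 a = 0 := fun a => P.inj _ (by rw [hsm, if_pos rfl])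
  have h1 : ∀ s, s ≠ 0 → ∀ a, x (sm s a) = h s * x a * (h s)⁻¹ := fun s hs a => by rw [hsm, if_neg hs]
  have h2 : ∀ s a b, sm s (a + b) = sm s a + sm s b := fun s a b => by
    by_cases hs : s = 0
    · rw [hs, h0, h0, h0, add_zero]
    · exact P.eq (by rw [P.add, h1 s hs, h1 s hs, h1 s hs, P.add]; group)
  letI : SMul F J := ⟨sm⟩
  letI : Module F J := Module.ofMinimalAxioms h2 (fun s t a => by
      show sm (s + t) a = sm s a + sm t a
      by_cases hs : s = 0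
      · rw [hs, h0, zero_add, zero_add]
      by_cases ht : t = 0
      · rw [ht, h0, add_zero, add_zero]
      by_cases hst : s + t = 0
      · obtain rfl : t = -s := eq_neg_of_add_eq_zero_right hst
        exact P.eq (by rw [hst, h0, P.zero, P.add, h1 s hs, h1 _ ht, neg s hs _ (P.mem a)])
      · exact P.eq (by rw [P.add, h1 s hs, h1 t ht, h1 _ hst, add s t hs ht hst _ (P.mem a)]))
    (fun s t a => by
      show sm (s * t) a = sm s (sm t a)
      by_cases hs : s = 0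
      · rw [hs, zero_mul, h0, h0]
      by_cases ht : t = 0
      · rw [ht, mul_zero, h0]
        exact P.eq (by rw [h1 s hs, P.zero]; group)
      · exact P.eq (by rw [h1 s hs, h1 t ht, h1 _ (mul_ne_zero hs ht), mul s t hs ht _ (P.mem a)]; group))
    (fun a => P.eq (by
      show x (sm 1 a) = x a
      rw [h1 1 one_ne_zero, one _ (P.mem a)]))
  exact ⟨J, inferInstance, inferInstance, inferInstance, x, P, fun s hs a => (h1 s hs a).symm⟩

end CfsgLib.Mouf
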