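import Cfsg.Agent.Lib.Mouf.Base2

/-!
# Package GLUE: matched root groups (see `plans/MOUF.md`)
-/

set_option autoImplicit false

namespace CfsgLib.Mouf
open scoped commutatorElement

namespace RD.Match
variable {G G' : Type*} [Group G] [Group G'] {n : ℕ} {R : RD n G} {R' : RD n G'} {Γ : ℤ → Subgroup (G × G')}
  {a b a' b' i j k l : ℤ} (M : R.Match R' Γ a b) {g g' : G × G'}
include M

theorem mono (h1 : a ≤ a') (h2 : b' ≤ b) : R.Match R' Γ a' b' := by
  exact ⟨fun i x y => M.le i (by omega) (by omega), fun i x y => M.surj i (by omega) (by omega),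
    fun i x y => M.surj' i (by omega) (by omega), fun i x y => M.inj i (by omega) (by omega)⟩

theorem seg_le (hg : g ∈ seg Γ i j) (e : a ≤ i ∧ j ≤ b) : g.1 ∈ seg R.U i j ∧ g.2 ∈ seg R'.U i j := by
  have : seg Γ i j ≤ (seg R.U i j).prod (seg R'.U i j) := Mouf.seg_le fun k h1 h2 u hu =>
    ⟨mem_seg (M.le k (by omega) (by omega) u hu).1 h1 h2, mem_seg (M.le k (by omega) (by omega) u hu).2 h1 h2⟩
  exact this hg

theorem lift {x : G} (hx : x ∈ seg R.U i j) (e : a ≤ i ∧ j ≤ b) : ∃ x', (x, x') ∈ seg Γ i j := by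
  have : seg R.U i j ≤ (seg Γ i j).map (MonoidHom.fst G G') := Mouf.seg_le fun k h1 h2 u hu => by
    obtain ⟨u', h⟩ := M.surj k (by omega) (by omega) u hu
    exact ⟨_, mem_seg h h1 h2, rfl⟩
  obtain ⟨w, hw, rfl⟩ := this hx
  exact ⟨w.2, hw⟩

theorem lift' {x' : G'} (hx : x' ∈ seg R'.U i j) (e : a ≤ i ∧ j ≤ b) : ∃ x, (x, x') ∈ seg Γ i j := by
  have : seg R'.U i j ≤ (seg Γ i j).map (MonoidHom.snd G G') := Mouf.seg_le fun k h1 h2 u hu => by
    obtain ⟨u', h⟩ := M.surj' k (by omega) (by omega) u hu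
    exact ⟨_, mem_seg h h1 h2, rfl⟩
  obtain ⟨w, hw, rfl⟩ := this hx
  exact ⟨w.1, hw⟩

theorem eq_U (hg : g ∈ Γ i) (hg' : g' ∈ Γ i) (e : a ≤ i ∧ i ≤ b) : g.1 = g'.1 ↔ g.2 = g'.2 := by
  simpa [mul_inv_eq_one] using M.inj i e.1 e.2 _ (mul_mem hg (inv_mem hg'))

theorem graph (hc : Comm n Γ i j) (hg : g ∈ seg Γ i j) (e : a ≤ i ∧ j ≤ b ∧ j < i + n) : g.1 = 1 ↔ g.2 = 1 := by
  have A : ∀ m : ℕ, ∀ i, j + 1 - i ≤ m → Comm n Γ i j → a ≤ i → j < i + n → ∀ g ∈ seg Γ i j,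
      g.1 = 1 ↔ g.2 = 1 := by
    intro m
    induction m with
    | zero => intro i h1 _ _ _ g hg; rw [seg_empty hg (by omega)]; simp
    | succ m ih =>
      intro i h1 hc h2 h3 g hg
      by_cases c : j < i
      · rw [seg_empty hg c]; simp
      obtain ⟨u, hu, y, hy, rfl⟩ := hc.left (k := i + 1) hg (by omega)
      have h4 := ih (i + 1) (by omega) (hc.mono (by omega) le_rfl) (by omega) (by omega) y hy
      have h5 := M.inj i h2 (by omega) u hu
      have h6 := M.le i h2 (by omega) u hu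
      have h7 := M.seg_le hy (by omega)
      constructor
      · intro h0
        obtain ⟨e1, e2⟩ := R.left_inj h6.1 (one_mem _) h7.1 (one_mem _) (by omega) (h0.trans (mul_one 1).symm)
        rw [Prod.snd_mul, h5.1 e1, h4.1 e2, mul_one]
      · intro h0
        obtain ⟨e1, e2⟩ := R'.left_inj h6.2 (one_mem _) h7.2 (one_mem _) (by omega) (h0.trans (mul_one 1).symm)
        rw [Prod.fst_mul, h5.2 e1, h4.2 e2, mul_one]
  exact A (j + 1 - i).toNat i (by omega) hc e.1 e.2.2 g hg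

theorem eq_seg (hc : Comm n Γ i j) (hg : g ∈ seg Γ i j) (hg' : g' ∈ seg Γ i j) (e : a ≤ i ∧ j ≤ b ∧ j < i + n)
    (h : g.1 = g'.1) : g = g' := by
  have := (M.graph hc (mul_mem hg (inv_mem hg')) e).1 (by simp [h])
  exact Prod.ext h (by simpa [mul_inv_eq_one] using this)

theorem inf (hc : Comm n Γ i j) (hg : g ∈ seg Γ i j) (h : g.1 ∈ seg R.U k l)
    (e : a ≤ i ∧ j ≤ b ∧ j < i + n ∧ i ≤ k ∧ l ≤ j) : g ∈ seg Γ k l := by
  obtain ⟨x', hx⟩ := M.lift h (by omega)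
  rwa [M.eq_seg hc hg (seg_mono hx (by omega) (by omega)) (by omega) rfl]

/-- one more root group on the right -/
theorem step (hc : Comm n Γ i k) (e : a ≤ i ∧ j ≤ b ∧ j < i + n ∧ k = j - 1) {S : Set (G × G')}
    (hS : Γ j ≤ Subgroup.closure S) (fin : Finite G)
    (h : ∀ s ∈ S, ∀ l, i ≤ l → l ≤ k → ∀ g ∈ Γ l, s * g * s⁻¹ ∈ seg Γ i k) : Comm n Γ i j := by
  have hf : Finite (seg Γ i k : Set (G × G')) := Finite.of_injective (fun w => (w : G × G').1)
    fun w w' e' => Subtype.ext (M.eq_seg hc w.2 w'.2 (by omega) e')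
  have hN : Γ j ≤ Subgroup.normalizer (seg Γ i k : Set (G × G')) := hS.trans ((Subgroup.closure_le _).2
    fun s hs => Subgroup.mem_normalizer_fintype fun w hw => seg_conj (h s hs) hw)
  intro i' j' h1 h2 h3 h4 u hu v hv
  by_cases c : j' ≤ k
  · exact hc i' j' h1 h2 c h4 u hu v hv
  obtain rfl : j' = j := by omega
  have h5 : u ∈ seg Γ i k := mem_seg hu h1 (by omega)
  refine M.inf hc ?_ ?_ (by omega)
  · rw [commutatorElement_def, mul_assoc, mul_assoc, ← mul_assoc v]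
    exact mul_mem h5 ((Subgroup.mem_normalizer_iff.1 (hN hv) _).1 (inv_mem h5))
  · exact (R.comm_mem (M.le _ (by omega) (by omega) u hu).1 (M.le _ (by omega) (by omega) v hv).1
      ⟨h2, h4, rfl, rfl⟩).1

/-- one more root group on the left -/
theorem step' (hc : Comm n Γ k j) (e : a ≤ i ∧ j ≤ b ∧ j < i + n ∧ k = i + 1) {S : Set (G × G')}
    (hS : Γ i ≤ Subgroup.closure S) (fin : Finite G)
    (h : ∀ s ∈ S, ∀ l, k ≤ l → l ≤ j → ∀ g ∈ Γ l, s * g * s⁻¹ ∈ seg Γ k j) : Comm n Γ i j := by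
  have hf : Finite (seg Γ k j : Set (G × G')) := Finite.of_injective (fun w => (w : G × G').1)
    fun w w' e' => Subtype.ext (M.eq_seg hc w.2 w'.2 (by omega) e')
  have hN : Γ i ≤ Subgroup.normalizer (seg Γ k j : Set (G × G')) := hS.trans ((Subgroup.closure_le _).2
    fun s hs => Subgroup.mem_normalizer_fintype fun w hw => seg_conj (h s hs) hw)
  intro i' j' h1 h2 h3 h4 u hu v hv
  by_cases c : k ≤ i'
  · exact hc i' j' c h2 h3 h4 u hu v hv
  obtain rfl : i' = i := by omega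
  have h5 : v ∈ seg Γ k j := mem_seg hv (by omega) h3
  refine M.inf hc ?_ ?_ (by omega)
  · rw [commutatorElement_def]
    exact mul_mem ((Subgroup.mem_normalizer_iff.1 (hN hu) _).1 h5) (inv_mem h5)
  · exact (R.comm_mem (M.le _ (by omega) (by omega) u hu).1 (M.le _ (by omega) (by omega) v hv).1
      ⟨h2, h4, rfl, rfl⟩).1

/-- two elements that normalise the segment and have the same first component -/
theorem comm_snd (hc : Comm n Γ i j) (e : a ≤ i ∧ j ≤ b ∧ j < i + n) (h : g.1 = g'.1)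
    (hg : ∀ w ∈ seg Γ i j, g * w * g⁻¹ ∈ seg Γ i j) (hg' : ∀ w ∈ seg Γ i j, g' * w * g'⁻¹ ∈ seg Γ i j)
    {x' : G'} (hx : x' ∈ seg R'.U i j) : Commute (g'.2⁻¹ * g.2) x' := by
  obtain ⟨x, hw⟩ := M.lift' hx ⟨e.1, e.2.1⟩
  have h1 : g.2 * x' * g.2⁻¹ = g'.2 * x' * g'.2⁻¹ :=
    congrArg Prod.snd (M.eq_seg hc (hg _ hw) (hg' _ hw) e (by simp [h]))
  show _ = _
  calc g'.2⁻¹ * g.2 * x' = g'.2⁻¹ * (g.2 * x' * g.2⁻¹) * g.2 := by group
    _ = x' * (g'.2⁻¹ * g.2) := by rw [h1]; group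

/-- the isomorphism -/
theorem exists_equiv (hc : Comm n Γ i j) (e : a ≤ i ∧ j ≤ b ∧ j < i + n) :
    ∃ φ : seg R.U i j ≃* seg R'.U i j, (∀ x : seg R.U i j, ((x : G), (φ x : G')) ∈ seg Γ i j) ∧
      ∀ k, i ≤ k → k ≤ j → ∀ x : seg R.U i j, (x : G) ∈ R.U k ↔ (φ x : G') ∈ R'.U k := by
  have e' : a ≤ i ∧ j ≤ b := ⟨e.1, e.2.1⟩
  let p : seg Γ i j →* seg R.U i j := ((MonoidHom.fst G G').comp (seg Γ i j).subtype).codRestrict _
    fun w => (M.seg_le w.2 e').1
  let p' : seg Γ i j →* seg R'.U i j := ((MonoidHom.snd G G').comp (seg Γ i j).subtype).codRestrict _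
    fun w => (M.seg_le w.2 e').2
  have hp : Function.Bijective p := by
    refine ⟨fun w w' h => Subtype.ext (M.eq_seg hc w.2 w'.2 e (congrArg Subtype.val h)), fun x => ?_⟩
    obtain ⟨x', h⟩ := M.lift x.2 e'
    exact ⟨⟨_, h⟩, rfl⟩
  have hp' : Function.Bijective p' := by
    refine ⟨(injective_iff_map_eq_one p').2 fun w h => ?_, fun x => ?_⟩
    · have h1 : (w : G × G').2 = 1 := congrArg Subtype.val h
      exact Subtype.ext (Prod.ext ((M.graph hc w.2 e).2 h1) h1)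
    · obtain ⟨x', h⟩ := M.lift' x.2 e'
      exact ⟨⟨_, h⟩, rfl⟩
  have key : ∀ x : seg R.U i j, ((x : G), ((((MulEquiv.ofBijective p hp).symm.trans
      (MulEquiv.ofBijective p' hp')) x : seg R'.U i j) : G')) ∈ seg Γ i j := fun x => by
    obtain ⟨w, rfl⟩ := (MulEquiv.ofBijective p hp).surjective x
    rw [MulEquiv.trans_apply, MulEquiv.symm_apply_apply]
    exact w.2
  refine ⟨_, key, fun k h1 h2 x => ⟨fun hx => ?_, fun hx => ?_⟩⟩
  · obtain ⟨u', hu⟩ := M.surj k (by omega) (by omega) _ hx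
    rw [← M.eq_seg hc (key x) (mem_seg hu h1 h2) e rfl] at hu
    exact (M.le k (by omega) (by omega) _ hu).2
  · obtain ⟨u, hu⟩ := M.surj' k (by omega) (by omega) _ hx
    have h3 := (M.graph hc (mul_mem (key x) (inv_mem (mem_seg hu h1 h2))) e).2 (by simp)
    rw [show (x : G) = u by simpa [mul_inv_eq_one] using h3]
    exact (M.le k (by omega) (by omega) _ hu).1

end RD.Match

end CfsgLib.Mouf
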