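import Cfsg.Agent.Lib.Mouf.Base2

/-!
# Package HA: hexagons, first facts (see `plans/MOUF.md`)
-/

set_option autoImplicit false
set_option Elab.async false

namespace CfsgLib.Mouf
open scoped commutatorElement

namespace RD.Hex
variable {G : Type*} [Group G] {R : RD 6 G} (h : R.Hex) {i j : ℤ} {p q p' q' p'' q'' u v w w' x z z' : G}
include h

theorem comm (hi : Even i) (hz : z ∈ R.U i) (hu : u ∈ R.U j) (e : i - 3 ≤ j ∧ j ≤ i + 3) : Commute z u := by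
  exact V_comm (h i hi hz) hu (by omega)

theorem zz0 (hz : z ∈ R.U 2) (hm : R.Mu 6 0 p w q) :
    ∃ d ∈ R.U 3, w * z * w⁻¹ = z * d * (p * w * q * z * (p * w * q)⁻¹) := by
  have h1 : p * w * q * z * (p * w * q)⁻¹ ∈ R.U 4 := hm.act.conj hz (by omega)
  have h2 := Mu.conj_eq p w q z (h.comm (by decide) hz hm.q_mem (by omega)).symm
  generalize p * w * q * z * (p * w * q)⁻¹ = y at h1 h2
  refine ⟨z⁻¹ * (w * z * w⁻¹) * y⁻¹,
    seg_self (R.inf (i := 1) (j := 3) (k := 3) (l := 5) ?_ ?_ (by omega)) rfl rfl, by group⟩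
  · rw [h2, show z⁻¹ * (p⁻¹ * y * p) * y⁻¹ = z⁻¹ * ⁅p⁻¹, y⁆ by rw [commutatorElement_def]; group]
    exact mul_mem (mem_seg (inv_mem hz) (by omega) (by omega))
      (R.comm_mem (inv_mem hm.p_mem) h1 (by omega)).1
  · rw [show z⁻¹ * (w * z * w⁻¹) = ⁅z⁻¹, w⁆ by rw [commutatorElement_def]; group]
    exact mul_mem (R.comm_mem (inv_mem hz) hm.u_mem (by omega)).1
      (mem_seg (inv_mem h1) (by omega) (by omega))

theorem zz1 (hz : z ∈ R.U 2) (hw : w ∈ R.U 6) : z⁻¹ * (w * z * w⁻¹) ∈ seg R.U 3 4 := by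
  by_cases c : w = 1
  · simp [c]
  obtain ⟨p, q, hm⟩ := exists_mu (j := 0) hw c (by omega)
  obtain ⟨d, hd, e⟩ := h.zz0 hz hm
  rw [e, mul_assoc z, inv_mul_cancel_left]
  exact mul_mem (mem_seg hd (by omega) (by omega))
    (mem_seg (hm.act.conj (k := 4) hz (by omega)) (by omega) (by omega))

theorem zz (hz : z ∈ R.U 2) (hm : R.Mu 6 0 p w q) : w * z * w⁻¹ = z * (p * w * q * z * (p * w * q)⁻¹) := by
  obtain ⟨d, hd, e⟩ := h.zz0 hz hm
  have h1 : p * w * q * z * (p * w * q)⁻¹ ∈ R.U 4 := hm.act.conj hz (by omega)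
  have h2 := (h.line 8 (-1) (Or.inr rfl) (by decide)).zz1 (z := w) (w := z⁻¹)
    (by rw [line_U (k := 6) (by norm_num)]; exact hm.u_mem)
    (by rw [line_U (k := 2) (by norm_num)]; exact inv_mem hz)
  rw [line_seg (i' := 4) (j' := 5) (by norm_num)] at h2
  generalize p * w * q * z * (p * w * q)⁻¹ = y at e h1
  have h3 := (V_comm_seg (h 6 (by decide) hm.u_mem) h2 (by omega)).eq
  have h4 : d = w⁻¹ * (z⁻¹ * w * z⁻¹⁻¹) * y⁻¹ := by
    calc d = z⁻¹ * (z * d * y) * y⁻¹ := by group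
      _ = w * (w⁻¹ * (z⁻¹ * w * z⁻¹⁻¹)) * w⁻¹ * y⁻¹ := by rw [← e]; group
      _ = _ := by rw [h3]; group
  have h5 : d = 1 := R.eq_one_left (k := 4) (l := 5) hd
    (h4 ▸ mul_mem h2 (mem_seg (inv_mem h1) (by omega) (by omega))) (by omega)
  rw [e, h5, mul_one]

theorem zz' (hz : z ∈ R.U 4) (hm : R.Mu 0 6 p w q) : w * z * w⁻¹ = z * (p * w * q * z * (p * w * q)⁻¹) := by
  exact (h.line 6 (-1) (Or.inr rfl) (by decide)).zz (by rwa [line_U (k := 4) (by norm_num)])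
    ((line_Mu (by norm_num)).2 hm)

theorem zx (hx : x ∈ R.U 1) (hm : R.Mu 6 0 p w q) :
    ∃ c ∈ seg R.U 2 4, w * x * w⁻¹ = x * c * (p * w * q * x * (p * w * q)⁻¹) := by
  have h1 : p * w * q * x * (p * w * q)⁻¹ ∈ R.U 5 := hm.act.conj hx (by omega)
  have h2 := Mu.conj_eq p w q x (R.adj_comm hm.q_mem hx (by omega))
  generalize p * w * q * x * (p * w * q)⁻¹ = y at h1 h2
  refine ⟨x⁻¹ * (w * x * w⁻¹) * y⁻¹, R.inf (i := 1) (l := 5) ?_ ?_ (by omega), by group⟩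
  · rw [h2, show x⁻¹ * (p⁻¹ * y * p) * y⁻¹ = x⁻¹ * ⁅p⁻¹, y⁆ by rw [commutatorElement_def]; group]
    exact mul_mem (mem_seg (inv_mem hx) (by omega) (by omega))
      (R.comm_mem (inv_mem hm.p_mem) h1 (by omega)).1
  · rw [show x⁻¹ * (w * x * w⁻¹) = ⁅x⁻¹, w⁆ by rw [commutatorElement_def]; group]
    exact mul_mem (R.comm_mem (inv_mem hx) hm.u_mem (by omega)).1
      (mem_seg (inv_mem h1) (by omega) (by omega))

theorem zx' (hx : x ∈ R.U 5) (hm : R.Mu 0 6 p w q) :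
    ∃ c ∈ seg R.U 2 4, w * x * w⁻¹ = x * c * (p * w * q * x * (p * w * q)⁻¹) := by
  obtain ⟨c, hc, e⟩ := (h.line 6 (-1) (Or.inr rfl) (by decide)).zx (x := x)
    (by rwa [line_U (k := 5) (by norm_num)]) ((line_Mu (by norm_num)).2 hm)
  rw [line_seg (i' := 2) (j' := 4) (by norm_num)] at hc
  exact ⟨c, hc, e⟩

theorem conj24 (hu : u ∈ R.U 0 ∨ u ∈ R.U 6 ∨ u ∈ R.U 1 ∨ u ∈ R.U 5) (hx : x ∈ seg R.U 2 4) :
    u * x * u⁻¹ ∈ seg R.U 2 4 := by
  by_cases u1 : u = 1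
  · simpa [u1] using hx
  rcases hu with hu | hu | hu | hu
  · refine seg_conj (fun k a b y hy => ?_) hx
    by_cases c : k = 4
    · subst c
      obtain ⟨p, q, hm⟩ := exists_mu (j := 6) hu u1 (by omega)
      rw [h.zz' hy hm]
      exact mul_mem (mem_seg hy a b) (mem_seg (hm.act.conj (k := 2) hy (by omega)) (by omega) (by omega))
    · rw [(h.comm (by decide) hu hy (by omega)).eq, mul_inv_cancel_right]
      exact mem_seg hy a b
  · refine seg_conj (fun k a b y hy => ?_) hx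
    by_cases c : k = 2
    · subst c
      obtain ⟨p, q, hm⟩ := exists_mu (j := 0) hu u1 (by omega)
      rw [h.zz hy hm]
      exact mul_mem (mem_seg hy a b) (mem_seg (hm.act.conj (k := 4) hy (by omega)) (by omega) (by omega))
    · rw [(h.comm (by decide) hu hy (by omega)).eq, mul_inv_cancel_right]
      exact mem_seg hy a b
  · exact R.conj_seg (mem_seg hu le_rfl le_rfl) hx (by omega)
  · exact R.conj_seg (mem_seg hu le_rfl le_rfl) hx (by omega)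

theorem neg1 (hm : R.Mu 6 0 p w q) (hx : x ∈ R.U 1) :
    (p * w * q)⁻¹ * x * (p * w * q) = (p * w * q * x * (p * w * q)⁻¹)⁻¹ := by
  obtain ⟨c, hc, e⟩ := h.zx hx hm
  obtain ⟨c', hc', e'⟩ := h.zx hx hm.inv
  rw [show q⁻¹ * w⁻¹ * p⁻¹ = (p * w * q)⁻¹ by group, inv_inv, inv_inv] at e'
  have y1 : p * w * q * x * (p * w * q)⁻¹ ∈ R.U 5 := hm.act.conj hx (by omega)
  have y2 : (p * w * q)⁻¹ * x * (p * w * q) ∈ R.U 5 := hm.act.conj_inv hx (by omega)
  generalize p * w * q * x * (p * w * q)⁻¹ = a at e y1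
  generalize (p * w * q)⁻¹ * x * (p * w * q) = b at e' y2
  have h1 := (h.comm (by decide) hm.u_mem y1 (by omega)).eq
  have h2 : x * (1 * 1) = x * (c' * (b * (w⁻¹ * c * w⁻¹⁻¹) * b⁻¹) * (b * a)) := by
    calc x * (1 * 1) = w⁻¹ * (w * x * w⁻¹) * w := by group
      _ = w⁻¹ * x * w * (w⁻¹ * c) * (a * w) := by rw [e]; group
      _ = _ := by rw [← h1, e']; group
  exact eq_inv_of_mul_eq_one_left (R.right_inj (one_mem _) (mul_mem y2 y1) (one_mem _)
    (mul_mem hc' (h.conj24 (by simp [y2]) (h.conj24 (by simp [hm.u_mem]) hc))) (by omega)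
    (mul_left_cancel h2)).2.symm

theorem neg2 (hm : R.Mu 6 0 p w q) (hz : z ∈ R.U 2) :
    (p * w * q)⁻¹ * z * (p * w * q) = (p * w * q * z * (p * w * q)⁻¹)⁻¹ := by
  have e := h.zz hz hm
  have e' := h.zz hz hm.inv
  rw [show q⁻¹ * w⁻¹ * p⁻¹ = (p * w * q)⁻¹ by group, inv_inv, inv_inv] at e'
  have y1 : p * w * q * z * (p * w * q)⁻¹ ∈ R.U 4 := hm.act.conj hz (by omega)
  generalize p * w * q * z * (p * w * q)⁻¹ = a at e y1
  generalize (p * w * q)⁻¹ * z * (p * w * q) = b at e'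
  have h1 := (h.comm (by decide) hm.u_mem y1 (by omega)).eq
  refine eq_inv_of_mul_eq_one_left (left_eq_mul.1 (?_ : z = z * (b * a)))
  calc z = w⁻¹ * (w * z * w⁻¹) * w := by group
    _ = w⁻¹ * z * w * w⁻¹ * (a * w) := by (conv_lhs => rw [e]); group
    _ = _ := by rw [← h1, e']; group

theorem odd_comm (hi : Odd i) (hu : u ∈ R.U i) (hv : v ∈ R.U i) : Commute u v := by
  have A : ∀ a ∈ R.U 1, ∀ b ∈ R.U 1, a * b = b * a := fun a ha b hb => by
    obtain ⟨w, hw, w1⟩ := R.exists_ne 6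
    obtain ⟨p, q, hm⟩ := exists_mu (j := 0) hw w1 (by omega)
    have h1 := h.neg1 hm ha
    have h2 := h.neg1 hm hb
    have h3 := h.neg1 hm (mul_mem ha hb)
    generalize p * w * q = m at h1 h2 h3
    calc a * b = m * (m⁻¹ * (a * b) * m) * m⁻¹ := by group
      _ = m * ((m * b * m⁻¹)⁻¹ * (m * a * m⁻¹)⁻¹) * m⁻¹ := by rw [h3]; group
      _ = b * a := by rw [← h1, ← h2]; group
  obtain ⟨g, hg⟩ := R.exists_rot (c := i - 1) (by obtain ⟨t, ht⟩ := hi; omega)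
  have h1 := A _ (hg.conj_inv (j := 1) hu (by ring)) _ (hg.conj_inv (j := 1) hv (by ring))
  show _ = _
  calc u * v = g * (g⁻¹ * u * g * (g⁻¹ * v * g)) * g⁻¹ := by group
    _ = v * u := by rw [h1]; group

theorem seg12_comm (hu : u ∈ seg R.U 1 2) (hv : v ∈ seg R.U 1 2) : Commute u v := by
  refine seg_commute (fun k a b y hy => (seg_commute (fun l c d x hx => ?_) hu).symm) hv
  by_cases e : k = 2
  · subst e
    exact h.comm (by decide) hy hx (by omega)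
  by_cases e' : l = 2
  · subst e'
    exact (h.comm (by decide) hx hy (by omega)).symm
  obtain rfl : k = 1 := by omega
  obtain rfl : l = 1 := by omega
  exact h.odd_comm (by decide) hy hx

theorem mu_add (hm : R.Mu 6 0 p w q) (hm' : R.Mu 6 0 p' w' q') (hm'' : R.Mu 6 0 p'' (w * w') q'')
    (hv : v ∈ seg R.U 1 2) : p'' * (w * w') * q'' * v * (p'' * (w * w') * q'')⁻¹ =
      p * w * q * v * (p * w * q)⁻¹ * (p' * w' * q' * v * (p' * w' * q')⁻¹) := by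
  obtain ⟨x, hx, z, hz, rfl⟩ := R.left (k := 2) hv (by omega)
  replace hz : z ∈ R.U 2 := seg_self hz rfl rfl
  obtain ⟨c, hc, e⟩ := h.zx hx hm
  obtain ⟨c', hc', e'⟩ := h.zx hx hm'
  obtain ⟨c'', hc'', e''⟩ := h.zx hx hm''
  have f := h.zz hz hm
  have f' := h.zz hz hm'
  have f'' := h.zz hz hm''
  have y1 : p * w * q * x * (p * w * q)⁻¹ ∈ R.U 5 := hm.act.conj hx (by omega)
  have y2 : p' * w' * q' * x * (p' * w' * q')⁻¹ ∈ R.U 5 := hm'.act.conj hx (by omega)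
  have y3 : p'' * (w * w') * q'' * x * (p'' * (w * w') * q'')⁻¹ ∈ R.U 5 := hm''.act.conj hx (by omega)
  have z1 : p * w * q * z * (p * w * q)⁻¹ ∈ R.U 4 := hm.act.conj hz (by omega)
  have z2 : p' * w' * q' * z * (p' * w' * q')⁻¹ ∈ R.U 4 := hm'.act.conj hz (by omega)
  generalize p * w * q = m at *
  generalize p' * w' * q' = m' at *
  generalize p'' * (w * w') * q'' = m'' at *
  rw [show ∀ a : G, a * (x * z) * a⁻¹ = a * x * a⁻¹ * (a * z * a⁻¹) by intro a; group,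
    show ∀ a : G, a * (x * z) * a⁻¹ = a * x * a⁻¹ * (a * z * a⁻¹) by intro a; group,
    show ∀ a : G, a * (x * z) * a⁻¹ = a * x * a⁻¹ * (a * z * a⁻¹) by intro a; group]
  generalize m * x * m⁻¹ = a at *
  generalize m' * x * m'⁻¹ = a' at *
  generalize m'' * x * m''⁻¹ = a'' at *
  generalize m * z * m⁻¹ = b at *
  generalize m' * z * m'⁻¹ = b' at *
  generalize m'' * z * m''⁻¹ = b'' at *
  have h1 := (h.comm (by decide) hm.u_mem y2 (by omega)).eq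
  have h2 := (h.comm (by decide) hm.u_mem z2 (by omega)).eq
  have h3 : x * (c'' * a'') = x * (c * (a * (w * c' * w⁻¹) * a⁻¹) * (a * a')) := by
    calc x * (c'' * a'') = w * (w' * x * w'⁻¹) * w⁻¹ := by rw [← mul_assoc, ← e'']; group
      _ = w * x * w⁻¹ * (w * c' * w⁻¹) * (w * a') * w⁻¹ := by rw [e']; group
      _ = _ := by rw [h1, e]; group
  have h4 := (R.right_inj y3 (mul_mem y1 y2) hc'' (mul_mem hc (h.conj24 (by simp [y1])
    (h.conj24 (by simp [hm.u_mem]) hc'))) (by omega) (mul_left_cancel h3)).2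
  have h5 : z * b'' = z * (b * b') := by
    calc z * b'' = w * (w' * z * w'⁻¹) * w⁻¹ := by rw [← f'']; group
      _ = w * z * w⁻¹ * (w * b') * w⁻¹ := by rw [f']; group
      _ = _ := by rw [h2, f]; group
  rw [h4, mul_left_cancel h5]
  exact (h.comm (by decide) z1 y2 (by omega)).symm.mul_mul_mul_comm _ _

theorem mu_neg (hm : R.Mu 6 0 p w q) (hv : v ∈ seg R.U 1 2) :
    (p * w * q)⁻¹ * v * (p * w * q) = (p * w * q * v * (p * w * q)⁻¹)⁻¹ := by
  obtain ⟨x, hx, z, hz, rfl⟩ := R.left (k := 2) hv (by omega)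
  replace hz : z ∈ R.U 2 := seg_self hz rfl rfl
  have h1 := h.neg1 hm hx
  have h2 := h.neg2 hm hz
  have h3 := (h.comm (i := 4) (j := 5) (by decide) (hm.act.conj hz (by omega)) (hm.act.conj hx (by omega))
    (by omega)).eq
  generalize p * w * q = m at h1 h2 h3
  calc m⁻¹ * (x * z) * m = m⁻¹ * x * m * (m⁻¹ * z * m) := by group
    _ = (m * z * m⁻¹ * (m * x * m⁻¹))⁻¹ := by rw [h1, h2]; group
    _ = _ := by rw [h3]; group

theorem mu_sq (hm : R.Mu 6 0 p w q) (hv : v ∈ seg R.U 1 2 ∨ v ∈ seg R.U 4 5) :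
    p * w * q * (p * w * q * v * (p * w * q)⁻¹) * (p * w * q)⁻¹ = v⁻¹ := by
  rcases hv with hv | hv
  · have h1 := h.mu_neg hm (inv_mem hv)
    generalize p * w * q = m at h1
    calc m * (m * v * m⁻¹) * m⁻¹ = m * (m * v⁻¹ * m⁻¹)⁻¹ * m⁻¹ := by group
      _ = v⁻¹ := by rw [← h1]; group
  · have h1 := h.mu_neg hm (hm.act.seg (i' := 1) (j' := 2) hv (by omega))
    generalize p * w * q = m at h1
    rw [← inv_inj, ← h1]
    group

theorem mu_inj (hm : R.Mu 6 0 p w q) (hm' : R.Mu 6 0 p' w' q') (hz : z ∈ R.U 2) (ne : z ≠ 1)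
    (e : p * w * q * z * (p * w * q)⁻¹ = p' * w' * q' * z * (p' * w' * q')⁻¹) : w = w' := by
  by_contra c
  have c' : w'⁻¹ * w ≠ 1 := fun e => c (inv_mul_eq_one.1 e).symm
  obtain ⟨a, b, hn⟩ := exists_mu (j := 0) (mul_mem (inv_mem hm'.u_mem) hm.u_mem) c' (by omega)
  have h1 := h.zz hz hn
  have h2 : w * z * w⁻¹ = w' * z * w'⁻¹ := by rw [h.zz hz hm, h.zz hz hm', e]
  rw [show w'⁻¹ * w * z * (w'⁻¹ * w)⁻¹ = w'⁻¹ * (w * z * w⁻¹) * w' by group, h2,
    show w'⁻¹ * (w' * z * w'⁻¹) * w' = z by group] at h1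
  exact ne (conj_eq_one_iff.1 (left_eq_mul.1 h1))

theorem mu_surj [Finite G] (hz : z ∈ R.U 2) (ne : z ≠ 1) (hz' : z' ∈ R.U 4) (ne' : z' ≠ 1) :
    ∃ p w q, R.Mu 6 0 p w q ∧ p * w * q * z * (p * w * q)⁻¹ = z' := by
  have A : ∀ w : R.U 6, ∃ b : R.U 4, ((w : G) = 1 ∧ (b : G) = 1) ∨ ∃ p q, R.Mu 6 0 p w q ∧
      p * w * q * z * (p * w * q)⁻¹ = b := by
    intro w
    by_cases c : (w : G) = 1
    · exact ⟨1, Or.inl ⟨c, rfl⟩⟩
    obtain ⟨p, q, hm⟩ := exists_mu (j := 0) w.2 c (by omega)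
    exact ⟨⟨_, hm.act.conj hz (by omega)⟩, Or.inr ⟨p, q, hm, rfl⟩⟩
  choose f hf using A
  have hi : Function.Injective f := by
    intro w w' e
    refine Subtype.ext ?_
    have e' : (f w : G) = f w' := congrArg _ e
    rcases hf w with ⟨h1, h2⟩ | ⟨p, q, hm, h2⟩ <;> rcases hf w' with ⟨k1, k2⟩ | ⟨p', q', hm', k2⟩
    · rw [h1, k1]
    · exact absurd (conj_eq_one_iff.1 (by rw [k2, ← e', h2])) ne
    · exact absurd (conj_eq_one_iff.1 (by rw [h2, e', k2])) ne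
    · exact h.mu_inj hm hm' hz ne (by rw [h2, k2, e'])
  obtain ⟨w, hw⟩ := (hi.bijective_of_nat_card_le (R.card_two (i := 4) (j := 6) (by decide)).le).2 ⟨z', hz'⟩
  have e : (f w : G) = z' := congrArg Subtype.val hw
  rcases hf w with ⟨-, h2⟩ | ⟨p, q, hm, h2⟩
  · exact absurd (e ▸ h2) ne'
  · exact ⟨p, w, q, hm, h2.trans e⟩

/-- the inverse of `n⁻¹ μ(w)` -/
theorem mu_inv (hn : R.Mu 6 0 p' u q') (hm : R.Mu 6 0 p w q) : ∃ p₁ w₁ q₁, R.Mu 6 0 p₁ w₁ q₁ ∧ ∀ v ∈ seg R.U 1 2,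
    (p' * u * q')⁻¹ * (p₁ * w₁ * q₁) * ((p' * u * q')⁻¹ * (p * w * q)) * v *
      ((p' * u * q')⁻¹ * (p₁ * w₁ * q₁) * ((p' * u * q')⁻¹ * (p * w * q)))⁻¹ = v := by
  refine ⟨_, _, _, hm.right.1.conj (i' := 6) (j' := 0) hn.act (by omega), fun v hv => ?_⟩
  have h0 := hm.right.2
  have h1 := h.mu_sq hm (Or.inl hv)
  have h2 := h.mu_sq hn (Or.inr (inv_mem (hm.act.seg (i' := 4) (j' := 5) hv (by omega))))
  generalize p' * u * q' = n at h2
  rw [show n * w * n⁻¹ * (n * q * n⁻¹) * (n * ((p * w * q)⁻¹ * p * (p * w * q)) * n⁻¹) =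
    n * (w * q * ((p * w * q)⁻¹ * p * (p * w * q))) * n⁻¹ by group, h0]
  generalize p * w * q = m at h1 h2
  rw [inv_inv] at h2
  calc _ = m * (n⁻¹ * (n⁻¹ * (m * v * m⁻¹) * n) * n) * m⁻¹ := by simp [mul_assoc]
    _ = (m * (m * v * m⁻¹) * m⁻¹)⁻¹ := by (conv_lhs => rw [← h2]); simp [mul_assoc]
    _ = v := by rw [h1, inv_inv]

end RD.Hex

end CfsgLib.Mouf
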