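import Cfsg.Agent.Lib.Mouf.HS
import Cfsg.Agent.Lib.Mouf.Fld
import Cfsg.Agent.Lib.Mouf.Fld2

/-!
# Package HC: coordinates for a hexagon (see `plans/MOUF.md`)
-/

set_option autoImplicit false

namespace CfsgLib.Mouf
open scoped commutatorElement

theorem hc_conj {G : Type*} [Group G] (a b x : G) : a * b * x * (a * b)⁻¹ = a * (b * x * b⁻¹) * a⁻¹ := by group

open RD in
theorem RD.Hex.exists_X1 {G : Type*} [Group G] [Finite G] {R : RD 6 G} (h : R.Hex) :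
    ∃ (F J : Type) (_ : Field F) (_ : AddCommGroup J) (_ : Module F J) (_ : Finite F) (_ : Finite J),
      Nonempty (R.X1 F J) := by
  obtain ⟨e6, he6, e61⟩ := R.exists_ne 6
  obtain ⟨p6, q6, hn⟩ := exists_mu (j := 0) he6 e61 (by norm_num)
  obtain ⟨e1, he1, e11⟩ := R.exists_ne 1
  obtain ⟨p1, q1, hm⟩ := exists_mu (j := 7) (inv_mem he1) (inv_ne_one.2 e11) (by norm_num)
  obtain ⟨n, en⟩ : ∃ n, n = p6 * e6 * q6 := ⟨_, rfl⟩
  obtain ⟨m, em⟩ : ∃ m, m = p1 * e1⁻¹ * q1 := ⟨_, rfl⟩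
  have an : Act R.U n 6 (-1) := en ▸ hn.act' (by norm_num)
  have am : Act R.U m 8 (-1) := em ▸ hm.act' (by norm_num)
  obtain ⟨H, hH⟩ : ∃ H : Set G, ∀ k, k ∈ H ↔ ∃ p w q, R.Mu 6 0 p w q ∧ k = n⁻¹ * (p * w * q) :=
    ⟨{k | ∃ p w q, R.Mu 6 0 p w q ∧ k = n⁻¹ * (p * w * q)}, fun _ => Iff.rfl⟩
  have aH : ∀ k ∈ H, Act R.U k 0 1 := fun k hk => by
    obtain ⟨p, w, q, h1, rfl⟩ := (hH k).1 hk
    exact (an.inv (Or.inr ⟨rfl, rfl⟩)).mul h1.act (by norm_num)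
  have one : ∃ k ∈ H, ∀ v : G, k * v * k⁻¹ = v := ⟨_, (hH _).2 ⟨_, _, _, hn, rfl⟩, by simp [← en]⟩
  have A1 : ∀ {p w q p' w' q' p'' q'' v : G}, R.Mu 6 0 p w q → R.Mu 6 0 p' w' q' → R.Mu 6 0 p'' (w * w') q'' →
      v ∈ seg R.U 1 2 → n⁻¹ * (p'' * (w * w') * q'') * v * (n⁻¹ * (p'' * (w * w') * q''))⁻¹ =
        n⁻¹ * (p * w * q) * v * (n⁻¹ * (p * w * q))⁻¹ *
          (n⁻¹ * (p' * w' * q') * v * (n⁻¹ * (p' * w' * q'))⁻¹) := fun h1 h2 h3 hv => by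
    simp only [hc_conj n⁻¹]
    rw [h.mu_add h1 h2 h3 hv, conj_mul]
  have A2 : ∀ {p w q p' w' q' v : G}, R.Mu 6 0 p w q → R.Mu 6 0 p' w' q' → w * w' = 1 →
      v ∈ seg R.U 1 2 → n⁻¹ * (p * w * q) * v * (n⁻¹ * (p * w * q))⁻¹ *
        (n⁻¹ * (p' * w' * q') * v * (n⁻¹ * (p' * w' * q'))⁻¹) = 1 := fun {p w q p' w' q' v} h1 h2 h3 hv => by
    obtain rfl := eq_inv_of_mul_eq_one_right h3
    obtain ⟨rfl, rfl⟩ := h2.unique h1.inv
    rw [hc_conj n⁻¹, hc_conj n⁻¹, conj_mul, show q⁻¹ * w⁻¹ * p⁻¹ = (p * w * q)⁻¹ by group, inv_inv (p * w * q), h.mu_neg h1 hv]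
    group
  have add : ∀ k ∈ H, ∀ k' ∈ H, (∃ l ∈ H, ∀ v ∈ seg R.U 1 2, l * v * l⁻¹ = k * v * k⁻¹ * (k' * v * k'⁻¹)) ∨
      ∀ v ∈ seg R.U 1 2, k * v * k⁻¹ * (k' * v * k'⁻¹) = 1 := fun k hk k' hk' => by
    obtain ⟨p, w, q, h1, rfl⟩ := (hH k).1 hk
    obtain ⟨p', w', q', h2, rfl⟩ := (hH k').1 hk'
    by_cases h3 : w * w' = 1
    · exact Or.inr fun v hv => A2 h1 h2 h3 hv
    obtain ⟨p'', q'', h4⟩ := exists_mu (j := 0) (mul_mem h1.u_mem h2.u_mem) h3 (by norm_num)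
    exact Or.inl ⟨_, (hH _).2 ⟨_, _, _, h4, rfl⟩, fun v hv => A1 h1 h2 h4 hv⟩
  have inv : ∀ k ∈ H, ∃ l ∈ H, ∀ v ∈ seg R.U 1 2, l * k * v * (l * k)⁻¹ = v := fun k hk => by
    obtain ⟨p, w, q, h1, rfl⟩ := (hH k).1 hk
    obtain ⟨p₁, w₁, q₁, h2, h3⟩ := h.mu_inv hn h1
    exact ⟨_, (hH _).2 ⟨_, _, _, h2, rfl⟩, en ▸ h3⟩
  have s1 : ∀ {v}, v ∈ R.U 1 → v ∈ seg R.U 1 2 := fun hv => mem_seg hv le_rfl (by norm_num)
  have s2 : ∀ {v}, v ∈ R.U 2 → v ∈ seg R.U 1 2 := fun hv => mem_seg hv (by norm_num) le_rfl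
  have hv0 : m * e6 * m⁻¹ ∈ R.U 2 := am.conj he6 (by norm_num)
  have v0ne : m * e6 * m⁻¹ ≠ 1 := fun e => e61 (conj_eq_one_iff.1 e)
  obtain ⟨F, _, _, z2, zadd, zinj, zmem, z1, sc1, sc2⟩ := exists_field' (R.U 2) H hv0 v0ne
    (fun v hv w hw => h.seg12_comm (s2 hv) (s2 hw)) (fun k hk v hv => (aH k hk).conj hv (by norm_num))
    (fun k hk k' hk' => (add k hk k' hk').imp (fun ⟨l, hl, e⟩ => ⟨l, hl, fun v hv => e v (s2 hv)⟩)
      fun e v hv => e v (s2 hv))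
    (fun k hk => (inv k hk).imp fun l ⟨hl, e⟩ => ⟨hl, fun v hv => e v (s2 hv)⟩)
    (one.imp fun l ⟨hl, e⟩ => ⟨hl, fun v _ => e v⟩) fun v hv v1 => by
      obtain ⟨p, w, q, h1, h2⟩ := h.mu_surj hv0 v0ne (an.conj hv (k := 4) (by norm_num))
        fun e => v1 (conj_eq_one_iff.1 e)
      exact ⟨_, (hH _).2 ⟨_, _, _, h1, rfl⟩, by rw [hc_conj, h2]; group⟩
  have p2 : Par z2 (R.U 2) := ⟨zadd, zinj, zmem⟩
  have p4 : Par (fun t => n * z2 t * n⁻¹) (R.U 4) := p2.conj n (by simpa using an 2)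
  obtain ⟨Rel, hRel⟩ : ∃ Rel : G → F → Prop, ∀ w s, Rel w s ↔
      w ∈ R.U 6 ∧ ∀ t, w * z2 t * w⁻¹ = z2 t * (n * z2 (s * t) * n⁻¹) := ⟨_, fun _ _ => Iff.rfl⟩
  have R0 : Rel 1 0 := (hRel _ _).2 ⟨one_mem _, fun t => by simp [p2.zero]⟩
  have R1 : ∀ {p w q s}, R.Mu 6 0 p w q → (Rel w s ↔ Sc (n⁻¹ * (p * w * q)) z2 s) := fun {p w q s} h1 => by
    rw [hRel, and_iff_right h1.u_mem]
    refine forall_congr' fun t => ?_
    rw [h.zz (p2.mem t) h1, mul_right_inj, hc_conj n⁻¹]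
    exact ⟨fun e => by rw [e]; group, fun e => by rw [← e]; group⟩
  have R2 : ∀ {w w' s}, Rel w s → Rel w' s → w = w' := fun {w w' s} h1 h2 => by
    obtain ⟨h1, h3⟩ := (hRel _ _).1 h1
    obtain ⟨h2, h4⟩ := (hRel _ _).1 h2
    by_contra h5
    obtain ⟨p, q, h6⟩ := exists_mu (j := 0) (mul_mem (inv_mem h2) h1)
      (fun e => h5 (inv_mul_eq_one.1 e).symm) (by norm_num)
    have h7 := h.zz (p2.mem 1) h6
    rw [hc_conj, h3, ← h4, show w'⁻¹ * (w' * z2 1 * w'⁻¹) * w'⁻¹⁻¹ = z2 1 by group, left_eq_mul,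
      conj_eq_one_iff] at h7
    exact p2.ne one_ne_zero h7
  have R3 : ∀ {w s s'}, Rel w s → Rel w s' → s = s' := fun {w s s'} h1 h2 => by
    have := (((hRel _ _).1 h1).2 1).symm.trans (((hRel _ _).1 h2).2 1)
    simpa using p4.eq (mul_left_cancel this)
  have R4 : ∀ s, ∃ w, Rel w s := fun s => by
    by_cases hs : s = 0
    · exact ⟨1, hs ▸ R0⟩
    obtain ⟨k, hk, e⟩ := sc2 s hs
    obtain ⟨p, w, q, h1, rfl⟩ := (hH k).1 hk
    exact ⟨w, (R1 h1).2 e⟩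
  choose z6 hz6 using R4
  have p6' : Par z6 (R.U 6) := by
    refine ⟨fun s s' => R2 (hz6 _) ?_, fun t e => R3 (e ▸ hz6 t) R0, fun g => ⟨fun hg => ?_, ?_⟩⟩
    · obtain ⟨h1, h2⟩ := (hRel _ _).1 (hz6 s)
      obtain ⟨h3, h4⟩ := (hRel _ _).1 (hz6 s')
      refine (hRel _ _).2 ⟨mul_mem h1 h3, fun t => ?_⟩
      rw [hc_conj, h4, ← conj_mul, h2, ← (h.comm (by decide) (p4.mem (s' * t)) h1 (by norm_num)).eq,
        mul_inv_cancel_right, mul_assoc, conj_mul, ← zadd, add_mul]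
    · by_cases h1 : g = 1
      · exact ⟨0, R2 (hz6 0) (h1 ▸ R0)⟩
      obtain ⟨p, q, h2⟩ := exists_mu (j := 0) hg h1 (by norm_num)
      obtain ⟨s, hs⟩ := sc1 _ ((hH _).2 ⟨_, _, _, h2, rfl⟩)
      exact ⟨s, R2 (hz6 s) ((R1 h2).2 hs)⟩
    · rintro ⟨t, rfl⟩
      exact ((hRel _ _).1 (hz6 t)).1
  have z61 : z6 1 = e6 := R2 (hz6 1) ((R1 hn).2 fun t => by simp [← en])
  have ex : ∀ s, ∃ p q, s ≠ 0 → R.Mu 6 0 p (z6 s) q := fun s => by
    by_cases hs : s = 0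
    · exact ⟨1, 1, fun h0 => (h0 hs).elim⟩
    obtain ⟨p, q, h1⟩ := exists_mu (j := 0) (p6'.mem s) (p6'.ne hs) (by norm_num)
    exact ⟨p, q, fun _ => h1⟩
  choose p q hpq using ex
  obtain ⟨k, hk⟩ : ∃ k : F → G, ∀ s, k s = n⁻¹ * (p s * z6 s * q s) := ⟨_, fun _ => rfl⟩
  have kH : ∀ s, s ≠ 0 → k s ∈ H := fun s hs => (hH _).2 ⟨_, _, _, hpq s hs, hk s⟩
  have kz : ∀ s, s ≠ 0 → Sc (k s) z2 s := fun s hs => hk s ▸ (R1 (hpq s hs)).1 (hz6 s)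
  have Hk : ∀ l ∈ H, ∀ s, s ≠ 0 → Sc l z2 s → l = k s := fun l hl s hs e => by
    obtain ⟨p', w, q', h1, rfl⟩ := (hH l).1 hl
    obtain rfl := R2 ((R1 h1).2 e) (hz6 s)
    obtain ⟨rfl, rfl⟩ := h1.unique (hpq s hs)
    exact (hk s).symm
  obtain ⟨J, _, _, _, x1, p1', kx⟩ := exists_module (R.U 1) k (fun v hv w hw => h.odd_comm (by decide) hv hw)
    (fun s hs v hv => (aH _ (kH s hs)).conj hv (by norm_num))
    (fun v _ => by
      obtain ⟨l, hl, e⟩ := one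
      rw [← Hk l hl 1 one_ne_zero fun t => by rw [e, one_mul], e])
    (fun s t hs ht v hv => by
      obtain ⟨l, hl, e⟩ := mul_of_inv (seg R.U 1 2) H (fun v hv w hw => h.seg12_comm hv hw)
        (fun l hl v hv => (aH l hl).seg hv (by norm_num)) (one.imp fun l ⟨hl, e⟩ => ⟨hl, fun v _ => e v⟩)
        add inv (fun e => e11 (Subgroup.mem_bot.1 (e ▸ s1 he1))) (kH s hs) (kH t ht)
      rw [← Hk l hl _ (mul_ne_zero hs ht) fun r => by
        rw [e _ (s2 (p2.mem r)), hc_conj, kz t ht, kz s hs, mul_assoc], e v (s1 hv)])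
    (fun s t hs ht hst v hv => by
      have := hpq _ hst
      rw [hk, hk, hk, p6'.add] at *
      exact A1 (hpq s hs) (hpq t ht) this (s1 hv))
    fun s hs v hv => by
      rw [hk, hk]
      exact A2 (hpq s hs) (hpq _ (neg_ne_zero.2 hs)) (by rw [p6'.neg, mul_inv_cancel]) (s1 hv)
  obtain ⟨e, rfl⟩ := p1'.ex he1
  have p5 : Par (fun a => n * x1 a * n⁻¹) (R.U 5) := p1'.conj n (by simpa using an 1)
  let O : R.X0 F J :=
    { x1 := x1
      x3 := fun a => m * (n * x1 (-a) * n⁻¹) * m⁻¹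
      x5 := fun a => n * x1 a * n⁻¹
      z2 := z2
      z4 := fun t => n * z2 t * n⁻¹
      z6 := z6
      p1 := p1'
      p2 := p2
      p3 := p5.comp_neg.conj m (by simpa using am 5)
      p4 := p4
      p5 := p5
      p6 := p6'
      rE := fun s => ((hRel _ _).1 (hz6 s)).2 }
  obtain ⟨ν, -, m6, m2, -⟩ := O.mu17 h hm
  rw [← em] at m6 m2
  obtain rfl : ν = 1 := by
    have := m6 1
    simp only [O, z61, one_mul] at this
    exact p2.eq (this.symm.trans z1.symm)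
  have B : ∀ {a r b : G}, R.Mu 0 6 a r b → a * r * b = n → r = n * z6 1 * n⁻¹ := fun {a r b} h1 h2 => by
    rw [← R2 ((hRel (n⁻¹ * r * n) 1).2 ⟨an.conj_inv h1.u_mem (by norm_num), fun t => ?_⟩) (hz6 1)]
    · group
    · have := h.zz' (p4.mem t) h1
      rw [h2] at this
      calc _ = n⁻¹ * (r * (n * z2 t * n⁻¹) * r⁻¹) * n := by group
        _ = _ := by rw [this, one_mul]; group
  have hp := B hn.left.1 (hn.left.2.trans en.symm)
  have hq := B hn.right.1 (hn.right.2.trans en.symm)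
  have sq : ∀ {v}, v ∈ seg R.U 1 2 → n * (n * v * n⁻¹) * n⁻¹ = v⁻¹ := fun hv => en ▸ h.mu_sq hn (Or.inl hv)
  have C : ∀ s, s ≠ 0 → ∀ v ∈ seg R.U 1 2, k s * (n * (k s * v * (k s)⁻¹) * n⁻¹) * (k s)⁻¹ = n * v * n⁻¹ :=
    fun s hs v hv => by
      have h1 := h.mu_sq (hpq s hs) (Or.inl hv)
      have h2 := h.mu_neg hn (inv_mem hv)
      rw [← en] at h2
      rw [hk]
      generalize p s * z6 s * q s = μ at h1
      calc _ = n⁻¹ * (μ * (μ * v * μ⁻¹) * μ⁻¹) * n := by group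
        _ = _ := by rw [h1, h2]; group
  refine ⟨F, J, inferInstance, inferInstance, inferInstance, inferInstance, inferInstance, ⟨{
    toX0 := O
    n := n
    m := m
    e := e
    mun := by rw [hp, hq, ← z61] at hn; exact hn
    n_eq := by rw [hp, hq, ← z61] at en; exact en
    mum := ⟨p1, q1, by simpa only [O, p1'.neg] using hm, by simpa only [O, p1'.neg] using em⟩
    nx1 := fun _ => rfl
    nx5 := fun a => (sq (s1 (p1'.mem a))).trans (p1'.neg a).symm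
    nz2 := fun _ => rfl
    nz4 := fun t => (sq (s2 (p2.mem t))).trans (p2.neg t).symm
    mz6 := by simpa using m6
    mz2 := by simpa using m2
    mx5 := fun a => by simp [O]
    zx := fun t a => ?_
    tor := fun s hs => ⟨k s, aH _ (kH s hs), kx s hs, kz s hs, fun a => ?_, fun t => ?_, fun a => ?_⟩ }⟩⟩
  · by_cases ht : t = 0
    · exact ⟨1, one_mem _, by simp [O, ht, p6'.zero, p1'.zero]⟩
    obtain ⟨c, hc, e1⟩ := h.zx (p1'.mem a) (hpq t ht)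
    refine ⟨c, hc, e1.trans ?_⟩
    simp only [O, ← kx t ht, hk]
    group
  · have c : ∀ {p w q}, R.Mu 6 0 p w q → Commute (p * w * q) (O.x3 a) := fun h1 =>
      ((h.comm (by decide) h1.p_mem (O.p3.mem a) (by norm_num)).mul_left
        (h.comm (by decide) h1.u_mem (O.p3.mem a) (by norm_num))).mul_left
        (h.comm (by decide) h1.q_mem (O.p3.mem a) (by norm_num))
    rw [hk, (((en ▸ c hn : Commute n _).inv_left).mul_left (c (hpq s hs))).eq, mul_inv_cancel_right]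
  · have := C s hs _ (s2 (p2.mem (s⁻¹ * t)))
    rwa [kz s hs, mul_inv_cancel_left₀ hs] at this
  · have := C s hs _ (s1 (p1'.mem (s⁻¹ • a)))
    rwa [kx s hs, smul_inv_smul₀ hs] at this

end CfsgLib.Mouf
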