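import Cfsg.Agent.Lib.Mouf.HS

/-!
# Package HD: the structure functions of a hexagon (see `plans/MOUF.md`)
-/

set_option autoImplicit false

namespace CfsgLib.Mouf
open scoped commutatorElement

theorem RD.X1.exists_X2 {G : Type*} [Group G] {R : RD 6 G} {F J : Type} [Field F] [AddCommGroup J] [Module F J]
    (O : R.X1 F J) (h : R.Hex) : Nonempty (R.X2 F J) := by
  obtain ⟨Q, hQ⟩ : ∃ Q : F → J → F → G, ∀ α β γ, Q α β γ = O.z2 α * O.x3 β * O.z4 γ := ⟨_, fun _ _ _ => rfl⟩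
  have Qinj : ∀ {α β γ α' β' γ'}, Q α β γ = Q α' β' γ' → α = α' ∧ β = β' ∧ γ = γ' := fun e =>
    O.nf24_inj (by rwa [← hQ, ← hQ])
  have Q0 : Q 0 0 0 = 1 := by simp [hQ, O.p2.zero, O.p3.zero, O.p4.zero]
  have Qmul : ∀ α β γ α' β' γ', Q α β γ * Q α' β' γ' = Q (α + α') (β + β') (γ + γ') := fun α β γ α' β' γ' => by
    have c1 := (O.z2_comm h α' (O.p3.mem β) (by norm_num)).eq
    have c2 := (O.z2_comm h α' (O.p4.mem γ) (by norm_num)).eq
    have c3 := (O.z4_comm h γ (O.p3.mem β') (by norm_num)).eq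
    simp only [hQ, O.p2.add, O.p3.add, O.p4.add]
    calc _ = O.z2 α * O.x3 β * (O.z4 γ * O.z2 α') * O.x3 β' * O.z4 γ' := by group
      _ = O.z2 α * (O.x3 β * O.z2 α') * (O.z4 γ * O.x3 β') * O.z4 γ' := by rw [← c2]; group
      _ = _ := by rw [← c1, c3]; group
  have Qc : ∀ {k : G} {a b c : F}, Sc k O.z2 a → (∀ β, k * O.x3 β * k⁻¹ = O.x3 (b • β)) → Sc k O.z4 c →
      ∀ α β γ, k * Q α β γ * k⁻¹ = Q (a * α) (b • β) (c * γ) := fun h2 h3 h4 α β γ => by
    rw [hQ, hQ, ← h2, ← h3, ← h4, conj_mul, conj_mul]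
  have cj : ∀ k a x : G, k * (a * x * a⁻¹) * k⁻¹ = k * a * k⁻¹ * (k * x * k⁻¹) * (k * a * k⁻¹)⁻¹ :=
    fun k a x => by group
  have cj' : ∀ k a x : G, k * a * x * (k * a)⁻¹ = k * (a * x * a⁻¹) * k⁻¹ := fun k a x => by group
  have exA : ∀ a, ∃ α β γ, O.z6 1 * O.x1 a * (O.z6 1)⁻¹ = O.x1 a * Q α β γ * O.x5 a := fun a => by
    obtain ⟨c, hc, e⟩ := O.zx 1 a
    obtain ⟨α, β, γ, rfl⟩ := O.nf24 hc
    exact ⟨α, β, γ, by rw [e, hQ, one_smul]⟩
  choose N sh M hA using exA
  have rA : ∀ t a, O.z6 t * O.x1 a * (O.z6 t)⁻¹ = O.x1 a * Q (t * N a) (t • sh a) (t * t * M a) * O.x5 (t • a) :=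
    fun t a => by
      by_cases ht : t = 0
      · simp [ht, Q0, O.p6.zero, O.p5.zero]
      obtain ⟨k, k1, k2, k3, k4, k5, k6⟩ := O.tor1 h (inv_ne_zero ht)
      obtain ⟨l, l1, l2, l3, l4, l5, l6⟩ := O.tor2 h ht
      have e := congrArg (fun g => k * (l * g * l⁻¹) * k⁻¹) (hA a)
      simp only [cj l, ← conj_mul (b := l)] at e
      rw [l6, l1, l5, Qc l2 l3 l4] at e
      simp only [cj k, ← conj_mul (b := k)] at e
      rw [k6, k1, k5, Qc (b := 1) k2 (by simpa using k3) k4] at e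
      simpa [ht, mul_assoc] using e
  have A0 : ∀ (s : F) a, N (s • a) = s ^ 3 * N a ∧ sh (s • a) = (s * s) • sh a ∧ M (s • a) = s ^ 3 * M a :=
    fun s a => by
      by_cases hs : s = 0
      · have := hA 0
        simp only [O.p1.zero, O.p5.zero, mul_one, mul_inv_cancel, one_mul] at this
        simpa [hs] using Qinj (this.symm.trans Q0.symm)
      obtain ⟨k, k1, k2, k3, k4, k5, k6⟩ := O.tor1 h hs
      have e := congrArg (fun g => k * g * k⁻¹) (hA a)
      simp only [cj k, ← conj_mul (b := k)] at e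
      rw [k6, k1, k5, Qc (b := 1) k2 (by simpa using k3) k4, rA, smul_smul,
        show s⁻¹ * s⁻¹ * 1 * s = s⁻¹ by field_simp, mul_left_inj, mul_right_inj] at e
      obtain ⟨e1, e2, e3⟩ := Qinj e
      refine ⟨by field_simp at e1; linear_combination e1, ?_, by field_simp at e3; linear_combination e3⟩
      rw [one_smul] at e2
      rw [← e2, smul_smul, show s * s * (s⁻¹ * s⁻¹ * 1) = 1 by field_simp, one_smul]
  have exC : ∀ a b, ∃ t, O.x3 b * O.x1 a * (O.x3 b)⁻¹ = O.x1 a * O.z2 t := fun a b => by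
    obtain ⟨t, e⟩ := O.p2.ex (seg_self (R.comm_mem (inv_mem (O.p1.mem a)) (O.p3.mem b) (k := 2) (l := 2)
      (by norm_num)).1 rfl rfl)
    exact ⟨t, by rw [← e, commutatorElement_def]; group⟩
  choose T hC using exC
  have T1 : ∀ a a' b, T (a + a') b = T a b + T a' b := fun a a' b => by
    have e := hC (a + a') b
    rw [O.p1.add, ← conj_mul, hC, hC, mul_assoc, mul_assoc, mul_right_inj, ← mul_assoc,
      (O.z2_comm h _ (O.p1.mem a') (by norm_num)).eq, mul_assoc, mul_right_inj, ← O.p2.add] at e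
    exact (O.p2.eq e).symm
  have T2 : ∀ a b b', T a (b + b') = T a b + T a b' := fun a b b' => by
    have e := hC a (b + b')
    rw [O.p3.add, cj', hC, ← conj_mul, hC, ← (O.z2_comm h _ (O.p3.mem b) (by norm_num)).eq, mul_inv_cancel_right,
      mul_assoc, mul_right_inj, ← O.p2.add] at e
    exact (O.p2.eq e).symm
  have T3 : ∀ (s : F) a b, T (s • a) b = s * T a b := fun s a b => by
    by_cases hs : s = 0
    · simpa [hs] using T1 0 0 b
    obtain ⟨k, k1, k2, k3, -⟩ := O.tor1 h hs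
    have e := congrArg (fun g => k * g * k⁻¹) (hC a b)
    simp only [cj k, ← conj_mul (b := k)] at e
    rw [k1, k2, k3, hC, mul_right_inj] at e
    exact O.p2.eq e
  have T4 : ∀ (s : F) a b, T a (s • b) = s * T a b := fun s a b => by
    by_cases hs : s = 0
    · simpa [hs] using T2 a 0 0
    obtain ⟨k, k1, k2, k3, -⟩ := O.tor2 h hs
    have e := congrArg (fun g => k * g * k⁻¹) (hC a b)
    simp only [cj k, ← conj_mul (b := k)] at e
    rw [k1, k2, k3, hC, mul_right_inj, T3] at e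
    exact mul_left_cancel₀ hs ((O.p2.eq e).trans (mul_assoc _ _ _))
  have rD : ∀ a b, O.x5 b * O.x3 a * (O.x5 b)⁻¹ = O.x3 a * O.z4 (-T b a) := fun a b => by
    have e := congrArg (fun g => O.n * g * O.n⁻¹) (hC b a)
    simp only [cj O.n, ← conj_mul (b := O.n)] at e
    rw [O.nx3 h, O.nx1, O.nz2] at e
    have c := (O.z4_comm h (T b a) (O.p3.mem a) (by norm_num)).eq
    have c' := (O.z4_comm h (T b a) (O.p5.mem b) (by norm_num)).eq
    rw [O.p4.neg]
    calc _ = O.x5 b * (O.x3 a * O.z4 (T b a)) * (O.x5 b * O.z4 (T b a))⁻¹ := by group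
      _ = O.x5 b * O.z4 (T b a) * O.x3 a * (O.z4 (T b a) * O.x5 b)⁻¹ := by rw [← c, c']; group
      _ = _ := by rw [← e]; group
  have exB : ∀ a b, ∃ α β γ, O.x5 b * O.x1 a * (O.x5 b)⁻¹ = O.x1 a * Q α β γ := fun a b => by
    obtain ⟨α, β, γ, e⟩ := O.nf24 (R.comm_mem (inv_mem (O.p1.mem a)) (O.p5.mem b) (k := 2) (l := 4)
      (by norm_num)).1
    exact ⟨α, β, γ, by rw [hQ, ← e, commutatorElement_def]; group⟩
  choose g2 cr g4 hB using exB
  have B1 : ∀ a b b', g2 a (b + b') = g2 a b + g2 a b' ∧ cr a (b + b') = cr a b + cr a b' := fun a b b' => by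
    have e := hB a (b + b')
    have e1 : ∀ α β γ, O.x5 b * Q α β γ * (O.x5 b)⁻¹ = Q α β (-T b β + γ) := fun α β γ => by
      rw [hQ, ← conj_mul, ← conj_mul, rD, ← (O.z2_comm h _ (O.p5.mem b) (by norm_num)).eq,
        ← (O.z4_comm h _ (O.p5.mem b) (by norm_num)).eq, hQ, O.p4.add]
      group
    rw [O.p5.add, cj', hB, ← conj_mul, hB, e1, mul_assoc, mul_right_inj, Qmul] at e
    exact ⟨(Qinj e).1.symm, (Qinj e).2.1.symm⟩
  have B2 : ∀ a a' b, cr (a + a') b = cr a b + cr a' b := fun a a' b => by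
    have e := hB (a + a') b
    have e1 : ∀ α β γ, Q α β γ * O.x1 a' = O.x1 a' * Q (α + T a' β) β γ := fun α β γ => by
      rw [hQ, hQ, mul_assoc, (O.z4_comm h _ (O.p1.mem a') (by norm_num)).eq, O.p2.add, ← mul_assoc, mul_assoc (O.z2 α),
        mul_inv_eq_iff_eq_mul.1 (hC a' β), ← mul_assoc, ← mul_assoc, (O.z2_comm h _ (O.p1.mem a') (by norm_num)).eq]
      group
    rw [O.p1.add, ← conj_mul, hB, hB, mul_assoc, mul_assoc, mul_right_inj, ← mul_assoc, e1, mul_assoc,
      mul_right_inj, Qmul] at e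
    exact (Qinj e).2.1.symm
  have B3 : ∀ (s : F) a b, g2 (s • a) b = s * s * g2 a b ∧ cr (s • a) b = s • cr a b ∧ g4 (s • a) b = s * g4 a b :=
    fun s a b => by
      by_cases hs : s = 0
      · have := hB 0 b
        simp only [O.p1.zero, mul_one, mul_inv_cancel, one_mul] at this
        simpa [hs] using Qinj (this.symm.trans Q0.symm)
      obtain ⟨k, k1, k2, k3, k4, k5, -⟩ := O.tor2 h hs
      have e := congrArg (fun g => k * g * k⁻¹) (hB a b)
      simp only [cj k, ← conj_mul (b := k)] at e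
      rw [k1, k5, Qc k2 k3 k4, hB, mul_right_inj] at e
      exact Qinj e
  have B4 : ∀ (s : F) a b, g2 a (s • b) = s * g2 a b ∧ cr a (s • b) = s • cr a b := fun s a b => by
    by_cases hs : s = 0
    · simpa [hs] using B1 a 0 0
    obtain ⟨k, k1, k2, k3, k4, k5, -⟩ := O.tor1 h (inv_ne_zero hs)
    have e := congrArg (fun g => k * g * k⁻¹) (hB a b)
    simp only [cj k, ← conj_mul (b := k)] at e
    rw [k1, k5, Qc (b := 1) k2 (by simpa using k3) k4, hB, mul_right_inj, inv_inv] at e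
    obtain ⟨e1, e2, -⟩ := Qinj e
    rw [(B3 _ _ _).1] at e1
    rw [(B3 _ _ _).2.1, one_smul] at e2
    exact ⟨by field_simp at e1; linear_combination e1, by rw [← e2, smul_inv_smul₀ hs]⟩
  exact ⟨{
    toX1 := O
    N := N
    sh := sh
    M := M
    T := LinearMap.mk₂ F T T1 T3 T2 T4
    cr := LinearMap.mk₂ F cr B2 (fun s a b => (B3 s a b).2.1) (fun a b b' => (B1 a b b').2) fun s a b => (B4 s a b).2
    g2 := fun a => ⟨⟨g2 a, fun b b' => (B1 a b b').1⟩, fun s b => (B4 s a b).1⟩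
    g4 := g4
    rA := fun t a => by rw [rA, hQ]; group
    rB := fun a b => by rw [hB, hQ]; simp only [mul_assoc]; rfl
    rC := hC
    rD := rD
    N_smul := fun s a => (A0 s a).1
    sh_smul := fun s a => (A0 s a).2.1
    M_smul := fun s a => (A0 s a).2.2
    g2_smul := fun s a b => (B3 s a b).1
    g4_smul := fun s a b => (B3 s a b).2.2 }⟩

end CfsgLib.Mouf
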