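import Cfsg.Agent.Lib.Mouf.Defs

/-!
# Hexagons: definitions (project MOUF, see `plans/MOUF.md`)
-/

set_option autoImplicit false

namespace CfsgLib.Mouf
open scoped commutatorElement

variable {G : Type*} [Group G]

/-- `f` is an isomorphism from the additive group `A` onto `H` -/
structure Par {A : Type*} [AddCommGroup A] (f : A → G) (H : Subgroup G) : Prop where
  add : ∀ s t, f (s + t) = f s * f t
  inj : ∀ t, f t = 1 → t = 0
  mem_iff : ∀ g, g ∈ H ↔ ∃ t, f t = g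

namespace Par
variable {A : Type*} [AddCommGroup A] {f : A → G} {H : Subgroup G} (h : Par f H)
include h

theorem zero : f 0 = 1 := by
  have := h.add 0 0
  rw [add_zero] at this
  exact mul_eq_left.1 this.symm

theorem neg (t : A) : f (-t) = (f t)⁻¹ := eq_inv_of_mul_eq_one_left (by rw [← h.add, neg_add_cancel, h.zero])

theorem sub (s t : A) : f (s - t) = f s * (f t)⁻¹ := by rw [sub_eq_add_neg, h.add, h.neg]

theorem eq {s t : A} (e : f s = f t) : s = t := sub_eq_zero.1 (h.inj _ (by rw [h.sub, e, mul_inv_cancel]))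

theorem mem (t : A) : f t ∈ H := (h.mem_iff _).2 ⟨t, rfl⟩

theorem ex {g : G} (hg : g ∈ H) : ∃ t, g = f t := let ⟨t, e⟩ := (h.mem_iff g).1 hg; ⟨t, e.symm⟩

theorem comm (s t : A) : Commute (f s) (f t) := by rw [Commute, SemiconjBy, ← h.add, ← h.add, add_comm]

theorem ne {t : A} (ht : t ≠ 0) : f t ≠ 1 := fun e => ht (h.inj t e)

theorem card : Nat.card H = Nat.card A :=
  (Nat.card_congr (Equiv.ofBijective (fun t => (⟨f t, h.mem t⟩ : H))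
    ⟨fun _ _ e => h.eq (congrArg Subtype.val e), fun g => let ⟨t, e⟩ := h.ex g.2; ⟨t, Subtype.ext e.symm⟩⟩)).symm

/-- conjugation -/
theorem conj (g : G) {H' : Subgroup G} (e : ∀ x, x ∈ H ↔ g * x * g⁻¹ ∈ H') : Par (fun t => g * f t * g⁻¹) H' where
  add s t := by rw [h.add]; group
  inj t e := h.inj t (by simpa [mul_inv_eq_iff_eq_mul] using e)
  mem_iff x := by
    constructor
    · intro hx
      obtain ⟨t, ht⟩ := h.ex ((e (g⁻¹ * x * g)).2 (by simpa [mul_assoc] using hx))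
      exact ⟨t, by rw [← ht]; group⟩
    · rintro ⟨t, rfl⟩
      exact (e _).1 (h.mem t)

theorem comp_neg : Par (fun t => f (-t)) H where
  add s t := by rw [neg_add, h.add]
  inj t e := neg_eq_zero.1 (h.inj _ e)
  mem_iff g := (h.mem_iff g).trans ⟨fun ⟨t, e⟩ => ⟨-t, by rw [neg_neg, e]⟩, fun ⟨t, e⟩ => ⟨-t, e⟩⟩

end Par

/-- anisotropic cubic norm structures -/
structure CNS (F J : Type) [Field F] [AddCommGroup J] [Module F J] where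
  e : J
  N : J → F
  sh : J → J
  T : J →ₗ[F] J →ₗ[F] F
  cr : J →ₗ[F] J →ₗ[F] J
  sh_add : ∀ a b, sh (a + b) = sh a + sh b + cr a b
  sh_smul : ∀ (s : F) a, sh (s • a) = (s * s) • sh a
  N_add : ∀ a b, N (a + b) = N a + N b + T (sh a) b + T a (sh b)
  N_smul : ∀ (s : F) a, N (s • a) = s ^ 3 * N a
  N_ne : ∀ a, a ≠ 0 → N a ≠ 0
  N_e : N e = 1
  sh_e : sh e = e
  T_symm : ∀ a b, T a b = T b a
  T_sh : ∀ a, T a (sh a) = 3 * N a
  T_cr : ∀ a b c, T (cr a b) c = T b (cr a c)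
  shsh : ∀ a, sh (sh a) = N a • a
  N_sh : ∀ a, N (sh a) = N a * N a
  e_cr : ∀ b, cr e b = T e b • e - b
  sh_cr : ∀ a b, cr (sh a) (cr a b) = N a • b + T (sh a) b • a

namespace RD

/-- coordinates for a hexagon -/
structure X0 (R : RD 6 G) (F J : Type) [Field F] [AddCommGroup J] [Module F J] where
  x1 : J → G
  x3 : J → G
  x5 : J → G
  z2 : F → G
  z4 : F → G
  z6 : F → G
  p1 : Par x1 (R.U 1)
  p2 : Par z2 (R.U 2)
  p3 : Par x3 (R.U 3)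
  p4 : Par z4 (R.U 4)
  p5 : Par x5 (R.U 5)
  p6 : Par z6 (R.U 6)
  rE : ∀ s t, z6 s * z2 t * (z6 s)⁻¹ = z2 t * z4 (s * t)

/-- the reflections and the torus -/
structure X1 (R : RD 6 G) (F J : Type) [Field F] [AddCommGroup J] [Module F J] extends X0 R F J where
  n : G
  m : G
  e : J
  mun : R.Mu 6 0 (n * z6 1 * n⁻¹) (z6 1) (n * z6 1 * n⁻¹)
  n_eq : n = n * z6 1 * n⁻¹ * z6 1 * (n * z6 1 * n⁻¹)
  mum : ∃ p q, R.Mu 1 7 p (x1 (-e)) q ∧ m = p * x1 (-e) * q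
  nx1 : ∀ a, n * x1 a * n⁻¹ = x5 a
  nx5 : ∀ a, n * x5 a * n⁻¹ = x1 (-a)
  nz2 : ∀ t, n * z2 t * n⁻¹ = z4 t
  nz4 : ∀ t, n * z4 t * n⁻¹ = z2 (-t)
  mz6 : ∀ t, m * z6 t * m⁻¹ = z2 t
  mz2 : ∀ t, m * z2 t * m⁻¹ = z6 (-t)
  mx5 : ∀ a, m * x5 a * m⁻¹ = x3 (-a)
  zx : ∀ t a, ∃ c ∈ seg R.U 2 4, z6 t * x1 a * (z6 t)⁻¹ = x1 a * c * x5 (t • a)
  tor : ∀ s : F, s ≠ 0 → ∃ h, Act R.U h 0 1 ∧ (∀ a, h * x1 a * h⁻¹ = x1 (s • a)) ∧ Sc h z2 s ∧
    (∀ a, h * x3 a * h⁻¹ = x3 a) ∧ Sc h z4 s⁻¹ ∧ ∀ a, h * x5 a * h⁻¹ = x5 (s⁻¹ • a)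

/-- the structure functions -/
structure X2 (R : RD 6 G) (F J : Type) [Field F] [AddCommGroup J] [Module F J] extends X1 R F J where
  N : J → F
  sh : J → J
  M : J → F
  T : J →ₗ[F] J →ₗ[F] F
  cr : J →ₗ[F] J →ₗ[F] J
  g2 : J → J →ₗ[F] F
  g4 : J → J → F
  rA : ∀ t a, z6 t * x1 a * (z6 t)⁻¹ = x1 a * z2 (t * N a) * x3 (t • sh a) * z4 (t * t * M a) * x5 (t • a)
  rB : ∀ a b, x5 b * x1 a * (x5 b)⁻¹ = x1 a * z2 (g2 a b) * x3 (cr a b) * z4 (g4 a b)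
  rC : ∀ a b, x3 b * x1 a * (x3 b)⁻¹ = x1 a * z2 (T a b)
  rD : ∀ a b, x5 b * x3 a * (x5 b)⁻¹ = x3 a * z4 (-T b a)
  N_smul : ∀ (s : F) a, N (s • a) = s ^ 3 * N a
  sh_smul : ∀ (s : F) a, sh (s • a) = (s * s) • sh a
  M_smul : ∀ (s : F) a, M (s • a) = s ^ 3 * M a
  g2_smul : ∀ (s : F) a b, g2 (s • a) b = s * s * g2 a b
  g4_smul : ∀ (s : F) a b, g4 (s • a) b = s * g4 a b

/-- the commutator relations of the hexagon of a cubic norm structure -/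
structure X3 (R : RD 6 G) {F J : Type} [Field F] [AddCommGroup J] [Module F J] (A : CNS F J) extends X0 R F J where
  rA : ∀ t a, z6 t * x1 a * (z6 t)⁻¹ =
    x1 a * z2 (t * A.N a) * x3 (t • A.sh a) * z4 (-(t * t * A.N a)) * x5 (t • a)
  rB : ∀ a b, x5 b * x1 a * (x5 b)⁻¹ = x1 a * z2 (A.T (A.sh a) b) * x3 (A.cr a b) * z4 (-A.T a (A.sh b))
  rC : ∀ a b, x3 b * x1 a * (x3 b)⁻¹ = x1 a * z2 (A.T a b)
  rD : ∀ a b, x5 b * x3 a * (x5 b)⁻¹ = x3 a * z4 (-A.T a b)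

end RD

end CfsgLib.Mouf
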