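import Cfsg.Agent.Lib.Mouf.HS

/-!
# Package HE: identities for a hexagon, part 1 (see `plans/MOUF.md`)
-/

set_option autoImplicit false
set_option linter.unusedSectionVars false

namespace CfsgLib.Mouf
open scoped commutatorElement

namespace RD.X2
variable {G : Type*} [Group G] {R : RD 6 G} {F J : Type} [Field F] [AddCommGroup J] [Module F J] (O : R.X2 F J)
  (h : R.Hex)

theorem N_zero : O.N 0 = 0 := by simpa using O.N_smul 0 0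

theorem sh_zero : O.sh 0 = 0 := by simpa using O.sh_smul 0 0

theorem M_zero : O.M 0 = 0 := by simpa using O.M_smul 0 0

theorem N_neg (a : J) : O.N (-a) = -O.N a := by
  have := O.N_smul (-1) a
  rw [neg_one_smul] at this
  rw [this]; ring

theorem M_neg (a : J) : O.M (-a) = -O.M a := by
  have := O.M_smul (-1) a
  rw [neg_one_smul] at this
  rw [this]; ring

theorem sh_neg (a : J) : O.sh (-a) = O.sh a := by simpa using O.sh_smul (-1) a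

theorem g2_neg (a b : J) : O.g2 (-a) b = O.g2 a b := by simpa using O.g2_smul (-1) a b

theorem g4_neg (a b : J) : O.g4 (-a) b = -O.g4 a b := by simpa using O.g4_smul (-1) a b

include h

theorem rA' (t : F) (a : J) : O.x1 (-a) * O.z6 t * (O.x1 (-a))⁻¹ =
    O.z2 (t * O.N a) * O.x3 (t • O.sh a) * O.z4 (t * t * O.M a) * O.x5 (t • a) * O.z6 t := by
  have := O.rA t a
  rw [O.p1.neg, inv_inv]
  calc _ = (O.x1 a)⁻¹ * (O.z6 t * O.x1 a * (O.z6 t)⁻¹) * O.z6 t := by group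
    _ = _ := by rw [this]; group

theorem rB' (a b : J) : O.x1 (-a) * O.x5 b * (O.x1 (-a))⁻¹ =
    O.z2 (O.g2 a b) * O.x3 (O.cr a b) * O.z4 (O.g4 a b) * O.x5 b := by
  have := O.rB a b
  rw [O.p1.neg, inv_inv]
  calc _ = (O.x1 a)⁻¹ * (O.x5 b * O.x1 a * (O.x5 b)⁻¹) * O.x5 b := by group
    _ = _ := by rw [this]; group

theorem swap53 (a b : J) : O.x5 b * O.x3 a = O.x3 a * O.z4 (-O.T b a) * O.x5 b := by
  rw [← O.rD]; group

theorem swap31 (a b : J) : O.x3 b * O.x1 a = O.x1 a * O.z2 (O.T a b) * O.x3 b := by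
  rw [← O.rC]; group

theorem swap51 (a b : J) :
    O.x5 b * O.x1 a = O.x1 a * O.z2 (O.g2 a b) * O.x3 (O.cr a b) * O.z4 (O.g4 a b) * O.x5 b := by
  rw [← O.rB]; group

/-- `z 2` and `z 4` are central in `U₁ ⋯ U₅` -/
theorem cen {g : G} (hg : g ∈ seg R.U 1 5) (t : F) : Commute (O.z2 t) g ∧ Commute (O.z4 t) g :=
  ⟨seg_commute (fun _ h1 h2 _ hu => O.z2_comm h t hu (by omega)) hg,
    seg_commute (fun _ h1 h2 _ hu => O.z4_comm h t hu (by omega)) hg⟩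

/-- multiplication of normal forms -/
theorem mul15 (a₁ a₃ a₅ b₁ b₃ b₅ : J) (a₂ a₄ b₂ b₄ : F) :
    O.x1 a₁ * O.z2 a₂ * O.x3 a₃ * O.z4 a₄ * O.x5 a₅ * (O.x1 b₁ * O.z2 b₂ * O.x3 b₃ * O.z4 b₄ * O.x5 b₅) =
      O.x1 (a₁ + b₁) * O.z2 (a₂ + b₂ + O.T b₁ a₃ + O.g2 b₁ a₅) * O.x3 (a₃ + b₃ + O.cr b₁ a₅) *
        O.z4 (a₄ + b₄ + O.g4 b₁ a₅ - O.T a₅ b₃) * O.x5 (a₅ + b₅) := by
  have m1 : ∀ a, O.x1 a ∈ seg R.U 1 5 := fun a => mem_seg (O.p1.mem a) (by omega) (by omega)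
  have m2 : ∀ a, O.z2 a ∈ seg R.U 1 5 := fun a => mem_seg (O.p2.mem a) (by omega) (by omega)
  have m3 : ∀ a, O.x3 a ∈ seg R.U 1 5 := fun a => mem_seg (O.p3.mem a) (by omega) (by omega)
  have m5 : ∀ a, O.x5 a ∈ seg R.U 1 5 := fun a => mem_seg (O.p5.mem a) (by omega) (by omega)
  have r2 : ∀ {g}, g ∈ seg R.U 1 5 → ∀ t (w : G), g * (O.z2 t * w) = O.z2 t * (g * w) := fun hg t w =>
    (O.cen h hg t).1.symm.left_comm w
  have r4 : ∀ {g}, g ∈ seg R.U 1 5 → ∀ t (w : G), g * (O.z4 t * w) = O.z4 t * (g * w) := fun hg t w =>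
    (O.cen h hg t).2.symm.left_comm w
  have s51 : ∀ w : G, O.x5 a₅ * (O.x1 b₁ * w) =
      O.x1 b₁ * (O.z2 (O.g2 b₁ a₅) * (O.x3 (O.cr b₁ a₅) * (O.z4 (O.g4 b₁ a₅) * (O.x5 a₅ * w)))) := fun w => by
    rw [← mul_assoc, O.swap51 h]; group
  have s31 : ∀ w : G, O.x3 a₃ * (O.x1 b₁ * w) = O.x1 b₁ * (O.z2 (O.T b₁ a₃) * (O.x3 a₃ * w)) := fun w => by
    rw [← mul_assoc, O.swap31 h]; group
  have s53 : ∀ w : G, O.x5 a₅ * (O.x3 b₃ * w) = O.x3 b₃ * (O.z4 (-O.T a₅ b₃) * (O.x5 a₅ * w)) := fun w => by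
    rw [← mul_assoc, O.swap53 h]; group
  have c3 : ∀ w : G, O.x3 (O.cr b₁ a₅) * (O.x3 b₃ * w) = O.x3 b₃ * (O.x3 (O.cr b₁ a₅) * w) :=
    (O.p3.comm _ _).left_comm
  have a2 : ∀ s t (w : G), O.z2 s * (O.z2 t * w) = O.z2 (s + t) * w := fun s t w => by rw [O.p2.add, mul_assoc]
  have a4 : ∀ s t (w : G), O.z4 s * (O.z4 t * w) = O.z4 (s + t) * w := fun s t w => by rw [O.p4.add, mul_assoc]
  rw [O.p1.add, O.p3.add, O.p3.add, O.p5.add]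
  simp only [mul_assoc, s51]
  simp only [r2 (m1 _), r2 (m3 _), r2 (m5 _), r4 (m1 _), r4 (m3 _), r4 (m5 _), r4 (m2 _), s31, s53, c3, a2, a4]
  congr 2
  · ring
  · congr 1; ring

theorem expand (a b : J) : O.N (a + b) = O.N a + O.N b + O.T b (O.sh a) + O.g2 b a ∧
    O.sh (a + b) = O.sh a + O.sh b + O.cr b a ∧ O.M (a + b) = O.M a + O.M b + O.g4 b a - O.T a (O.sh b) := by
  have e := O.mul15 h a (O.sh a) a b (O.sh b) b (O.N a) (O.M a) (O.N b) (O.M b)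
  have r : ∀ a, O.x1 a * O.z2 (O.N a) * O.x3 (O.sh a) * O.z4 (O.M a) * O.x5 a = O.z6 1 * O.x1 a * (O.z6 1)⁻¹ :=
    fun a => by simp [O.rA]
  rw [r, r, show O.z6 1 * O.x1 a * (O.z6 1)⁻¹ * (O.z6 1 * O.x1 b * (O.z6 1)⁻¹) =
    O.z6 1 * (O.x1 a * O.x1 b) * (O.z6 1)⁻¹ by group, ← O.p1.add, ← r] at e
  obtain ⟨-, e2, e3, e4, -⟩ := O.nf15_inj e
  exact ⟨e2, e3, e4⟩

theorem cr_symm (a b : J) : O.cr a b = O.cr b a := by
  have e1 := (O.expand h a b).2.1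
  have e2 := (O.expand h b a).2.1
  rw [add_comm b a, e1, add_comm (O.sh b)] at e2
  exact (add_left_cancel e2).symm

theorem g2_add (a a' b : J) : O.g2 (a + a') b = O.g2 a b + O.g2 a' b + O.T a' (O.cr a b) := by
  have e := O.mul15 h a (O.cr a b) 0 a' (O.cr a' b) 0 (O.g2 a b) (O.g4 a b) (O.g2 a' b) (O.g4 a' b)
  have r : ∀ a, O.x1 a * O.z2 (O.g2 a b) * O.x3 (O.cr a b) * O.z4 (O.g4 a b) * O.x5 0 =
      O.x5 b * O.x1 a * (O.x5 b)⁻¹ := fun a => by rw [O.rB, O.p5.zero, mul_one]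
  rw [r, r, show O.x5 b * O.x1 a * (O.x5 b)⁻¹ * (O.x5 b * O.x1 a' * (O.x5 b)⁻¹) =
    O.x5 b * (O.x1 a * O.x1 a') * (O.x5 b)⁻¹ by group, ← O.p1.add, ← r] at e
  simpa using (O.nf15_inj e).2.1

theorem g4_zero (a : J) : O.g4 a 0 = 0 := by
  have e := O.rB a 0
  rw [O.p5.zero, map_zero, map_zero, O.p2.zero, O.p3.zero] at e
  exact O.p4.inj _ (by simpa using e.symm)

theorem g4_zero' (a : J) : O.g4 0 a = 0 := by simpa using O.g4_smul 0 0 a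

theorem g2_zero' (a : J) : O.g2 0 a = 0 := by simpa using O.g2_smul 0 0 a

theorem conj_n (a₁ a₃ : J) (a₂ a₄ : F) : O.n * (O.x1 a₁ * O.z2 a₂ * O.x3 a₃ * O.z4 a₄) * O.n⁻¹ =
    O.x1 0 * O.z2 (-a₄) * O.x3 a₃ * O.z4 (a₂ - O.T a₁ a₃) * O.x5 a₁ := by
  have e := O.mul15 h 0 0 a₁ 0 a₃ 0 0 0 (-a₄) a₂
  simp only [O.p1.zero, O.p2.zero, O.p3.zero, O.p4.zero, O.p5.zero, one_mul, mul_one, map_zero, zero_add, add_zero,
    O.g2_zero' h, O.g4_zero' h, LinearMap.zero_apply] at e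
  rw [O.p1.zero, one_mul, ← e]
  have c1 := (O.z2_comm h a₂ (O.p3.mem a₃) (by omega)).eq
  have c2 := (O.z2_comm h a₂ (O.p4.mem a₄) (by omega)).eq
  have c3 := (O.z4_comm h a₄ (O.p3.mem a₃) (by omega)).eq
  calc _ = O.n * (O.x1 a₁ * (O.z2 a₂ * O.x3 a₃ * O.z4 a₄)) * O.n⁻¹ := by group
    _ = O.n * (O.x1 a₁ * (O.z4 a₄ * O.x3 a₃ * O.z2 a₂)) * O.n⁻¹ := by
      rw [c1, mul_assoc (O.x3 a₃), c2, ← mul_assoc (O.x3 a₃), ← c3]
    _ = O.n * O.x1 a₁ * O.n⁻¹ * (O.n * O.z4 a₄ * O.n⁻¹ * (O.n * O.x3 a₃ * O.n⁻¹) * (O.n * O.z2 a₂ * O.n⁻¹)) := by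
      group
    _ = _ := by rw [O.nx1, O.nz4, O.nx3 h, O.nz2]

theorem g4_eq (a b : J) : O.g4 a b = -O.g2 b a := by
  have e := O.conj_n h a (O.cr a b) (O.g2 a b) (O.g4 a b)
  rw [← O.rB, show O.n * (O.x5 b * O.x1 a * (O.x5 b)⁻¹) * O.n⁻¹ =
    O.n * O.x5 b * O.n⁻¹ * (O.n * O.x1 a * O.n⁻¹) * (O.n * O.x5 b * O.n⁻¹)⁻¹ by group, O.nx1, O.nx5, O.rB' h,
    ← one_mul (O.z2 (O.g2 b a)), ← O.p1.zero] at e
  rw [(O.nf15_inj e).2.1, neg_neg]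

theorem he_self (a : J) : O.g2 a a = O.T a (O.sh a) ∧ O.cr a a = O.sh a + O.sh a ∧ O.g4 a a = -O.T a (O.sh a) := by
  obtain ⟨e1, e2, e3⟩ := O.expand h a (-a)
  simp only [add_neg_cancel, O.N_zero, O.sh_zero, O.M_zero, O.N_neg, O.M_neg, O.sh_neg, O.g2_neg, O.g4_neg, map_neg,
    LinearMap.neg_apply] at e1 e2 e3
  refine ⟨by linear_combination -e1, ?_, by linear_combination e3⟩
  rw [← sub_eq_add_neg, eq_comm, sub_eq_zero] at e2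
  exact e2.symm

theorem he_n (a : J) : O.g2 a a = O.N a - 2 * O.M a ∧ O.g4 a a = O.M a + O.N a - O.T a (O.sh a) := by
  obtain ⟨e0, he0⟩ : ∃ e0, e0 = O.n * O.z6 1 * O.n⁻¹ := ⟨_, rfl⟩
  have m0 : e0 ∈ R.U 0 := he0 ▸ O.mun.p_mem
  have c1 : ∀ a, e0 * O.x1 a * e0⁻¹ = O.x1 a := fun a => by
    rw [(h.comm (i := 0) (by decide) m0 (O.p1.mem a) (by omega)).eq, mul_inv_cancel_right]
  have c2 : ∀ a, e0 * O.z2 a * e0⁻¹ = O.z2 a := fun a => by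
    rw [(h.comm (i := 0) (by decide) m0 (O.p2.mem a) (by omega)).eq, mul_inv_cancel_right]
  have c3 : ∀ a, e0 * O.x3 a * e0⁻¹ = O.x3 a := fun a => by
    rw [(h.comm (i := 0) (by decide) m0 (O.p3.mem a) (by omega)).eq, mul_inv_cancel_right]
  have c4 : ∀ t, e0 * O.z4 t * e0⁻¹ = O.z2 (-t) * O.z4 t := fun t => by
    rw [← (O.z4_comm h t (O.p2.mem _) (by omega)).eq]
    calc _ = e0 * (O.n * O.z2 t * O.n⁻¹) * e0⁻¹ := by rw [O.nz2]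
      _ = O.n * (O.z6 1 * O.z2 t * (O.z6 1)⁻¹) * O.n⁻¹ := by rw [he0]; group
      _ = O.n * O.z2 t * O.n⁻¹ * (O.n * O.z4 t * O.n⁻¹) := by rw [O.rE, one_mul]; group
      _ = _ := by rw [O.nz2, O.nz4]
  have c5 : e0 * O.x5 a * e0⁻¹ =
      O.x1 0 * O.z2 (-O.M a) * O.x3 (O.sh a) * O.z4 (O.N a - O.T a (O.sh a)) * O.x5 a * O.x1 (-a) := by
    rw [← O.conj_n h, ← O.nx5]
    calc _ = e0 * (O.n * O.x1 a * O.n⁻¹) * e0⁻¹ := by rw [O.nx1]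
      _ = O.n * (O.z6 1 * O.x1 a * (O.z6 1)⁻¹) * O.n⁻¹ := by rw [he0]; group
      _ = _ := by simp only [O.rA, one_mul, one_smul]; group
  have e : O.x5 a = O.x1 a * O.z2 (O.N a) * O.x3 (O.sh a) * (O.z2 (-O.M a) * O.z4 (O.M a)) *
      (O.x1 0 * O.z2 (-O.M a) * O.x3 (O.sh a) * O.z4 (O.N a - O.T a (O.sh a)) * O.x5 a * O.x1 (-a)) := by
    have hn : O.n = e0 * O.z6 1 * e0 := he0 ▸ O.n_eq
    calc _ = e0 * (O.z6 1 * (e0 * O.x1 a * e0⁻¹) * (O.z6 1)⁻¹) * e0⁻¹ := by rw [← O.nx1, hn]; group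
      _ = e0 * O.x1 a * e0⁻¹ * (e0 * O.z2 (O.N a) * e0⁻¹) * (e0 * O.x3 (O.sh a) * e0⁻¹) *
          (e0 * O.z4 (O.M a) * e0⁻¹) * (e0 * O.x5 a * e0⁻¹) := by
        rw [c1]
        conv_lhs => simp only [O.rA, one_mul, one_smul]
        conv_rhs => rw [← c1 a]
        group
      _ = _ := by rw [c1, c2, c3, c4, c5]
  have e2 := O.mul15 h 0 (O.sh a) 0 0 (O.sh a) a (O.N a + -O.M a) (O.M a) (-O.M a) (O.N a - O.T a (O.sh a))
  have e3 := O.rB' h a a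
  rw [← one_mul (O.z2 (O.g2 a a)), ← O.p1.zero] at e3
  have e4 : O.x1 (-a) * O.x5 a * (O.x1 (-a))⁻¹ = O.x1 0 * O.z2 (O.N a + -O.M a) * O.x3 (O.sh a) * O.z4 (O.M a) *
      O.x5 0 * (O.x1 0 * O.z2 (-O.M a) * O.x3 (O.sh a) * O.z4 (O.N a - O.T a (O.sh a)) * O.x5 a) := by
    conv_lhs => rw [e]
    rw [O.p2.add, O.p1.neg, O.p5.zero, O.p1.zero, ← mul_assoc _ (O.z2 (-O.M a)), mul_assoc _ (O.x3 (O.sh a)),
      ← (O.z2_comm h (-O.M a) (O.p3.mem (O.sh a)) (by omega)).eq]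
    group
  rw [e3, e2] at e4
  obtain ⟨-, k2, -, k4, -⟩ := O.nf15_inj e4
  simp only [map_zero, LinearMap.zero_apply, O.g4_zero' h] at k2 k4
  exact ⟨by linear_combination k2, by linear_combination k4⟩

theorem M_eq (a : J) : O.M a = -O.N a := by
  linear_combination (O.he_self h a).2.2 - (O.he_n h a).2

theorem g2_self (a : J) : O.g2 a a = 3 * O.N a ∧ O.T a (O.sh a) = 3 * O.N a ∧ O.cr a a = O.sh a + O.sh a := by
  have e : O.g2 a a = 3 * O.N a := by linear_combination (O.he_n h a).1 - 2 * O.M_eq h a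
  exact ⟨e, (O.he_self h a).1.symm.trans e, (O.he_self h a).2.1⟩

theorem muN {a : J} {p q : G} (hm : R.Mu 1 7 p (O.x1 (-a)) q) : O.N a ≠ 0 ∧
    (∀ t, p * O.x1 (-a) * q * O.z6 t * (p * O.x1 (-a) * q)⁻¹ = O.z2 (t * O.N a)) ∧
    ∀ t, O.x1 (-a) * O.z6 t * (O.x1 (-a))⁻¹ = p⁻¹ * O.z2 (t * O.N a) * p := by
  obtain ⟨ν, n0, e6, -⟩ := O.mu17 h hm
  have e : ∀ t, O.x1 (-a) * O.z6 t * (O.x1 (-a))⁻¹ = p⁻¹ * O.z2 (t * ν) * p := fun t => by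
    rw [Mu.conj_eq p _ q _ (O.z6_comm h t hm.q_mem (by omega)).symm, e6]
  have e1 := e 1
  rw [O.rA' h] at e1
  have k : ν = O.N a := by
    have m : ⁅(O.z2 (1 * ν))⁻¹, p⁻¹⁆ ∈ seg R.U 3 6 :=
      (R.comm_mem (inv_mem (O.p2.mem _)) (inv_mem hm.p_mem) (by omega)).1
    have m' : O.x3 ((1 : F) • O.sh a) * O.z4 (1 * 1 * O.M a) * O.x5 ((1 : F) • a) * O.z6 1 ∈ seg R.U 3 6 :=
      mul_mem (mul_mem (mul_mem (mem_seg (O.p3.mem _) (by omega) (by omega)) (mem_seg (O.p4.mem _) (by omega)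
        (by omega))) (mem_seg (O.p5.mem _) (by omega) (by omega))) (mem_seg (O.p6.mem _) (by omega) (by omega))
    have := (R.left_inj (O.p2.mem (1 * ν)) (O.p2.mem (1 * O.N a)) m m' (by omega) (by
      rw [commutatorElement_def]
      calc _ = p⁻¹ * O.z2 (1 * ν) * p := by group
        _ = _ := by rw [← e1]; group)).1
    simpa using O.p2.eq this
  rw [← k]
  exact ⟨n0, e6, e⟩

theorem N_ne {a : J} (ha : a ≠ 0) : O.N a ≠ 0 := by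
  obtain ⟨p, q, hm⟩ := RD.exists_mu (j := 7) (O.p1.mem (-a)) (O.p1.ne (neg_ne_zero.2 ha)) (by omega)
  exact (O.muN h hm).1

theorem N_e : O.N O.e = 1 := by
  obtain ⟨p, q, hm, e⟩ := O.mum
  have := (O.muN h hm).2.1 1
  rw [← e, O.mz6, one_mul] at this
  exact (O.p2.eq this).symm

end RD.X2

end CfsgLib.Mouf
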