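import Cfsg.Agent.Lib.Mouf.HE

/-!
# Package HF: identities for a hexagon, part 2 (see `plans/MOUF.md`)
-/

set_option autoImplicit false

namespace CfsgLib.Mouf
open scoped commutatorElement

theorem Par.exists_equiv {G A B : Type*} [Group G] [AddCommGroup A] [AddCommGroup B] {f : A → G} {g : B → G}
    {H : Subgroup G} (hf : Par f H) (hg : Par g H) : ∃ ρ : A ≃+ B, ∀ a, f a = g (ρ a) := by
  choose ρ hρ using fun a => hg.ex (hf.mem a)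
  refine ⟨AddEquiv.ofBijective (AddMonoidHom.mk' ρ fun a b => hg.eq (by rw [← hρ, hf.add, hg.add, ← hρ, ← hρ]))
    ⟨fun a b e => hf.eq (by rw [hρ, hρ]; exact congrArg g e), fun b => ?_⟩, hρ⟩
  obtain ⟨a, ha⟩ := hf.ex (hg.mem b)
  exact ⟨a, hg.eq (by rw [ha]; exact (hρ a).symm)⟩

namespace RD.X2
variable {G : Type*} [Group G] {R : RD 6 G} {F J : Type} [Field F] [AddCommGroup J] [Module F J] (O : R.X2 F J)
  (h : R.Hex)

/-- coordinates for `U 7` -/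
def x7 (a : J) : G := O.m * O.x1 a * O.m⁻¹

theorem p7 : Par O.x7 (R.U 7) := O.p1.conj O.m fun x => by simpa using O.am 1 x

theorem exists_rho : ∃ ρ : J ≃+ J, ∀ a, O.m * O.x3 a * O.m⁻¹ = O.x5 (ρ a) :=
  (O.p3.conj O.m fun x => by simpa using O.am 3 x).exists_equiv O.p5

include h in
theorem nf36 (α γ : F) (β δ : J) :
    O.z6 α * O.x5 β * O.z4 γ * O.x3 δ = O.x3 δ * O.z4 (γ - O.T β δ) * O.x5 β * O.z6 α := by
  have c3 := (O.z6_comm h α (O.p3.mem δ) (by omega)).eq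
  have c5 := (O.z6_comm h α (O.p5.mem β) (by omega)).eq
  have c4 := (O.z6_comm h α (O.p4.mem (γ - O.T β δ)) (by omega)).eq
  have d3 := (O.z4_comm h γ (O.p3.mem δ) (by omega)).eq
  have d5 := (O.z4_comm h γ (O.p5.mem β) (by omega)).eq
  calc _ = O.z6 α * (O.x5 β * O.x3 δ * O.z4 γ) := by rw [mul_assoc, mul_assoc, d3]; group
    _ = O.z6 α * (O.x3 δ * O.z4 (γ - O.T β δ) * O.x5 β) := by
      rw [O.swap53 h, mul_assoc _ (O.x5 β), ← d5, sub_eq_neg_add, O.p4.add]; group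
    _ = _ := by rw [← mul_assoc, ← mul_assoc, c3, mul_assoc _ (O.z6 α), c4, ← mul_assoc, mul_assoc _ (O.z6 α), c5]; group

variable {ρ : J ≃+ J} (hρ : ∀ a, O.m * O.x3 a * O.m⁻¹ = O.x5 (ρ a))
include h hρ

theorem mA (c : J) (t : F) : ∃ γ, O.x7 (-c) * O.z2 t * (O.x7 (-c))⁻¹ =
    O.x1 0 * O.z2 t * O.x3 (-(t • c)) * O.z4 γ * O.x5 (ρ (t • O.sh c)) * O.z6 (-(t * O.N c)) := by
  have e : O.x7 (-c) * O.z2 t * (O.x7 (-c))⁻¹ =
      O.z6 (-(t * O.N c)) * O.x5 (ρ (t • O.sh c)) * O.z4 (t * t * O.M c) * O.x3 (-(t • c)) * O.z2 t := by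
    rw [← O.mz2, ← hρ, ← O.mz4 h, ← O.mx5, ← O.mz6 t]
    calc _ = O.m * (O.x1 (-c) * O.z6 t * (O.x1 (-c))⁻¹) * O.m⁻¹ := by rw [x7]; group
      _ = _ := by rw [O.rA' h]; group
  obtain ⟨γ, hγ⟩ : ∃ γ, γ = t * t * O.M c - O.T (ρ (t • O.sh c)) (-(t • c)) := ⟨_, rfl⟩
  refine ⟨γ + -(t * O.N c) * t, ?_⟩
  have c := (O.cen h (g := O.x3 (-(t • c)) * O.z4 γ * O.x5 (ρ (t • O.sh c))) (mul_mem (mul_mem
    (mem_seg (O.p3.mem _) (by omega) (by omega)) (mem_seg (O.p4.mem _) (by omega) (by omega)))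
    (mem_seg (O.p5.mem _) (by omega) (by omega))) t).1.eq
  rw [e, O.nf36 h, ← hγ, O.p1.zero, O.p4.add, mul_assoc _ (O.z6 _), ← mul_inv_eq_iff_eq_mul.1 (O.rE _ t) |>.symm,
    ← mul_assoc, ← mul_assoc, ← c, ← mul_assoc, mul_assoc _ (O.x5 _) (O.z4 _),
    ← (O.z4_comm h _ (O.p5.mem _) (by omega)).eq]
  group

theorem mB (c b : J) : ∃ γ, O.x7 (-c) * O.x3 (-b) * (O.x7 (-c))⁻¹ =
    O.x1 0 * O.z2 0 * O.x3 (-b) * O.z4 γ * O.x5 (ρ (O.cr c b)) * O.z6 (-O.g2 c b) := by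
  refine ⟨O.g4 c b - O.T (ρ (O.cr c b)) (-b), ?_⟩
  rw [O.p1.zero, O.p2.zero, one_mul, one_mul, ← O.nf36 h, ← O.mz2, ← hρ, ← O.mz4 h, ← O.mx5]
  calc _ = O.m * (O.x1 (-c) * O.x5 b * (O.x1 (-c))⁻¹) * O.m⁻¹ := by rw [x7]; group
    _ = _ := by rw [O.rB' h]; group

theorem mC (c b : J) : O.x7 c * O.x5 (ρ b) * (O.x7 c)⁻¹ = O.x5 (ρ b) * O.z6 (O.T c b) := by
  have e : O.x5 (ρ b) * O.x7 c * (O.x5 (ρ b))⁻¹ = O.x7 c * O.z6 (-O.T c b) := by
    rw [← O.mz2, ← hρ, x7]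
    calc _ = O.m * (O.x3 b * O.x1 c * (O.x3 b)⁻¹) * O.m⁻¹ := by group
      _ = _ := by rw [O.rC]; group
  have c5 := (O.z6_comm h (O.T c b) (O.p5.mem (ρ b)) (by omega)).eq
  have c7 := (O.z6_comm h (O.T c b) (O.p7.mem c) (by omega)).eq
  rw [O.p6.neg, mul_inv_eq_iff_eq_mul, mul_assoc, (O.z6_comm h (O.T c b) (O.p5.mem (ρ b)) (by omega)).inv_left.eq,
    ← mul_assoc, eq_mul_inv_iff_mul_eq] at e
  rw [← e, mul_assoc (O.x5 _), ← c7]
  group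

theorem mu_z6 {a : J} {p q : G} (hm : R.Mu 1 7 p (O.x1 (-a)) q) : p = O.x7 (-((O.N a)⁻¹ • O.sh a)) ∧
    O.N (O.sh a) = O.N a * O.N a ∧ ∀ t : F, ρ (t • (O.N a)⁻¹ • O.sh (O.sh a)) = t • a := by
  obtain ⟨n0, -, e⟩ := O.muN h hm
  obtain ⟨c, rfl⟩ := O.p7.ex hm.p_mem
  have k : ∀ t : F, t • O.sh a = -((t * O.N a) • c) ∧ t • a = ρ ((t * O.N a) • O.sh c) ∧
      t = -(t * O.N a * O.N c) := fun t => by
    obtain ⟨γ, hγ⟩ := O.mA h hρ c (t * O.N a)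
    have e1 := e t
    rw [O.rA' h, ← O.p7.neg, ← inv_inv (O.x7 c), ← O.p7.neg c, hγ] at e1
    obtain ⟨-, -, k3, -, k5, k6⟩ := O.nf16_inj (a₁ := 0) (Eq.trans (by rw [O.p1.zero, one_mul]) e1)
    exact ⟨k3, k5, k6⟩
  have hc : c = -((O.N a)⁻¹ • O.sh a) := by
    have := (k 1).1
    rw [one_smul, one_mul] at this
    rw [this, smul_neg, neg_neg, inv_smul_smul₀ n0]
  refine ⟨by rw [hc], ?_, fun t => ?_⟩
  · have := (k 1).2.2
    rw [hc, O.N_neg, O.N_smul] at this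
    field_simp at this
    linear_combination -this
  · rw [(k t).2.1, hc, O.sh_neg, O.sh_smul, smul_smul, smul_smul]
    congr 2
    field_simp

theorem mu_q {a : J} {p q : G} (hm : R.Mu 1 7 p (O.x1 (-a)) q) : q = O.x7 (-((O.N a)⁻¹ • O.sh a)) := by
  have := hm.inv
  rw [← O.p1.neg] at this
  have e := (O.mu_z6 h hρ this).1
  rw [O.N_neg, O.sh_neg, inv_neg, neg_smul, neg_neg] at e
  rw [O.p7.neg, ← e, inv_inv]

theorem mu_x5 {a : J} {p q : G} (hm : R.Mu 1 7 p (O.x1 (-a)) q) (b : J) :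
    O.g2 a b = O.T (O.sh a) (ρ.symm b) ∧
    p * O.x1 (-a) * q * O.x5 b * (p * O.x1 (-a) * q)⁻¹ = O.x3 (O.cr a b - (O.g2 a b / O.N a) • O.sh a) ∧
    b - (O.g2 a b / O.N a) • a = ρ ((O.N a)⁻¹ • O.cr (O.sh a) (O.cr a b - (O.g2 a b / O.N a) • O.sh a)) := by
  have n0 := (O.muN h hm).1
  obtain ⟨c, hc⟩ : ∃ c, c = -((O.N a)⁻¹ • O.sh a) := ⟨_, rfl⟩
  have hp : p = O.x7 c := hc ▸ (O.mu_z6 h hρ hm).1
  have hq : q = O.x7 c := hc ▸ O.mu_q h hρ hm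
  obtain ⟨w, hw⟩ := O.p3.ex (hm.act.conj (O.p5.mem b) (k := 3) (by norm_num))
  obtain ⟨τ, hτ⟩ : ∃ τ, τ = O.T c (ρ.symm b) := ⟨_, rfl⟩
  obtain ⟨γ, hγ⟩ := O.mB h hρ c (-w)
  have e1 := O.mC h hρ c (ρ.symm b)
  rw [ρ.apply_symm_apply, ← hτ] at e1
  have e2 := O.mul15 h 0 (O.cr a b) b 0 (τ • O.sh a) (τ • a) (O.g2 a b) (O.g4 a b) (τ * O.N a) (τ * τ * O.M a)
  have e3 : O.x7 (-c) * O.x3 w * (O.x7 (-c))⁻¹ = O.x1 0 * O.z2 (O.g2 a b) * O.x3 (O.cr a b) * O.z4 (O.g4 a b) *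
      O.x5 b * (O.x1 0 * O.z2 (τ * O.N a) * O.x3 (τ • O.sh a) * O.z4 (τ * τ * O.M a) * O.x5 (τ • a)) * O.z6 τ := by
    rw [O.p1.zero, one_mul, one_mul, mul_assoc _ _ (O.z6 τ), ← O.rA' h, ← O.rB' h, ← hw, hp, hq, O.p7.neg]
    calc _ = O.x1 (-a) * (O.x7 c * O.x5 b * (O.x7 c)⁻¹) * (O.x1 (-a))⁻¹ := by group
      _ = _ := by rw [e1]; group
  rw [neg_neg, e3, e2] at hγ
  obtain ⟨-, k2, k3, -, k5, -⟩ := O.nf16_inj hγ
  simp only [map_zero, LinearMap.zero_apply, add_zero, O.g2_zero' h] at k2 k3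
  have k : τ = -(O.g2 a b / O.N a) := by field_simp; linear_combination k2
  have hw' : w = O.cr a b - (O.g2 a b / O.N a) • O.sh a := by rw [← k3, k, neg_smul, sub_eq_add_neg]
  refine ⟨?_, by rw [hw, hw'], ?_⟩
  · rw [hτ, hc, map_neg, map_smul, LinearMap.neg_apply, LinearMap.smul_apply, smul_eq_mul] at k2
    field_simp at k2
    linear_combination k2
  · rw [← hw', sub_eq_add_neg, ← neg_smul, ← k, k5, hc]
    simp

theorem rho_eq (b : J) : O.sh O.e = O.e ∧ O.cr O.e b = O.g2 O.e b • O.e - b ∧ ρ b = b := by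
  obtain ⟨p, q, hm, e⟩ := O.mum
  have k : ∀ b, -b = O.cr O.e b - O.g2 O.e b • O.sh O.e := fun b => by
    have := (O.mu_x5 h hρ hm b).2.1
    rw [← e, O.mx5, O.N_e h, div_one] at this
    exact O.p3.eq this
  have k1 : O.sh O.e = O.e := by
    have := k O.e
    rw [(O.g2_self h _).1, (O.g2_self h _).2.2, O.N_e h, mul_one, show (3 : F) = 1 + 1 + 1 by norm_num, add_smul,
      add_smul, one_smul] at this
    exact neg_injective (by rw [this]; abel)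
  have k2 : ∀ b, O.cr O.e b = O.g2 O.e b • O.e - b := fun b => by
    have := k b
    rw [k1, eq_sub_iff_add_eq] at this
    rw [← this]; abel
  refine ⟨k1, k2 b, ?_⟩
  have k3 := (O.mu_x5 h hρ hm b).2.2
  have k4 := (O.mu_z6 h hρ hm).2.2 (O.g2 O.e b)
  rw [O.N_e h, inv_one, one_smul, k1, k1] at k4
  rw [O.N_e h, div_one, inv_one, one_smul, ← k, k1, map_neg, k2, neg_sub, map_sub, k4] at k3
  exact (sub_left_injective k3).symm

omit hρ in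
theorem T_symm (a b : J) : O.T a b = O.T b a := by
  obtain ⟨ρ, hρ⟩ := O.exists_rho
  have e : O.x3 (-b) * O.x5 a * (O.x3 (-b))⁻¹ = O.x5 a * O.z4 (-O.T b a) := by
    rw [← O.mx5, ← O.mz4 h, ← (O.rho_eq h hρ a).2.2, ← hρ, (O.rho_eq h hρ a).2.2]
    calc _ = O.m * (O.x5 b * O.x3 a * (O.x5 b)⁻¹) * O.m⁻¹ := by group
      _ = _ := by rw [O.rD]; group
  have e2 := O.swap53 h (-b) a
  rw [mul_inv_eq_iff_eq_mul, mul_assoc, (O.z4_comm h _ (O.p3.mem _) (by omega)).eq, ← mul_assoc, e2,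
    mul_assoc _ (O.x5 a), ← (O.z4_comm h _ (O.p5.mem _) (by omega)).eq, ← mul_assoc, mul_assoc (O.x3 _), ← O.p4.add,
    mul_left_inj, eq_comm, mul_eq_left] at e
  have := O.p4.inj _ e
  rw [map_neg] at this
  linear_combination this

omit hρ in
include O in
theorem exists_X3 : ∃ A : CNS F J, Nonempty (R.X3 A) := by
  obtain ⟨ρ, hρ⟩ := O.exists_rho
  have r : ∀ b, ρ b = b := fun b => (O.rho_eq h hρ b).2.2
  have r' : ∀ b, ρ.symm b = b := fun b => by rw [ρ.symm_apply_eq, r]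
  have mu : ∀ a, a ≠ 0 → ∃ p q, R.Mu 1 7 p (O.x1 (-a)) q := fun a ha =>
    RD.exists_mu (O.p1.mem (-a)) (O.p1.ne (neg_ne_zero.2 ha)) (by omega)
  have g : ∀ a b, O.g2 a b = O.T (O.sh a) b := fun a b => by
    by_cases ha : a = 0
    · simp [ha, O.g2_zero' h, O.sh_zero]
    · obtain ⟨p, q, hm⟩ := mu a ha
      rw [(O.mu_x5 h hρ hm b).1, r']
  have ss : ∀ a, O.sh (O.sh a) = O.N a • a := fun a => by
    by_cases ha : a = 0
    · simp [ha, O.sh_zero]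
    · obtain ⟨p, q, hm⟩ := mu a ha
      have := (O.mu_z6 h hρ hm).2.2 (O.N a)
      rwa [r, smul_inv_smul₀ (O.N_ne h ha)] at this
  refine ⟨⟨O.e, O.N, O.sh, O.T, O.cr, fun a b => by rw [(O.expand h a b).2.1, O.cr_symm h], O.sh_smul,
    fun a b => by rw [(O.expand h a b).1, g, O.T_symm h b, O.T_symm h (O.sh b)], O.N_smul, fun _ => O.N_ne h,
    O.N_e h, (O.rho_eq h hρ 0).1, O.T_symm h, fun a => (O.g2_self h a).2.1, fun a b c => ?_, ss, fun a => ?_,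
    fun b => by rw [(O.rho_eq h hρ b).2.1, g, (O.rho_eq h hρ 0).1], fun a b => ?_⟩,
    ⟨{ O.toX0 with
      rA := fun t a => by rw [O.rA, O.M_eq h, mul_neg]
      rB := fun a b => by rw [O.rB, O.g4_eq h, g, g, O.T_symm h (O.sh b)]
      rC := O.rC
      rD := fun a b => by rw [O.rD, O.T_symm h] }⟩⟩
  · have := O.g2_add h a b c
    rw [g, g, g, (O.expand h a b).2.1, map_add, map_add, LinearMap.add_apply, LinearMap.add_apply, O.cr_symm h] at this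
    exact add_left_cancel this
  · by_cases ha : a = 0
    · simp [ha, O.sh_zero, O.N_zero]
    · obtain ⟨p, q, hm⟩ := mu a ha
      exact (O.mu_z6 h hρ hm).2.1
  · by_cases ha : a = 0
    · simp [ha, O.sh_zero, O.N_zero]
    · obtain ⟨p, q, hm⟩ := mu a ha
      have n0 := O.N_ne h ha
      have := (O.mu_x5 h hρ hm b).2.2
      rw [r, eq_inv_smul_iff₀ n0, map_sub, map_smul, (O.g2_self h _).2.2, ss, g, eq_sub_iff_add_eq] at this
      rw [← this, smul_sub, smul_add, smul_smul, smul_smul, mul_div_cancel₀ _ n0, div_mul_cancel₀ _ n0]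
      abel

end RD.X2

end CfsgLib.Mouf
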