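import Cfsg.Agent.Lib.Mouf.HA
import Cfsg.Agent.Lib.Mouf.HDefs

/-!
# Package HS: calculus for the hexagon coordinates (see `plans/MOUF.md`)
-/

set_option autoImplicit false
set_option Elab.async false

namespace CfsgLib.Mouf
open scoped commutatorElement

namespace RD.X0
variable {G : Type*} [Group G] {R : RD 6 G} {F J : Type} [Field F] [AddCommGroup J] [Module F J] (O : R.X0 F J)
  (h : R.Hex) {g p q u : G}

theorem nf24 (hg : g ∈ seg R.U 2 4) : ∃ α β γ, g = O.z2 α * O.x3 β * O.z4 γ := by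
  obtain ⟨a, ha, y, hy, rfl⟩ := R.left (k := 3) hg (by omega)
  obtain ⟨b, hb, c, hc, rfl⟩ := R.left (k := 4) hy (by omega)
  obtain ⟨α, rfl⟩ := O.p2.ex ha
  obtain ⟨β, rfl⟩ := O.p3.ex hb
  obtain ⟨γ, rfl⟩ := O.p4.ex (seg_self hc rfl rfl)
  exact ⟨α, β, γ, (mul_assoc _ _ _).symm⟩

theorem nf24_inj {α γ α' γ' : F} {β β' : J} (e : O.z2 α * O.x3 β * O.z4 γ = O.z2 α' * O.x3 β' * O.z4 γ') :
    α = α' ∧ β = β' ∧ γ = γ' := by
  have A : ∀ a b, O.z2 a * O.x3 b ∈ seg R.U 2 3 := fun a b =>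
    mul_mem (mem_seg (O.p2.mem a) (by omega) (by omega)) (mem_seg (O.p3.mem b) (by omega) (by omega))
  obtain ⟨e1, e2⟩ := R.right_inj (O.p4.mem _) (O.p4.mem _) (A _ _) (A _ _) (by omega) e
  obtain ⟨e3, e4⟩ := R.right_inj (k := 2) (l := 2) (O.p3.mem _) (O.p3.mem _)
    (mem_seg (O.p2.mem _) le_rfl le_rfl) (mem_seg (O.p2.mem _) le_rfl le_rfl) (by omega) e1
  exact ⟨O.p2.eq e3, O.p3.eq e4, O.p4.eq e2⟩

theorem nf16_inj {a₁ a₃ a₅ b₁ b₃ b₅ : J} {a₂ a₄ a₆ b₂ b₄ b₆ : F}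
    (e : O.x1 a₁ * O.z2 a₂ * O.x3 a₃ * O.z4 a₄ * O.x5 a₅ * O.z6 a₆ =
      O.x1 b₁ * O.z2 b₂ * O.x3 b₃ * O.z4 b₄ * O.x5 b₅ * O.z6 b₆) :
    a₁ = b₁ ∧ a₂ = b₂ ∧ a₃ = b₃ ∧ a₄ = b₄ ∧ a₅ = b₅ ∧ a₆ = b₆ := by
  have A : ∀ a b c d, O.z2 a * O.x3 b * O.z4 c * O.x5 d ∈ seg R.U 2 5 := fun a b c d =>
    mul_mem (mul_mem (mul_mem (mem_seg (O.p2.mem a) (by omega) (by omega))
      (mem_seg (O.p3.mem b) (by omega) (by omega))) (mem_seg (O.p4.mem c) (by omega) (by omega)))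
      (mem_seg (O.p5.mem d) (by omega) (by omega))
  have B : ∀ a b c, O.z2 a * O.x3 b * O.z4 c ∈ seg R.U 2 4 := fun a b c =>
    mul_mem (mul_mem (mem_seg (O.p2.mem a) (by omega) (by omega))
      (mem_seg (O.p3.mem b) (by omega) (by omega))) (mem_seg (O.p4.mem c) (by omega) (by omega))
  have C : ∀ a b c d t, O.z2 a * O.x3 b * O.z4 c * O.x5 d * O.z6 t ∈ seg R.U 2 6 := fun a b c d t =>
    mul_mem (seg_mono (A a b c d) le_rfl (by omega)) (mem_seg (O.p6.mem t) (by omega) (by omega))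
  obtain ⟨e1, e2⟩ := R.left_inj (O.p1.mem a₁) (O.p1.mem b₁) (C a₂ a₃ a₄ a₅ a₆) (C b₂ b₃ b₄ b₅ b₆)
    (by omega) (by simpa only [mul_assoc] using e)
  obtain ⟨e3, e4⟩ := R.right_inj (O.p6.mem _) (O.p6.mem _) (A _ _ _ _) (A _ _ _ _) (by omega) e2
  obtain ⟨e5, e6⟩ := R.right_inj (O.p5.mem _) (O.p5.mem _) (B _ _ _) (B _ _ _) (by omega) e3
  obtain ⟨e7, e8, e9⟩ := O.nf24_inj e5
  exact ⟨O.p1.eq e1, e7, e8, e9, O.p5.eq e6, O.p6.eq e4⟩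

theorem nf15_inj {a₁ a₃ a₅ b₁ b₃ b₅ : J} {a₂ a₄ b₂ b₄ : F}
    (e : O.x1 a₁ * O.z2 a₂ * O.x3 a₃ * O.z4 a₄ * O.x5 a₅ = O.x1 b₁ * O.z2 b₂ * O.x3 b₃ * O.z4 b₄ * O.x5 b₅) :
    a₁ = b₁ ∧ a₂ = b₂ ∧ a₃ = b₃ ∧ a₄ = b₄ ∧ a₅ = b₅ := by
  obtain ⟨e1, e2, e3, e4, e5, -⟩ := O.nf16_inj (congrArg (· * O.z6 0) e)
  exact ⟨e1, e2, e3, e4, e5⟩

include h

theorem z2_comm (t : F) {j : ℤ} (hu : u ∈ R.U j) (e : -1 ≤ j ∧ j ≤ 5) : Commute (O.z2 t) u := by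
  exact h.comm (by decide) (O.p2.mem t) hu (by omega)

theorem z4_comm (t : F) {j : ℤ} (hu : u ∈ R.U j) (e : 1 ≤ j ∧ j ≤ 7) : Commute (O.z4 t) u := by
  exact h.comm (by decide) (O.p4.mem t) hu (by omega)

theorem z6_comm (t : F) {j : ℤ} (hu : u ∈ R.U j) (e : 3 ≤ j ∧ j ≤ 9) : Commute (O.z6 t) u := by
  exact h.comm (by decide) (O.p6.mem t) hu (by omega)

theorem rE' (s t : F) : O.z2 t * O.z6 s * (O.z2 t)⁻¹ = O.z6 s * O.z4 (-(s * t)) := by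
  have h1 := O.rE s t
  have h2 := (O.z4_comm h (s * t) (O.p6.mem s) (by omega)).eq
  have h3 := (O.z4_comm h (s * t) (O.p2.mem t) (by omega)).eq
  rw [O.p4.neg]
  generalize O.z2 t = a at *
  generalize O.z6 s = b at *
  generalize O.z4 (s * t) = c at *
  calc a * b * a⁻¹ = a * (b * c) * c⁻¹ * a⁻¹ := by group
    _ = a * c * b * (a * c)⁻¹ := by rw [← h2]; group
    _ = b * a * (c * a)⁻¹ := by (conv_lhs => rw [← h1]); rw [h3, ← h1]; group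
    _ = _ := by group

/-- the action of `μ(u)`, `u` in `U 1` -/
theorem mu17 (hm : R.Mu 1 7 p u q) : ∃ ν : F, ν ≠ 0 ∧ (∀ t, p * u * q * O.z6 t * (p * u * q)⁻¹ = O.z2 (t * ν)) ∧
    (∀ t, p * u * q * O.z2 t * (p * u * q)⁻¹ = O.z6 (-(t / ν))) ∧ ∀ t, p * u * q * O.z4 t * (p * u * q)⁻¹ = O.z4 t := by
  have h4 : ∀ t, p * u * q * O.z4 t * (p * u * q)⁻¹ = O.z4 t := fun t => by
    rw [← (((O.z4_comm h t hm.p_mem (by omega)).mul_right (O.z4_comm h t hm.u_mem (by omega))).mul_right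
      (O.z4_comm h t hm.q_mem (by omega))).eq, mul_inv_cancel_right]
  choose f hf using fun s => O.p2.ex (hm.act.conj (k := 2) (O.p6.mem s) (by omega))
  choose f' hf' using fun s => O.p6.ex (hm.act.conj (k := 6) (O.p2.mem s) (by omega))
  generalize p * u * q = m at *
  have key : ∀ s t, -(f' t * f s) = s * t := fun s t => by
    have h1 := O.rE' h (f' t) (f s)
    rw [← hf, ← hf'] at h1
    refine O.p4.eq (mul_left_cancel (h1.symm.trans ?_))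
    rw [← h4 (s * t)]
    calc _ = m * (O.z6 s * O.z2 t * (O.z6 s)⁻¹) * m⁻¹ := by group
      _ = _ := by rw [O.rE]; group
  have h0 : f 1 ≠ 0 := fun e => by simpa [e] using key 1 1
  refine ⟨f 1, h0, fun t => ?_, fun t => ?_, h4⟩
  · rw [hf]
    congr 1
    linear_combination f 1 * key t 1 - f t * key 1 1
  · rw [hf']
    congr 1
    field_simp
    linear_combination -key 1 t

theorem sc6 {k : G} {a b : F} (hk : Act R.U k 0 1) (h2 : Sc k O.z2 a) (h4 : Sc k O.z4 b) (a0 : a ≠ 0) :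
    Sc k O.z6 (b / a) := by
  intro s
  obtain ⟨s', e⟩ := O.p6.ex (hk.conj (k := 6) (O.p6.mem s) (by omega))
  have h1 := O.rE s' (a * 1)
  rw [← e, ← h2] at h1
  have h3 : s' * (a * 1) = b * (s * 1) := by
    refine O.p4.eq (mul_left_cancel (h1.symm.trans ?_))
    rw [← h4]
    calc _ = k * (O.z6 s * O.z2 1 * (O.z6 s)⁻¹) * k⁻¹ := by group
      _ = _ := by rw [O.rE]; group
  rw [e]
  congr 1
  field_simp
  linear_combination h3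

end RD.X0

namespace RD.X1
variable {G : Type*} [Group G] {R : RD 6 G} {F J : Type} [Field F] [AddCommGroup J] [Module F J] (O : R.X1 F J)
  (h : R.Hex)

theorem an : Act R.U O.n 6 (-1) := by
  have := O.mun.act' (c := 6) (by norm_num)
  rwa [← O.n_eq] at this

theorem am : Act R.U O.m 8 (-1) := by
  obtain ⟨p, q, hm, e⟩ := O.mum
  rw [e]
  exact hm.act' (by norm_num)

theorem e_ne : O.e ≠ 0 := by
  obtain ⟨p, q, hm, -⟩ := O.mum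
  exact fun e => hm.ne (by rw [e, neg_zero, O.p1.zero])

include h

theorem nx3 (a : J) : O.n * O.x3 a * O.n⁻¹ = O.x3 a := by
  have h1 := h.comm (by decide) O.mun.p_mem (O.p3.mem a) (by omega)
  have h2 := (h1.mul_left (O.toX0.z6_comm h 1 (O.p3.mem a) (by omega))).mul_left h1
  rw [← O.n_eq] at h2
  rw [h2.eq, mul_inv_cancel_right]

theorem mz4 (t : F) : O.m * O.z4 t * O.m⁻¹ = O.z4 t := by
  obtain ⟨p, q, hm, e⟩ := O.mum
  obtain ⟨-, -, -, -, h1⟩ := O.toX0.mu17 h hm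
  rw [e, h1]

/-- the first torus -/
theorem tor1 {s : F} (hs : s ≠ 0) : ∃ k : G, (∀ a, k * O.x1 a * k⁻¹ = O.x1 (s • a)) ∧ Sc k O.z2 s ∧
    (∀ a, k * O.x3 a * k⁻¹ = O.x3 a) ∧ Sc k O.z4 s⁻¹ ∧ (∀ a, k * O.x5 a * k⁻¹ = O.x5 (s⁻¹ • a)) ∧
    Sc k O.z6 (s⁻¹ * s⁻¹) := by
  obtain ⟨k, h0, h1, h2, h3, h4, h5⟩ := O.tor s hs
  exact ⟨k, h1, h2, h3, h4, h5, div_eq_mul_inv s⁻¹ s ▸ O.toX0.sc6 h h0 h2 h4 hs⟩

/-- the second torus -/
theorem tor2 {s : F} (hs : s ≠ 0) : ∃ k : G, (∀ a, k * O.x1 a * k⁻¹ = O.x1 (s • a)) ∧ Sc k O.z2 (s * s) ∧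
    (∀ a, k * O.x3 a * k⁻¹ = O.x3 (s • a)) ∧ Sc k O.z4 s ∧ (∀ a, k * O.x5 a * k⁻¹ = O.x5 a) ∧ Sc k O.z6 s⁻¹ := by
  obtain ⟨k, h0, -, h2, h3, h4, h5⟩ := O.tor s⁻¹ (inv_ne_zero hs)
  have h6 := O.toX0.sc6 h h0 h2 h4 (inv_ne_zero hs)
  rw [inv_inv] at h4 h5
  rw [inv_inv, div_inv_eq_mul] at h6
  have A : ∀ x y : G, k * x * k⁻¹ = y → O.m * k * O.m⁻¹ * (O.m * x * O.m⁻¹) * (O.m * k * O.m⁻¹)⁻¹ =
      O.m * y * O.m⁻¹ := fun x y e => by rw [← e]; group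
  have k0 : Act R.U (O.m * k * O.m⁻¹) 0 1 :=
    (O.am.mul h0 (d := 8) (δ := -1) (by norm_num)).mul (O.am.inv (c' := 8) (by norm_num)) (by norm_num)
  have k5 : ∀ a, O.m * k * O.m⁻¹ * O.x5 a * (O.m * k * O.m⁻¹)⁻¹ = O.x5 a := fun a => by
    obtain ⟨b, e⟩ := O.p3.ex (O.am.conj_inv (j := 3) (O.p5.mem a) (by norm_num))
    have := A _ _ (h3 b)
    rwa [← e, show O.m * (O.m⁻¹ * O.x5 a * O.m) * O.m⁻¹ = O.x5 a by group] at this
  have k6 : Sc (O.m * k * O.m⁻¹) O.z6 s⁻¹ := fun t => by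
    have := A _ _ (h2 (-t))
    rwa [O.mz2, O.mz2, neg_neg, mul_neg, neg_neg] at this
  refine ⟨O.m * k * O.m⁻¹, fun a => ?_, fun t => ?_, fun a => ?_, fun t => ?_, k5, k6⟩
  · obtain ⟨b, e⟩ := O.p1.ex (k0.conj (k := 1) (O.p1.mem a) (by norm_num))
    obtain ⟨c, hc, e1⟩ := O.zx 1 a
    obtain ⟨c', hc', e2⟩ := O.zx (s⁻¹ * 1) b
    have e3 := k0.seg (i' := 2) (j' := 4) hc (by norm_num)
    have e5 := k5 ((1 : F) • a)
    rw [← k6] at e2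
    generalize O.m * k * O.m⁻¹ = g at *
    have e4 : O.x1 b * (g * c * g⁻¹ * O.x5 ((1 : F) • a)) = O.x1 b * (c' * O.x5 ((s⁻¹ * 1) • b)) := by
      rw [← mul_assoc _ c', ← e2, ← e5, ← e]
      calc _ = g * (O.x1 a * c * O.x5 ((1 : F) • a)) * g⁻¹ := by group
        _ = _ := by rw [← e1]; group
    have e6 := O.p5.eq (R.right_inj (O.p5.mem _) (O.p5.mem _) e3 hc' (by omega) (mul_left_cancel e4)).2
    rw [one_smul, mul_one] at e6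
    rw [e, e6, smul_inv_smul₀ hs]
  · have := A _ _ (h6 t)
    rwa [O.mz6, O.mz6] at this
  · have := A _ _ (h5 (-a))
    rwa [O.mx5, O.mx5, neg_neg, smul_neg, neg_neg] at this
  · have := A _ _ (h4 t)
    rwa [O.mz4 h, O.mz4 h] at this

end RD.X1

end CfsgLib.Mouf
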