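import Cfsg.Agent.Lib.Mouf.Glue
import Cfsg.Agent.Lib.Mouf.HS

/-!
# Package HG: two hexagons (see `plans/MOUF.md`)
-/

set_option autoImplicit false

namespace CfsgLib.Mouf
open scoped commutatorElement

section Gr
variable {G G' : Type*} [Group G] [Group G'] {A A' : Type*} [AddCommGroup A] [AddCommGroup A'] {f : A → G} {f' : A' → G'}
  {H : Subgroup G} {H' : Subgroup G'}

/-- the graph of the isomorphism given by two parametrisations -/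
def Par.gr (p : Par f H) (p' : Par f' H') (ψ : A ≃+ A') : Subgroup (G × G') where
  carrier := {g | ∃ a, g = (f a, f' (ψ a))}
  one_mem' := ⟨0, by rw [map_zero, p.zero, p'.zero]; rfl⟩
  mul_mem' := by
    rintro _ _ ⟨a, rfl⟩ ⟨b, rfl⟩
    exact ⟨a + b, by rw [map_add, p.add, p'.add]; rfl⟩
  inv_mem' := by
    rintro _ ⟨a, rfl⟩
    exact ⟨-a, by rw [map_neg, p.neg, p'.neg]; rfl⟩

theorem Par.gr_match (p : Par f H) (p' : Par f' H') (ψ : A ≃+ A') :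
    (∀ g ∈ p.gr p' ψ, g.1 ∈ H ∧ g.2 ∈ H') ∧ (∀ u ∈ H, ∃ u', (u, u') ∈ p.gr p' ψ) ∧
      (∀ u' ∈ H', ∃ u, (u, u') ∈ p.gr p' ψ) ∧ ∀ g ∈ p.gr p' ψ, g.1 = 1 ↔ g.2 = 1 := by
  refine ⟨?_, fun u hu => ?_, fun u hu => ?_, ?_⟩
  · rintro _ ⟨a, rfl⟩
    exact ⟨p.mem _, p'.mem _⟩
  · obtain ⟨a, rfl⟩ := p.ex hu
    exact ⟨_, a, rfl⟩
  · obtain ⟨a, rfl⟩ := p'.ex hu
    exact ⟨_, ψ.symm a, by rw [ψ.apply_symm_apply]⟩
  · rintro _ ⟨a, rfl⟩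
    exact ⟨fun e => by rw [p.inj a e, map_zero]; exact p'.zero,
      fun e => by rw [(map_eq_zero_iff ψ ψ.injective).1 (p'.inj _ e)]; exact p.zero⟩

theorem comm_of_conj {S : Subgroup G} {u v c : G} (e : v * u * v⁻¹ = u * c) (hc : c ∈ S) : ⁅u⁻¹, v⁆ ∈ S := by
  rwa [commutatorElement_def, inv_inv, mul_assoc, mul_assoc, ← mul_assoc v, e, inv_mul_cancel_left]

end Gr

theorem RD.X3.exists_match {G G' : Type*} [Group G] [Group G'] {R : RD 6 G} {R' : RD 6 G'} {F J F' J' : Type}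
    [Field F] [AddCommGroup J] [Module F J] [Field F'] [AddCommGroup J'] [Module F' J'] {A : CNS F J} {A' : CNS F' J'}
    (O : R.X3 A) (O' : R'.X3 A') (h : R.Hex) (h' : R'.Hex) (φ : F ≃+* F') (ψ : J ≃+ J')
    (h1 : ∀ (s : F) a, ψ (s • a) = φ s • ψ a) (h2 : ∀ a, ψ (A.sh a) = A'.sh (ψ a))
    (h3 : ∀ a, A'.N (ψ a) = φ (A.N a)) (h4 : ∀ a b, A'.T (ψ a) (ψ b) = φ (A.T a b))
    (h5 : ∀ a b, ψ (A.cr a b) = A'.cr (ψ a) (ψ b)) : ∃ Γ, R.Match R' Γ 1 6 ∧ Comm 6 Γ 1 6 := by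
  let φ' : F ≃+ F' := φ.toAddEquiv
  let Γ : ℤ → Subgroup (G × G') := fun i =>
    if i = 1 then O.p1.gr O'.p1 ψ else if i = 2 then O.p2.gr O'.p2 φ' else if i = 3 then O.p3.gr O'.p3 ψ else
    if i = 4 then O.p4.gr O'.p4 φ' else if i = 5 then O.p5.gr O'.p5 ψ else O.p6.gr O'.p6 φ'
  have hM : ∀ i, 1 ≤ i → i ≤ 6 → (∀ g ∈ Γ i, g.1 ∈ R.U i ∧ g.2 ∈ R'.U i) ∧ (∀ u ∈ R.U i, ∃ u', (u, u') ∈ Γ i) ∧
      (∀ u' ∈ R'.U i, ∃ u, (u, u') ∈ Γ i) ∧ ∀ g ∈ Γ i, g.1 = 1 ↔ g.2 = 1 := fun i h1 h2 => by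
    interval_cases i
    exacts [O.p1.gr_match O'.p1 ψ, O.p2.gr_match O'.p2 φ', O.p3.gr_match O'.p3 ψ, O.p4.gr_match O'.p4 φ',
      O.p5.gr_match O'.p5 ψ, O.p6.gr_match O'.p6 φ']
  refine ⟨Γ, ⟨fun i a b => (hM i a b).1, fun i a b => (hM i a b).2.1, fun i a b => (hM i a b).2.2.1,
    fun i a b => (hM i a b).2.2.2⟩, fun i j hi hij hj hn u hu v hv => ?_⟩
  have m2 : ∀ t, (O.z2 t, O'.z2 (φ t)) ∈ Γ 2 := fun t => ⟨t, rfl⟩
  have m3 : ∀ t, (O.x3 t, O'.x3 (ψ t)) ∈ Γ 3 := fun t => ⟨t, rfl⟩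
  have m4 : ∀ t, (O.z4 t, O'.z4 (φ t)) ∈ Γ 4 := fun t => ⟨t, rfl⟩
  have m5 : ∀ t, (O.x5 t, O'.x5 (ψ t)) ∈ Γ 5 := fun t => ⟨t, rfl⟩
  by_cases hc : Even i ∧ j ≤ i + 3 ∨ Even j ∧ j - 3 ≤ i
  · have hu' := (hM i hi (by omega)).1 u hu
    have hv' := (hM j (by omega) hj).1 v hv
    have : Commute u v := by
      rcases hc with hc | hc
      · exact Prod.ext (h.comm hc.1 hu'.1 hv'.1 (by omega)) (h'.comm hc.1 hu'.2 hv'.2 (by omega))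
      · exact Prod.ext (h.comm hc.1 hv'.1 hu'.1 (by omega)).symm (h'.comm hc.1 hv'.2 hu'.2 (by omega)).symm
    rw [this.commutator_eq]; exact one_mem _
  rw [← inv_inv u]
  have hu' := (Γ i).inv_mem hu
  generalize u⁻¹ = w at hu'
  obtain ⟨rfl, rfl⟩ | ⟨rfl, rfl⟩ | ⟨rfl, rfl⟩ | ⟨rfl, rfl⟩ | ⟨rfl, rfl⟩ :
      i = 1 ∧ j = 3 ∨ i = 3 ∧ j = 5 ∨ i = 1 ∧ j = 5 ∨ i = 2 ∧ j = 6 ∨ i = 1 ∧ j = 6 := by
    simp only [Int.even_iff] at hc; omega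
  all_goals obtain ⟨a, rfl⟩ := hu'; obtain ⟨b, rfl⟩ := hv
  · exact comm_of_conj (Prod.ext (O.rC a b) ((O'.rC _ _).trans (by rw [h4]; rfl)))
      (mem_seg (m2 (A.T a b)) (by omega) (by omega))
  · exact comm_of_conj (Prod.ext (O.rD a b) ((O'.rD _ _).trans (by rw [h4, ← map_neg]; rfl)))
      (mem_seg (m4 (-A.T a b)) (by omega) (by omega))
  · refine comm_of_conj (Prod.ext ((O.rB a b).trans ?_) ((O'.rB _ _).trans ?_))
      (mul_mem (mul_mem (mem_seg (m2 (A.T (A.sh a) b)) (by omega) (by omega))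
        (mem_seg (m3 (A.cr a b)) (by omega) (by omega))) (mem_seg (m4 (-A.T a (A.sh b))) (by omega) (by omega)))
    · simp only [Prod.fst_mul, mul_assoc]
    · simp only [Prod.snd_mul, mul_assoc, ← h2, h4, h5, map_neg]
  · exact comm_of_conj (Prod.ext (O.rE b a) ((O'.rE _ _).trans (by rw [map_mul]; rfl)))
      (mem_seg (m4 (b * a)) (by omega) (by omega))
  · refine comm_of_conj (Prod.ext ((O.rA b a).trans ?_) ((O'.rA _ _).trans ?_))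
      (mul_mem (mul_mem (mul_mem (mem_seg (m2 (b * A.N a)) (by omega) (by omega))
        (mem_seg (m3 (b • A.sh a)) (by omega) (by omega))) (mem_seg (m4 (-(b * b * A.N a))) (by omega) (by omega)))
        (mem_seg (m5 (b • a)) (by omega) (by omega)))
    · simp only [Prod.fst_mul, mul_assoc]
    · simp only [Prod.snd_mul, mul_assoc, h1, h2, h3, map_neg, map_mul]; rfl

end CfsgLib.Mouf
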