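import Cfsg.Agent.Lib.Mouf.HC
import Cfsg.Agent.Lib.Mouf.HD
import Cfsg.Agent.Lib.Mouf.HF
import Cfsg.Agent.Lib.Mouf.CN2
import Cfsg.Agent.Lib.Mouf.HG

/-!
# Hexagons: the result (see `plans/MOUF.md`)
-/

set_option autoImplicit false

namespace CfsgLib.Mouf
open scoped commutatorElement

namespace RD.Hex
variable {G G' : Type*} [Group G] [Group G'] [Finite G] [Finite G'] {R : RD 6 G} {R' : RD 6 G'}

theorem exists_X3 (h : R.Hex) : ∃ (F J : Type) (_ : Field F) (_ : AddCommGroup J) (_ : Module F J) (_ : Finite F)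
    (_ : Finite J) (A : CNS F J), Nonempty (R.X3 A) := by
  obtain ⟨F, J, _, _, _, _, _, ⟨O⟩⟩ := h.exists_X1
  obtain ⟨O⟩ := O.exists_X2 h
  obtain ⟨A, hA⟩ := O.exists_X3 h
  exact ⟨F, J, _, _, _, ‹_›, ‹_›, A, hA⟩

theorem card_U (h : R.Hex) : IsPrimePow (Nat.card (R.U 2)) ∧
    (Nat.card (R.U 1) = Nat.card (R.U 2) ∨ Nat.card (R.U 1) = Nat.card (R.U 2) ^ 3) := by
  obtain ⟨F, J, _, _, _, _, _, A, ⟨O⟩⟩ := h.exists_X3
  rw [O.p1.card, O.p2.card]
  refine ⟨?_, A.card⟩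
  have := Fintype.ofFinite F
  rw [Nat.card_eq_fintype_card]
  exact FiniteField.isPrimePow_card F

/-- Two finite Moufang hexagons with the same parameters have isomorphic root group sequences. -/
theorem exists_match (h : R.Hex) (h' : R'.Hex) (h1 : Nat.card (R.U 1) = Nat.card (R'.U 1))
    (h2 : Nat.card (R.U 2) = Nat.card (R'.U 2)) : ∃ Γ, R.Match R' Γ 1 6 ∧ Comm 6 Γ 1 6 := by
  obtain ⟨F, J, _, _, _, _, _, A, ⟨O⟩⟩ := h.exists_X3
  obtain ⟨F', J', _, _, _, _, _, A', ⟨O'⟩⟩ := h'.exists_X3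
  have := Fintype.ofFinite F
  have := Fintype.ofFinite F'
  have φ : F ≃+* F' := FiniteField.ringEquivOfCardEq (by
    rw [← Nat.card_eq_fintype_card, ← Nat.card_eq_fintype_card, ← O.p2.card, ← O'.p2.card, h2])
  obtain ⟨ψ, k1, k2, k3, k4, k5⟩ := A.exists_equiv A' φ (by rw [← O.p1.card, ← O'.p1.card, h1])
  exact O.exists_match O' h h' φ ψ k1 k2 k3 k4 k5

end RD.Hex

end CfsgLib.Mouf
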