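import Cfsg.Agent.Lib.Mouf.Base2

/-!
# Package OA: octagons, first facts (see `plans/MOUF.md`)
-/

set_option autoImplicit false

namespace CfsgLib.Mouf
open scoped commutatorElement

theorem oa_invol {G : Type*} [Group G] {H : Subgroup G} (e : ℕ) :
    ∀ u ∈ H, u ≠ 1 → u ^ 2 ^ e = 1 → ∃ a ∈ H, a ≠ 1 ∧ a * a = 1 := by
  induction e with
  | zero => intro u _ h1 h2; exact absurd (by simpa using h2) h1
  | succ e ih =>
    intro u hu h1 h2
    by_cases c : u * u = 1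
    · exact ⟨u, hu, h1, c⟩
    · exact ih (u * u) (mul_mem hu hu) c (by rw [← pow_two, ← pow_mul, ← pow_succ', h2])

namespace RD.Oct
variable {G : Type*} [Group G] {R : RD 8 G} (h : R.Oct) {i j k l : ℤ} {a a' p q p' q' p'' q'' u v w w' x z z' : G}
include h

theorem phi (hi : Even i) (e : j = i + 5 ∧ k = i + 2 ∨ j = i - 5 ∧ k = i - 2) (hz : z ∈ R.V i)
    (hm : R.Mu j l p a q) (el : j + l = i + k) :
    a * z * a⁻¹ = z * (p * a * q * z * (p * a * q)⁻¹) ∧ p * a * q * z * (p * a * q)⁻¹ ∈ R.V k := by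
  have eo := hm.opp
  have hk : Even k := by
    obtain ⟨t, ht⟩ := hi
    rcases e with ⟨_, e⟩ | ⟨_, e⟩
    · exact ⟨t + 1, by omega⟩
    · exact ⟨t - 1, by omega⟩
  have h1 : p * a * q * z * (p * a * q)⁻¹ ∈ R.V k := V_conj hm.act hz ⟨Or.inr rfl, by omega⟩
  refine ⟨?_, h1⟩
  have h2 := Mu.conj_eq p a q z (V_comm hz hm.q_mem (by omega)).symm
  generalize p * a * q * z * (p * a * q)⁻¹ = y at h1 h2
  have h3 : ⁅p⁻¹, y⁆ ∈ R.V i := h.cv k l i hk (by omega) y h1 _ (inv_mem hm.p_mem)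
  have h4 : ⁅a, z⁆ ∈ R.V k := h.cv i j k hi e z hz a hm.u_mem
  have h5 : ⁅p⁻¹, y⁆ * y = z * ⁅a, z⁆ := by
    rw [(V_comm hz (V_U h4) (by omega)).eq]
    simp only [commutatorElement_def, inv_inv, inv_mul_cancel_right, h2]
  have h6 : z⁻¹ * ⁅p⁻¹, y⁆ = ⁅a, z⁆ * y⁻¹ := by
    rw [inv_mul_eq_iff_eq_mul, ← mul_assoc, ← h5, mul_inv_cancel_right]
  have h7 : z⁻¹ * ⁅p⁻¹, y⁆ = 1 := R.inf_U (mul_mem (inv_mem (V_U hz)) (V_U h3))
    (h6 ▸ mul_mem (V_U h4) (inv_mem (V_U h1))) (by omega)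
  rw [inv_mul_eq_one.1 h7] at h2 ⊢
  rw [h2]
  simp only [commutatorElement_def, inv_inv, inv_mul_cancel_right]

theorem nd (hi : Even i) (e : j = i + 5 ∨ j = i - 5) (hz : z ∈ R.V i) (ha : a ∈ R.U j) (hc : Commute a z) :
    a = 1 ∨ z = 1 := by
  by_cases c : a = 1
  · exact Or.inl c
  refine Or.inr ?_
  have A : ∀ k l : ℤ, (j = i + 5 ∧ k = i + 2 ∨ j = i - 5 ∧ k = i - 2) → (l = j + (8 : ℕ) ∨ l = j - (8 : ℕ)) →
      j + l = i + k → z = 1 := by
    intro k l e1 e2 e3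
    obtain ⟨p, q, hm⟩ := exists_mu ha c e2
    have h1 := (h.phi hi e1 hz hm e3).1
    rw [hc.eq, mul_inv_cancel_right] at h1
    exact conj_eq_one_iff.1 (left_eq_mul.1 h1)
  rcases e with e | e
  · exact A (i + 2) (i - 3) (by omega) (by omega) (by omega)
  · exact A (i - 2) (i + 3) (by omega) (by omega) (by omega)

theorem vsq (hi : Even i) (hz : z ∈ R.V i) : z * z = 1 := by
  obtain ⟨u, hu, u1⟩ := R.exists_ne (i + 5)
  obtain ⟨e, he⟩ := h.two (i + 5) ⟨u, hu⟩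
  obtain ⟨a, ha, a1, aa⟩ := oa_invol e u hu u1 (by simpa using congrArg Subtype.val he)
  obtain ⟨p, q, hm⟩ := exists_mu (j := i - 3) ha a1 (by omega)
  obtain ⟨h1, h2⟩ := h.phi (k := i + 2) hi (by omega) hz hm (by omega)
  have h3 := (V_comm h2 ha (by omega)).eq
  have h5 : p * a * q * (z * z) * (p * a * q)⁻¹ =
      p * a * q * z * (p * a * q)⁻¹ * (p * a * q * z * (p * a * q)⁻¹) := by group
  generalize p * a * q * z * (p * a * q)⁻¹ = y at h1 h2 h3 h5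
  have h4 : z = z * (y * y) := by
    calc z = (a * a) * z * (a * a)⁻¹ := by rw [aa]; group
      _ = a * (a * z * a⁻¹) * a⁻¹ := by group
      _ = a * z * a⁻¹ * (a * y) * a⁻¹ := by (conv_lhs => rw [h1]); group
      _ = z * (y * y) := by rw [← h3, h1]; group
  rw [left_eq_mul.1 h4] at h5
  exact conj_eq_one_iff.1 h5

theorem conj_V (hi : Even i) (e : j = i + 5 ∧ k = i + 2 ∨ j = i - 5 ∧ k = i - 2) (hz : z ∈ R.V i) (ha : a ∈ R.U j) :
    ∃ w ∈ R.V k, a * z * a⁻¹ = z * w ∧ z * a * z⁻¹ = a * w := by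
  have hk : Even k := by
    obtain ⟨t, ht⟩ := hi
    rcases e with ⟨_, e⟩ | ⟨_, e⟩
    · exact ⟨t + 1, by omega⟩
    · exact ⟨t - 1, by omega⟩
  have h1 : ⁅a, z⁆ ∈ R.V k := h.cv i j k hi e z hz a ha
  refine ⟨_, h1, ?_, ?_⟩
  · rw [(V_comm hz (V_U h1) (by omega)).eq, commutatorElement_def, inv_mul_cancel_right]
  · rw [← (V_comm h1 ha (by omega)).eq, ← inv_eq_of_mul_eq_one_right (h.vsq hk h1), commutatorElement_def]
    group

theorem xsq (hi : Odd i) (hx : x ∈ R.U i) : x * x = 1 := by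
  have hk : Even (i - 5) := by
    obtain ⟨t, ht⟩ := hi
    exact ⟨t - 2, by omega⟩
  have hk' : Even (i - 3) := by
    obtain ⟨t, ht⟩ := hi
    exact ⟨t - 1, by omega⟩
  obtain ⟨⟨z, hz⟩, z1⟩ := Subgroup.ne_bot_iff_exists_ne_one.1 (h.neV _ hk)
  obtain ⟨w, hw, h1, -⟩ := h.conj_V (j := i) (k := i - 3) hk (by omega) hz hx
  have h2 := (V_comm hw hx (by omega)).eq
  refine (h.nd (j := i) hk (by omega) hz (mul_mem hx hx) ?_).resolve_right fun e => z1 (Subtype.ext e)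
  show _ = _
  calc x * x * z = x * (x * z * x⁻¹) * x := by group
    _ = x * z * x⁻¹ * (x * w) * x := by (conv_lhs => rw [h1]); group
    _ = z * (w * w) * (x * x) := by rw [← h2, h1]; group
    _ = z * (x * x) := by rw [h.vsq hk' hw, mul_one]

theorem xcomm (hi : Odd i) (hu : u ∈ R.U i) (hv : v ∈ R.U i) : Commute u v := by
  exact h.ci i u hu (h.xsq hi hu) v hv

/-- two elements of `U j` that act in the same way on `z` -/
theorem nd_left (hi : Even i) (e : j = i + 5 ∨ j = i - 5) (hz : z ∈ R.V i) (ne : z ≠ 1) (ha : a ∈ R.U j)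
    (ha' : a' ∈ R.U j) (hc : ⁅a, z⁆ = ⁅a', z⁆) : a = a' := by
  have h1 : Commute (a'⁻¹ * a) z := by
    simp only [commutatorElement_def, mul_left_inj] at hc
    show _ = _
    calc a'⁻¹ * a * z = a'⁻¹ * (a * z * a⁻¹) * a := by group
      _ = z * (a'⁻¹ * a) := by rw [hc]; group
  exact (inv_mul_eq_one.1 ((h.nd hi e hz (mul_mem (inv_mem ha') ha) h1).resolve_right ne)).symm

theorem nd_right (hi : Even i) (e : j = i + 5 ∨ j = i - 5) (hz : z ∈ R.V i) (hz' : z' ∈ R.V i) (ha : a ∈ R.U j)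
    (ne : a ≠ 1) (hc : ⁅a, z⁆ = ⁅a, z'⁆) : z = z' := by
  have h1 : Commute a (z'⁻¹ * z) := by
    refine Commute.inv_left_iff.1 ?_
    show _ = _
    calc a⁻¹ * (z'⁻¹ * z) = z'⁻¹ * a⁻¹ * ⁅a, z'⁆ * z := by rw [commutatorElement_def]; group
      _ = z'⁻¹ * z * a⁻¹ := by rw [← hc, commutatorElement_def]; group
  exact (inv_mul_eq_one.1 ((h.nd hi e (mul_mem (inv_mem hz') hz) ha h1).resolve_left ne)).symm

theorem a5 (hz : z ∈ R.V 2) (hm : R.Mu 8 0 p a q) :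
    ∃ d ∈ seg R.U 3 5, a * z * a⁻¹ = z * d * (p * a * q * z * (p * a * q)⁻¹) ∧
      p * a * q * z * (p * a * q)⁻¹ ∈ R.V 6 := by
  have h1 : p * a * q * z * (p * a * q)⁻¹ ∈ R.V 6 := V_conj hm.act hz ⟨Or.inr rfl, by omega⟩
  have h2 := Mu.conj_eq p a q z (V_comm hz hm.q_mem (by omega)).symm
  generalize p * a * q * z * (p * a * q)⁻¹ = y at h1 h2
  refine ⟨z⁻¹ * (a * z * a⁻¹) * y⁻¹, R.inf (i := 1) (l := 7) ?_ ?_ (by omega), by group, h1⟩
  · rw [h2, show z⁻¹ * (p⁻¹ * y * p) * y⁻¹ = z⁻¹ * ⁅p⁻¹, y⁆ by rw [commutatorElement_def]; group]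
    exact mul_mem (mem_seg (inv_mem (V_U hz)) (by omega) (by omega))
      (R.comm_mem (inv_mem hm.p_mem) (V_U h1) (by omega)).1
  · rw [show z⁻¹ * (a * z * a⁻¹) = ⁅z⁻¹, a⁆ by rw [commutatorElement_def]; group]
    exact mul_mem (R.comm_mem (inv_mem (V_U hz)) hm.u_mem (by omega)).1
      (mem_seg (inv_mem (V_U h1)) (by omega) (by omega))

theorem a5' (hz : z ∈ R.V 2) (ha : a ∈ R.U 8) :
    ∃ d ∈ seg R.U 3 5, ∃ z₆ ∈ R.V 6, a * z * a⁻¹ = z * d * z₆ ∧ (z₆ = 1 → a = 1 ∨ z = 1) := by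
  by_cases c : a = 1
  · exact ⟨1, one_mem _, 1, one_mem _, by simp [c], fun _ => Or.inl c⟩
  obtain ⟨p, q, hm⟩ := exists_mu (j := 0) ha c (by omega)
  obtain ⟨d, hd, h1, h2⟩ := h.a5 hz hm
  exact ⟨d, hd, _, h2, h1, fun e => Or.inr (conj_eq_one_iff.1 e)⟩

theorem zw_seg (hz : z ∈ R.V 2) (hw : w ∈ R.V 8) : z⁻¹ * (w * z * w⁻¹) ∈ seg R.U 4 6 := by
  obtain ⟨d, hd, y, hy, e, -⟩ := h.a5' hz (V_U hw)
  obtain ⟨d', hd', y', hy', e', -⟩ := (h.line 10 (-1) (Or.inr rfl) (by decide)).a5' (z := w) (a := z⁻¹)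
    (by rwa [line_V (k := 8) (by norm_num)]) (by rw [line_U (k := 2) (by norm_num)]; exact inv_mem (V_U hz))
  rw [line_seg (i' := 5) (j' := 7) (by norm_num)] at hd'
  rw [line_V (k := 4) (by norm_num)] at hy'
  refine R.inf (i := 3) (l := 7) ?_ ?_ (by omega)
  · rw [e, show z⁻¹ * (z * d * y) = d * y by group]
    exact mul_mem (seg_mono hd le_rfl (by omega)) (mem_seg (V_U hy) (by omega) (by omega))
  · have h1 : d' * y' ∈ seg R.U 4 7 :=
      mul_mem (seg_mono hd' (by omega) le_rfl) (mem_seg (V_U hy') (by omega) (by omega))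
    rw [show z⁻¹ * (w * z * w⁻¹) = z⁻¹ * w * z⁻¹⁻¹ * w⁻¹ by group, e', mul_assoc w,
      (V_comm_seg hw h1 (by omega)).eq, mul_inv_cancel_right]
    exact h1

theorem a5V (hz : z ∈ R.V 2) (hw : w ∈ R.V 8) (hm : R.Mu 8 0 p w q) :
    ∃ d ∈ seg R.U 4 5, w * z * w⁻¹ = z * d * (p * w * q * z * (p * w * q)⁻¹) ∧
      p * w * q * z * (p * w * q)⁻¹ ∈ R.V 6 := by
  obtain ⟨d, hd, e, hy⟩ := h.a5 hz hm
  refine ⟨d, R.inf (l := 6) hd ?_ (by omega), e, hy⟩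
  generalize p * w * q * z * (p * w * q)⁻¹ = y at e hy
  rw [show d = z⁻¹ * (z * d * y) * y⁻¹ by group, ← e]
  exact mul_mem (h.zw_seg hz hw) (mem_seg (inv_mem (V_U hy)) (by omega) (by omega))

theorem mu_add (hw : w ∈ R.V 8) (hw' : w' ∈ R.V 8) (hm : R.Mu 8 0 p w q) (hm' : R.Mu 8 0 p' w' q')
    (hm'' : R.Mu 8 0 p'' (w * w') q'') (hz : z ∈ R.V 2) :
    p'' * (w * w') * q'' * z * (p'' * (w * w') * q'')⁻¹ =
      p * w * q * z * (p * w * q)⁻¹ * (p' * w' * q' * z * (p' * w' * q')⁻¹) := by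
  obtain ⟨d, hd, e, hy⟩ := h.a5V hz hw hm
  obtain ⟨d', hd', e', hy'⟩ := h.a5V hz hw' hm'
  obtain ⟨d'', hd'', e'', hy''⟩ := h.a5V hz (mul_mem hw hw') hm''
  generalize p * w * q * z * (p * w * q)⁻¹ = y at e hy
  generalize p' * w' * q' * z * (p' * w' * q')⁻¹ = y' at e' hy'
  generalize p'' * (w * w') * q'' * z * (p'' * (w * w') * q'')⁻¹ = y'' at e'' hy''
  have h1 := (V_comm_seg hw (mul_mem (seg_mono hd' le_rfl (by omega) : d' ∈ seg R.U 4 6)
    (mem_seg (V_U hy') (by omega) (by omega))) (by omega)).eq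
  have h2 := (V_comm_seg hy hd' (by omega)).eq
  have h3 : z * (d'' * y'') = z * (d * d' * (y * y')) := by
    calc z * (d'' * y'') = w * (w' * z * w'⁻¹) * w⁻¹ := by rw [← mul_assoc, ← e'']; group
      _ = w * z * w⁻¹ * (w * (d' * y')) * w⁻¹ := by rw [e']; group
      _ = z * d * (y * d') * y' := by rw [h1, e]; group
      _ = _ := by rw [h2]; group
  exact (R.right_inj (V_U hy'') (V_U (mul_mem hy hy')) hd'' (mul_mem hd hd') (by omega) (mul_left_cancel h3)).2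

theorem mu_inj (hw : w ∈ R.V 8) (hw' : w' ∈ R.V 8) (hm : R.Mu 8 0 p w q) (hm' : R.Mu 8 0 p' w' q')
    (hz : z ∈ R.V 2) (ne : z ≠ 1) (e : p * w * q * z * (p * w * q)⁻¹ = p' * w' * q' * z * (p' * w' * q')⁻¹) :
    w = w' := by
  by_cases c : w * w' = 1
  · rw [eq_inv_of_mul_eq_one_left c, inv_eq_of_mul_eq_one_right (h.vsq (by decide) hw')]
  obtain ⟨p'', q'', hm''⟩ := exists_mu (j := 0) (V_U (mul_mem hw hw')) c (by omega)
  have h1 := h.mu_add hw hw' hm hm' hm'' hz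
  rw [← e, h.vsq (by decide) (h.a5 hz hm).choose_spec.2.2] at h1
  exact absurd (conj_eq_one_iff.1 h1) ne

/-- elements of `⟨U 0, U 8⟩` that fix all root groups -/
theorem comm_tor {g : G} (hg : Act R.U g 0 1) (hc : ∀ y ∈ R.V 4, Commute y g) (ha : a ∈ R.U 7) (hz : z ∈ R.V 2) :
    ⁅g⁻¹ * a * g, z⁆ = ⁅a, g * z * g⁻¹⁆ := by
  have h1 : ⁅a, g * z * g⁻¹⁆ ∈ R.V 4 :=
    h.cv 2 7 4 (by decide) (by omega) _ (V_conj hg hz ⟨Or.inl rfl, by omega⟩) a ha
  calc ⁅g⁻¹ * a * g, z⁆ = g⁻¹ * (⁅a, g * z * g⁻¹⁆ * g) := by simp only [commutatorElement_def]; group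
    _ = _ := by rw [(hc _ h1).eq]; group

omit h in
theorem mu_comm4 {y : G} (hm : R.Mu 8 0 p a q) (hy : y ∈ R.V 4) : Commute y (p * a * q) :=
  ((V_comm hy hm.p_mem (by omega)).mul_right (V_comm hy hm.u_mem (by omega))).mul_right
    (V_comm hy hm.q_mem (by omega))

variable [Finite G]

theorem card (hi : Even i) (hj : Odd j) : Nat.card (R.V i) = Nat.card (R.U j) := by
  obtain ⟨⟨z, hz⟩, z1⟩ := Subgroup.ne_bot_iff_exists_ne_one.1 (h.neV 2 (by decide))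
  have z1 : z ≠ 1 := fun e => z1 (Subtype.ext e)
  rw [R.card_two (i := j) (j := 7) (by obtain ⟨t, ht⟩ := hj; omega)]
  apply le_antisymm
  · rw [R.card_V_two (i := i) (j := 8) (by obtain ⟨t, ht⟩ := hi; omega)]
    obtain ⟨e, he, e1⟩ := R.exists_ne 8
    obtain ⟨p₀, q₀, hn⟩ := exists_mu (j := 0) he e1 (by omega)
    obtain ⟨a, ha, a1⟩ := R.exists_ne 7
    have A : ∀ w : R.V 8, ∃ b : R.U 7, ((w : G) = 1 ∧ (b : G) = 1) ∨ ∃ p q, R.Mu 8 0 p w q ∧
        (b : G) = (p₀ * e * q₀ * (p * w * q))⁻¹ * a * (p₀ * e * q₀ * (p * w * q)) := by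
      intro w
      by_cases c : (w : G) = 1
      · exact ⟨1, Or.inl ⟨c, rfl⟩⟩
      obtain ⟨p, q, hm⟩ := exists_mu (j := 0) (V_U w.2) c (by omega)
      exact ⟨⟨_, (hn.act.mul hm.act (d := 0) (δ := 1) (by norm_num)).conj_inv ha (by norm_num)⟩,
        Or.inr ⟨p, q, hm, rfl⟩⟩
    choose f hf using A
    have B : ∀ g : G, g⁻¹ * a * g ≠ 1 := fun g e => a1 (by
      rw [show a = g * (g⁻¹ * a * g) * g⁻¹ by group, e]; group)
    refine Nat.card_le_card_of_injective f fun w w' ee => Subtype.ext ?_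
    have e' : (f w : G) = f w' := congrArg _ ee
    rcases hf w with ⟨h1, h2⟩ | ⟨p, q, hm, h2⟩ <;> rcases hf w' with ⟨k1, k2⟩ | ⟨p', q', hm', k2⟩
    · rw [h1, k1]
    · exact absurd (by rw [← k2, ← e', h2]) (B _)
    · exact absurd (by rw [← h2, e', k2]) (B _)
    · have g1 := hn.act.mul hm.act (d := 0) (δ := 1) (by norm_num)
      have g2 := hn.act.mul hm'.act (d := 0) (δ := 1) (by norm_num)
      have h3 := h.comm_tor g1 (fun y hy => (mu_comm4 hn hy).mul_right (mu_comm4 hm hy)) ha hz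
      have h4 := h.comm_tor g2 (fun y hy => (mu_comm4 hn hy).mul_right (mu_comm4 hm' hy)) ha hz
      rw [← h2, e', k2, h4] at h3
      have h5 := h.nd_right (i := 2) (j := 7) (by decide) (by omega) (V_conj g2 hz ⟨Or.inl rfl, by omega⟩)
        (V_conj g1 hz ⟨Or.inl rfl, by omega⟩) ha a1 h3
      refine h.mu_inj w.2 w'.2 hm hm' hz z1 ?_
      generalize p₀ * e * q₀ = m at h5
      calc _ = m⁻¹ * (m * (p * w * q) * z * (m * (p * w * q))⁻¹) * m := by group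
        _ = _ := by rw [← h5]; group
  · rw [R.card_V_two (i := i) (j := 4) (by obtain ⟨t, ht⟩ := hi; omega)]
    exact Nat.card_le_card_of_injective
      (fun a : R.U 7 => (⟨⁅(a : G), z⁆, h.cv 2 7 4 (by decide) (by omega) z hz a a.2⟩ : R.V 4))
      fun a b e => Subtype.ext (h.nd_left (i := 2) (j := 7) (by decide) (by omega) hz z1 a.2 b.2 (congrArg Subtype.val e))

theorem surj (hi : Even i) (e : j = i + 5 ∧ k = i + 2 ∨ j = i - 5 ∧ k = i - 2) (hz : z ∈ R.V i) (ne : z ≠ 1)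
    (hw : w ∈ R.V k) : ∃ a ∈ R.U j, ⁅a, z⁆ = w := by
  have hk : Even k ∧ Odd j := by
    obtain ⟨t, ht⟩ := hi
    rcases e with ⟨e', e⟩ | ⟨e', e⟩
    · exact ⟨⟨t + 1, by omega⟩, t + 2, by omega⟩
    · exact ⟨⟨t - 1, by omega⟩, t - 3, by omega⟩
  have hf : Function.Injective (fun a : R.U j => (⟨⁅(a : G), z⁆, h.cv i j k hi e z hz a a.2⟩ : R.V k)) :=
    fun a b e' => Subtype.ext (h.nd_left hi (by omega) hz ne a.2 b.2 (congrArg Subtype.val e'))
  obtain ⟨a, ha⟩ := (hf.bijective_of_nat_card_le (h.card hk.1 hk.2).le).2 ⟨w, hw⟩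
  exact ⟨a, a.2, congrArg Subtype.val ha⟩

theorem mu_surj (hz : z ∈ R.V 2) (ne : z ≠ 1) (hz' : z' ∈ R.V 6) (ne' : z' ≠ 1) :
    ∃ w ∈ R.V 8, ∃ p q, R.Mu 8 0 p w q ∧ p * w * q * z * (p * w * q)⁻¹ = z' := by
  have A : ∀ w : R.V 8, ∃ b : R.V 6, ((w : G) = 1 ∧ (b : G) = 1) ∨ ∃ p q, R.Mu 8 0 p w q ∧
      p * w * q * z * (p * w * q)⁻¹ = b := by
    intro w
    by_cases c : (w : G) = 1
    · exact ⟨1, Or.inl ⟨c, rfl⟩⟩
    obtain ⟨p, q, hm⟩ := exists_mu (j := 0) (V_U w.2) c (by omega)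
    exact ⟨⟨_, (h.a5 hz hm).choose_spec.2.2⟩, Or.inr ⟨p, q, hm, rfl⟩⟩
  choose f hf using A
  have hi : Function.Injective f := by
    intro w w' e
    refine Subtype.ext ?_
    have e' : (f w : G) = f w' := congrArg _ e
    rcases hf w with ⟨h1, h2⟩ | ⟨p, q, hm, h2⟩ <;> rcases hf w' with ⟨k1, k2⟩ | ⟨p', q', hm', k2⟩
    · rw [h1, k1]
    · exact absurd (conj_eq_one_iff.1 (by rw [k2, ← e', h2])) ne
    · exact absurd (conj_eq_one_iff.1 (by rw [h2, e', k2])) ne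
    · exact h.mu_inj w.2 w'.2 hm hm' hz ne (by rw [h2, k2, e'])
  obtain ⟨w, hw⟩ := (hi.bijective_of_nat_card_le (R.card_V_two (i := 6) (j := 8) (by decide)).le).2 ⟨z', hz'⟩
  have e : (f w : G) = z' := congrArg Subtype.val hw
  rcases hf w with ⟨-, h2⟩ | ⟨p, q, hm, h2⟩
  · exact absurd (e ▸ h2) ne'
  · exact ⟨w, w.2, p, q, hm, h2.trans e⟩

theorem U_ne_V (hi : Even i) : ¬ Nat.card (R.U i) ≤ Nat.card (R.V i) := by
  intro hle
  have h1 : Nat.card (R.U 0) = Nat.card (R.U 1) := by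
    rw [← h.card hi (j := 1) (by decide), ← R.card_two (i := i) (j := 0) (by obtain ⟨t, ht⟩ := hi; omega)]
    exact le_antisymm hle (Subgroup.card_le_of_le fun z hz => V_U hz)
  obtain ⟨r, hr⟩ := h.fh
  rw [h1] at hr
  have h2 : Nat.card (R.U 1) ≠ 0 := Nat.card_pos.ne'
  generalize Nat.card (R.U 1) = m at hr h2
  have h3 : r ≠ 0 := by
    rintro rfl
    simp [h2] at hr
  have := congrArg (fun n : ℕ => n.factorization 2) hr
  simp only [Nat.factorization_mul (mul_ne_zero two_ne_zero h2) h2, Nat.factorization_mul two_ne_zero h2,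
    Nat.factorization_mul h3 h3, Finsupp.add_apply, Nat.prime_two.factorization_self] at this
  omega

end RD.Oct

end CfsgLib.Mouf
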