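import Cfsg.Agent.Lib.Mouf.OE

/-!
# Package OB: the qualitative structure of an octagon, part 1 (see `plans/MOUF.md`)
-/

set_option autoImplicit false

namespace CfsgLib.Mouf
open scoped commutatorElement

namespace RD.Oct
variable {G : Type*} [Group G] {R : RD 8 G} (h : R.Oct) {i j k : ℤ} {a d e g p q u v w x z d₃ d₄ d₅ z₄ x₅ z₆ z₆' : G}
include h

omit h in
theorem ob_dec3 (hd : d ∈ seg R.U 3 5) : ∃ d₃ ∈ R.U 3, ∃ d₄ ∈ R.U 4, ∃ d₅ ∈ R.U 5, d = d₃ * d₄ * d₅ := by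
  obtain ⟨d₃, h3, y, hy, rfl⟩ := R.left (k := 4) hd (by omega)
  obtain ⟨d₄, h4, d₅, h5, rfl⟩ := R.left (k := 5) hy (by omega)
  exact ⟨d₃, h3, d₄, h4, d₅, seg_self h5 rfl rfl, by group⟩

theorem ob_mu_E (hm : R.Mu 8 0 p a q) (he : e ∈ R.E) : p * a * q * e * (p * a * q)⁻¹ ∈ R.E := by
  rw [show p * a * q * e * (p * a * q)⁻¹ = p * (a * (q * e * q⁻¹) * a⁻¹) * p⁻¹ by group]
  exact h.E_conj0 hm.p_mem (h.E_conj8 hm.u_mem (h.E_conj0 hm.q_mem he))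

theorem ob_mu_E' (hm : R.Mu 8 0 p a q) (he : e ∈ R.E) : (p * a * q)⁻¹ * e * (p * a * q) ∈ R.E := by
  have := h.ob_mu_E hm.inv he
  rwa [show q⁻¹ * a⁻¹ * p⁻¹ * e * (q⁻¹ * a⁻¹ * p⁻¹)⁻¹ = (p * a * q)⁻¹ * e * (p * a * q) by group] at this

theorem ob_neV (hi : Even i) : ∃ z ∈ R.V i, z ≠ 1 := by
  obtain ⟨⟨z, hz⟩, z1⟩ := Subgroup.ne_bot_iff_exists_ne_one.1 (h.neV i hi)
  exact ⟨z, hz, fun e => z1 (Subtype.ext e)⟩

theorem b2 (hz : z ∈ R.V 2) (ha : a ∈ R.U 8) (hw : w ∈ R.V 8) (h3 : d₃ ∈ R.U 3) (h4 : d₄ ∈ R.U 4) (h5 : d₅ ∈ R.U 5)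
    (h6 : z₆ ∈ R.V 6) (e1 : a * z * a⁻¹ = z * d₃ * d₄ * d₅ * z₆) (k4 : z₄ ∈ R.V 4) (k5 : x₅ ∈ R.U 5)
    (k6 : z₆' ∈ R.V 6) (e2 : w * z * w⁻¹ = z * z₄ * x₅ * z₆') : ⁅d₃, w⁆ = ⁅a, x₅⁆ := by
  have hx : x₅ ∈ R.E := by
    rw [show x₅ = z₄⁻¹ * (z⁻¹ * (z * z₄ * x₅ * z₆')) * z₆'⁻¹ by group, ← e2]
    exact mul_mem (mul_mem (inv_mem (V4_E k4)) (mul_mem (inv_mem (V2_E hz)) (h.E_conj8 (V_U hw) (V2_E hz))))
      (inv_mem (V6_E k6))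
  have hd : d₃ * d₄ * d₅ ∈ R.E := by
    rw [show d₃ * d₄ * d₅ = z⁻¹ * (z * d₃ * d₄ * d₅ * z₆) * z₆⁻¹ by group, ← e1]
    exact mul_mem (mul_mem (inv_mem (V2_E hz)) (h.E_conj8 ha (V2_E hz))) (inv_mem (V6_E h6))
  have hy : ⁅d₃, w⁆ ∈ R.V 6 := h.cv 8 3 6 (by decide) (by omega) w hw d₃ h3
  have c1 : w * d₃ * w⁻¹ = ⁅d₃, w⁆ * d₃ := by
    rw [← inv_eq_of_mul_eq_one_right (h.vsq (by decide) hy), commutatorElement_def]; group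
  have c2 : a * x₅ * a⁻¹ = ⁅a, x₅⁆ * x₅ := by rw [commutatorElement_def]; group
  have hc : ⁅a, x₅⁆ ∈ R.E := by
    rw [commutatorElement_def]; exact mul_mem (h.E_conj8 ha hx) (inv_mem hx)
  generalize ⁅d₃, w⁆ = y at hy c1
  generalize ⁅a, x₅⁆ = c at hc c2
  have w4 := (V_comm hw h4 (by omega)).eq
  have w5 := (V_comm hw h5 (by omega)).eq
  have w6 := (V_comm hw (V_U h6) (by omega)).eq
  have a4 := (V_comm k4 ha (by omega)).eq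
  have a6 := (V_comm k6 ha (by omega)).eq
  have wa := (V_comm hw ha (by omega)).eq
  have k1 : w * (a * z * a⁻¹) * w⁻¹ = z * (z₄ * x₅ * z₆' * (y * (d₃ * d₄ * d₅)) * z₆) := by
    calc _ = (w * z * w⁻¹) * (w * d₃ * w⁻¹) * (w * d₄ * w⁻¹) * (w * d₅ * w⁻¹) * (w * z₆ * w⁻¹) := by
          rw [e1]; group
      _ = _ := by rw [e2, c1, w4, w5, w6]; group
  have k2 : a * (w * z * w⁻¹) * a⁻¹ = z * ((d₃ * d₄ * d₅) * z₆ * z₄ * (c * x₅) * z₆') := by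
    calc _ = (a * z * a⁻¹) * (a * z₄ * a⁻¹) * (a * x₅ * a⁻¹) * (a * z₆' * a⁻¹) := by rw [e2]; group
      _ = _ := by rw [e1, c2, ← a4, ← a6]; group
  have k3 : w * (a * z * a⁻¹) * w⁻¹ = a * (w * z * w⁻¹) * a⁻¹ := by
    calc _ = (w * a) * z * (w * a)⁻¹ := by group
      _ = _ := by rw [wa]; group
  rw [k1, k2] at k3
  have k4' := mul_left_cancel k3
  generalize d₃ * d₄ * d₅ = D at hd k4'
  letI : CommGroup R.E := { (inferInstance : Group R.E) with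
    mul_comm := fun a b => Subtype.ext (h.E_comm a.2 b.2).eq }
  have k5' : (⟨z₄, V4_E k4⟩ * ⟨x₅, hx⟩ * ⟨z₆', V6_E k6⟩ * (⟨y, V6_E hy⟩ * ⟨D, hd⟩) * ⟨z₆, V6_E h6⟩ : R.E) =
      ⟨D, hd⟩ * ⟨z₆, V6_E h6⟩ * ⟨z₄, V4_E k4⟩ * (⟨c, hc⟩ * ⟨x₅, hx⟩) * ⟨z₆', V6_E k6⟩ := Subtype.ext k4'
  have k6' : (⟨y, V6_E hy⟩ : R.E) = ⟨c, hc⟩ := by
    generalize (⟨z₄, V4_E k4⟩ : R.E) = A at k5'
    generalize (⟨x₅, hx⟩ : R.E) = B at k5'
    generalize (⟨z₆', V6_E k6⟩ : R.E) = C at k5'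
    generalize (⟨D, hd⟩ : R.E) = D' at k5'
    generalize (⟨z₆, V6_E h6⟩ : R.E) = E' at k5'
    generalize (⟨y, V6_E hy⟩ : R.E) = Y at k5' ⊢
    generalize (⟨c, hc⟩ : R.E) = X at k5' ⊢
    apply mul_left_cancel (a := A * B * C * D' * E')
    calc _ = A * B * C * (Y * D') * E' := by ac_rfl
      _ = _ := by rw [k5']; ac_rfl
  exact congrArg Subtype.val k6' 

variable [Finite G]

theorem b1 : ∃ z ∈ R.V 2, ∃ a ∈ R.U 8, ∃ d₃ ∈ R.U 3, ∃ d₄ ∈ R.U 4, ∃ d₅ ∈ R.U 5, ∃ z₆ ∈ R.V 6,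
    a * z * a⁻¹ = z * d₃ * d₄ * d₅ * z₆ ∧ d₃ ≠ 1 := by
  by_contra hn
  push Not at hn
  have A : ∀ z ∈ R.V 2, ∀ a ∈ R.U 8, ∃ d₄ ∈ R.U 4, ∃ d₅ ∈ R.U 5, ∃ z₆ ∈ R.V 6, a * z * a⁻¹ = z * d₄ * d₅ * z₆ := by
    intro z hz a ha
    obtain ⟨d, hd, z₆, h6, e, -⟩ := h.a5' hz ha
    obtain ⟨d₃, h3, d₄, h4, d₅, h5, rfl⟩ := ob_dec3 hd
    have := hn z hz a ha d₃ h3 d₄ h4 d₅ h5 z₆ h6 (by rw [e]; group)
    exact ⟨d₄, h4, d₅, h5, z₆, h6, by rw [e, this]; group⟩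
  let T : Subgroup G :=
    { carrier := {x | ∃ z ∈ R.V 2, ∃ y ∈ seg R.U 4 6, x = z * y}
      one_mem' := ⟨1, one_mem _, 1, one_mem _, by simp⟩
      mul_mem' := by
        rintro _ _ ⟨z, hz, y, hy, rfl⟩ ⟨z', hz', y', hy', rfl⟩
        refine ⟨z * z', mul_mem hz hz', y * y', mul_mem hy hy', ?_⟩
        rw [show z * y * (z' * y') = z * (y * z') * y' by group, ← (V_comm_seg hz' hy (by omega)).eq]
        group
      inv_mem' := by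
        rintro _ ⟨z, hz, y, hy, rfl⟩
        exact ⟨z⁻¹, inv_mem hz, y⁻¹, inv_mem hy, by rw [(V_comm_seg hz hy (by omega)).eq, mul_inv_rev]⟩ }
  have hT : R.E ≤ T := by
    refine sup_le (sup_le (fun z hz => ?_) (fun z hz => ?_)) ((Subgroup.closure_le _).2 ?_)
    · exact ⟨1, one_mem _, z, mem_seg (V_U hz) (by omega) (by omega), by simp⟩
    · exact ⟨1, one_mem _, z, mem_seg (V_U hz) (by omega) (by omega), by simp⟩
    · rintro _ ⟨a, ha, z, hz, rfl⟩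
      obtain ⟨d₄, h4, d₅, h5, z₆, h6, e⟩ := A z hz a ha
      exact ⟨z, hz, d₄ * d₅ * z₆, mul_mem (mul_mem (mem_seg h4 (by omega) (by omega))
        (mem_seg h5 (by omega) (by omega))) (mem_seg (V_U h6) (by omega) (by omega)), by rw [e]; group⟩
  obtain ⟨e₈, he, e1⟩ := R.exists_ne 8
  obtain ⟨p, q, hm⟩ := exists_mu (j := 0) he e1 (by omega)
  obtain ⟨z, hz, z1⟩ := h.ob_neV (i := 2) (by decide)
  have B : ∀ a : R.U 8, ∃ z₆ : R.V 6, ∃ z₄ ∈ R.V 4, a * z * (a : G)⁻¹ = z * z₄ * z₆ := by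
    rintro ⟨a, ha⟩
    obtain ⟨d₄, h4, d₅, h5, z₆, h6, e⟩ := A z hz a ha
    have hd : d₄ * d₅ ∈ R.E := by
      rw [show d₄ * d₅ = z⁻¹ * (z * d₄ * d₅ * z₆) * z₆⁻¹ by group, ← e]
      exact mul_mem (mul_mem (inv_mem (V2_E hz)) (h.E_conj8 ha (V2_E hz))) (inv_mem (V6_E h6))
    obtain ⟨z', hz', y, hy, e'⟩ := hT (h.ob_mu_E' hm hd)
    have k1 : p * e₈ * q * z' * (p * e₈ * q)⁻¹ ∈ R.V 6 := V_conj hm.act hz' ⟨Or.inr rfl, by omega⟩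
    have k2 : p * e₈ * q * y * (p * e₈ * q)⁻¹ ∈ seg R.U 2 4 := hm.act.seg hy (by omega)
    have k3 : d₄ * d₅ = p * e₈ * q * y * (p * e₈ * q)⁻¹ * (p * e₈ * q * z' * (p * e₈ * q)⁻¹) := by
      rw [← (V_comm_seg k1 k2 (by omega)).eq]
      calc _ = (p * e₈ * q) * ((p * e₈ * q)⁻¹ * (d₄ * d₅) * (p * e₈ * q)) * (p * e₈ * q)⁻¹ := by group
        _ = _ := by rw [e']; group
    have k4 := (R.right_inj (one_mem _) (V_U k1) (y := d₄ * d₅) (k := 2) (l := 5)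
      (mul_mem (mem_seg h4 (by omega) (by omega)) (mem_seg h5 (by omega) (by omega)))
      (seg_mono k2 le_rfl (by omega)) (by omega) (by rw [mul_one]; exact k3)).1
    have k5 := (R.right_inj h5 (one_mem _) (mem_seg h4 (by omega) (by omega)) k2 (by omega)
      (by rw [mul_one]; exact k4)).2
    subst k5
    rw [mul_one] at hd e
    exact ⟨⟨z₆, h6⟩, d₄, h.E_U4 hd h4, e⟩
  choose f hf using B
  refine h.U_ne_V (i := 8) (by decide) ?_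
  rw [R.card_V_two (i := 8) (j := 6) (by decide)]
  refine Nat.card_le_card_of_injective f fun a a' ee => Subtype.ext ?_
  obtain ⟨z₄, h4, e⟩ := hf a
  obtain ⟨z₄', h4', e'⟩ := hf a'
  rw [← ee] at e'
  obtain ⟨d, hd, z₆, h6, e'', k⟩ := h.a5' hz (mul_mem (inv_mem a'.2) a.2)
  have c4 := (V_comm (mul_mem (inv_mem h4') h4) a'.2 (by omega)).eq
  have c6 := (V_comm (f a).2 (V_U (mul_mem (inv_mem h4') h4)) (by omega)).eq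
  have k1 : z * (d * z₆) = z * (z₄'⁻¹ * z₄ * 1) := by
    calc _ = (a' : G)⁻¹ * (a * z * (a : G)⁻¹) * a' := by rw [← mul_assoc, ← e'']; group
      _ = (a' : G)⁻¹ * (z * z₄' * (z₄'⁻¹ * z₄ * f a)) * a' := by rw [e]; group
      _ = (a' : G)⁻¹ * (z * z₄' * f a) * (z₄'⁻¹ * z₄ * a') := by rw [← c6]; group
      _ = _ := by rw [← e', c4]; group
  have k2 := (R.right_inj (V_U h6) (one_mem _) hd (mem_seg (V_U (mul_mem (inv_mem h4') h4)) (by omega) (by omega))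
    (by omega) (mul_left_cancel k1)).2
  exact (inv_mul_eq_one.1 ((k k2).resolve_right z1)).symm

omit [Finite G] h in
theorem ob_ne (h3 : d₃ ∈ R.U 3) (h4 : d₄ ∈ R.U 4) (h5 : d₅ ∈ R.U 5) (h6 : z₆ ∈ R.V 6)
    (e1 : a * z * a⁻¹ = z * d₃ * d₄ * d₅ * z₆) (ne : d₃ ≠ 1) : z ≠ 1 := by
  rintro rfl
  refine ne (R.left_inj h3 (one_mem _) (y := d₄ * d₅ * z₆) (k := 4) (l := 6) (mul_mem (mul_mem
    (mem_seg h4 (by omega) (by omega)) (mem_seg h5 (by omega) (by omega))) (mem_seg (V_U h6) (by omega) (by omega)))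
    (one_mem _) (by omega) ?_).1
  calc _ = 1 * d₃ * d₄ * d₅ * z₆ := by group
    _ = _ := by rw [← e1]; group

/-- the torus is transitive on `V 2 - 1` -/
theorem ob_trans {z' : G} (hz : z ∈ R.V 2) (ne : z ≠ 1) (hz' : z' ∈ R.V 2) (ne' : z' ≠ 1) :
    ∃ g, Act R.U g 0 1 ∧ g * z * g⁻¹ = z' := by
  obtain ⟨y, hy, y1⟩ := h.ob_neV (i := 6) (by decide)
  obtain ⟨w, -, p, q, hm, e⟩ := h.mu_surj hz ne hy y1
  obtain ⟨w', -, p', q', hm', e'⟩ := h.mu_surj hz' ne' hy y1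
  refine ⟨(p' * w' * q')⁻¹ * (p * w * q), (hm'.act.inv (Or.inr ⟨rfl, rfl⟩)).mul hm.act (by norm_num), ?_⟩
  calc _ = (p' * w' * q')⁻¹ * (p * w * q * z * (p * w * q)⁻¹) * (p' * w' * q') := by group
    _ = _ := by rw [e, ← e']; group

theorem b3 (hz : z ∈ R.V 2) (hw : w ∈ R.V 8) (k4 : z₄ ∈ R.V 4) (k6 : z₆ ∈ R.V 6) (e : w * z * w⁻¹ = z * z₄ * z₆) :
    z = 1 ∨ w = 1 := by
  by_contra hn
  push Not at hn
  obtain ⟨z₀, hz₀, a, ha, d₃, h3, d₄, h4, d₅, h5, y, hy, e1, ne⟩ := h.b1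
  obtain ⟨g, hg, eg⟩ := h.ob_trans hz hn.1 hz₀ (ob_ne h3 h4 h5 hy e1 ne)
  have hw' : g * w * g⁻¹ ∈ R.V 8 := V_conj hg hw ⟨Or.inl rfl, by omega⟩
  have := h.b2 hz₀ ha hw' h3 h4 h5 hy e1 (V_conj hg k4 ⟨Or.inl rfl, by omega⟩) (one_mem _)
    (V_conj hg k6 ⟨Or.inl rfl, by omega⟩) (by
      calc _ = g * (w * z * w⁻¹) * g⁻¹ := by rw [← eg]; group
        _ = _ := by rw [e, ← eg]; group)
  rw [commutatorElement_one_right, commutatorElement_eq_one_iff_commute] at this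
  rcases h.nd (i := 8) (j := 3) (by decide) (by omega) hw' h3 this with k | k
  · exact ne k
  · exact hn.2 (conj_eq_one_iff.1 k)

theorem b3_surj (hz : z ∈ R.V 2) (ne : z ≠ 1) (hx : x ∈ R.U 5) :
    ∃ w ∈ R.V 8, ∃ z₄ ∈ R.V 4, ∃ z₆ ∈ R.V 6, w * z * w⁻¹ = z * z₄ * x * z₆ := by
  have A : ∀ w : R.V 8, ∃ x : R.U 5, ∃ z₄ ∈ R.V 4, ∃ z₆ ∈ R.V 6, w * z * (w : G)⁻¹ = z * z₄ * x * z₆ := by
    intro w
    obtain ⟨z₄, h4, x, h5, z₆, h6, e, -⟩ := h.zz_dec hz w.2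
    exact ⟨⟨x, h5⟩, z₄, h4, z₆, h6, e⟩
  choose f hf using A
  have hi : Function.Injective f := by
    intro w w' ee
    obtain ⟨z₄, h4, z₆, h6, e⟩ := hf w
    obtain ⟨z₄', h4', z₆', h6', e'⟩ := hf w'
    rw [← ee] at e'
    have hx := (f w).2
    generalize (f w : G) = x at e e' hx
    have c1 : Commute (w : G) (z₄' * x * z₆') := ((V_comm w.2 (V_U h4') (by omega)).mul_right
      (V_comm w.2 hx (by omega))).mul_right (V_comm w.2 (V_U h6') (by omega))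
    have c2 : Commute z₆ (z₄' * x) := (V_comm h6 (V_U h4') (by omega)).mul_right (V_comm h6 hx (by omega))
    have c3 := (V_comm h4' hx (by omega)).eq
    have k := h.b3 hz (mul_mem w.2 w'.2) (mul_mem h4 h4') (mul_mem h6 h6') (by
      calc _ = w * (w' * z * (w' : G)⁻¹) * (w : G)⁻¹ := by group
        _ = w * z * (w : G)⁻¹ * (w * (z₄' * x * z₆')) * (w : G)⁻¹ := by (conv_lhs => rw [e']); group
        _ = z * z₄ * x * (z₆ * (z₄' * x)) * z₆' := by rw [c1.eq, e]; group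
        _ = z * z₄ * (x * z₄') * x * z₆ * z₆' := by rw [c2.eq]; group
        _ = z * z₄ * z₄' * (x * x) * z₆ * z₆' := by rw [← c3]; group
        _ = _ := by rw [h.xsq (by decide) hx]; group)
    refine Subtype.ext ?_
    rw [eq_inv_of_mul_eq_one_left (k.resolve_left ne), inv_eq_of_mul_eq_one_right (h.vsq (by decide) w'.2)]
  obtain ⟨w, hw⟩ := (hi.bijective_of_nat_card_le (h.card (i := 8) (j := 5) (by decide) (by decide)).ge).2 ⟨x, hx⟩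
  obtain ⟨z₄, h4, z₆, h6, e⟩ := hf w
  rw [hw] at e
  exact ⟨w, w.2, z₄, h4, z₆, h6, e⟩

theorem U5_E (hx : x ∈ R.U 5) : x ∈ R.E := by
  obtain ⟨z, hz, z1⟩ := h.ob_neV (i := 2) (by decide)
  obtain ⟨w, hw, z₄, h4, z₆, h6, e⟩ := h.b3_surj hz z1 hx
  rw [show x = z₄⁻¹ * (z⁻¹ * (z * z₄ * x * z₆)) * z₆⁻¹ by group, ← e]
  exact mul_mem (mul_mem (inv_mem (V4_E h4)) (mul_mem (inv_mem (V2_E hz)) (h.E_conj8 (V_U hw) (V2_E hz))))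
    (inv_mem (V6_E h6))

theorem U3_E (hx : x ∈ R.U 3) : x ∈ R.E := by
  obtain ⟨e₈, he, e1⟩ := R.exists_ne 8
  obtain ⟨p, q, hm⟩ := exists_mu (j := 0) he e1 (by omega)
  have := h.ob_mu_E' hm (h.U5_E (hm.act.conj hx (by omega)))
  rwa [show (p * e₈ * q)⁻¹ * (p * e₈ * q * x * (p * e₈ * q)⁻¹) * (p * e₈ * q) = x by group] at this

theorem ob_c2 (hx : x ∈ R.U 5) (hu : u ∈ R.U 1 ∨ u ∈ R.U 3 ∨ u ∈ R.U 7 ∨ u ∈ R.U 9) : Commute x u := by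
  obtain ⟨z, hz, z1⟩ := h.ob_neV (i := 2) (by decide)
  obtain ⟨w, hw, z₄, h4, z₆, h6, e⟩ := h.b3_surj hz z1 hx
  obtain ⟨z₄', h4', x', h5', z₆', h6', e', -, k⟩ := h.zz_dec hz hw
  have k1 : z₄ * (x * z₆) = z₄' * (x' * z₆') := by
    apply mul_left_cancel (a := z)
    rw [← mul_assoc, ← mul_assoc, ← e, e']; group
  have k2 := (R.left_inj (V_U h4) (V_U h4') (k := 5) (l := 6)
    (mul_mem (mem_seg hx (by omega) (by omega)) (mem_seg (V_U h6) (by omega) (by omega)))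
    (mul_mem (mem_seg h5' (by omega) (by omega)) (mem_seg (V_U h6') (by omega) (by omega))) (by omega) k1).2
  rw [(R.left_inj hx h5' (k := 6) (l := 6) (mem_seg (V_U h6) le_rfl le_rfl) (mem_seg (V_U h6') le_rfl le_rfl)
    (by omega) k2).1]
  exact k u hu

theorem c2 (hi : Odd i) (e : j = i + 2 ∨ j = i - 2 ∨ j = i + 4 ∨ j = i - 4) (hu : u ∈ R.U i) (hv : v ∈ R.U j) :
    Commute u v := by
  obtain ⟨t, ht⟩ := hi
  refine (h.line (i - 5) 1 (Or.inl rfl) ⟨t - 2, by omega⟩).ob_c2 (by rwa [line_U (k := i) (by omega)]) ?_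
  rcases e with e | e | e | e
  · exact Or.inr (Or.inr (Or.inl (by rwa [line_U (k := j) (by omega)])))
  · exact Or.inr (Or.inl (by rwa [line_U (k := j) (by omega)]))
  · exact Or.inr (Or.inr (Or.inr (by rwa [line_U (k := j) (by omega)])))
  · exact Or.inl (by rwa [line_U (k := j) (by omega)])

theorem E_nf (he : e ∈ R.E) :
    ∃ z₂ ∈ R.V 2, ∃ x₃ ∈ R.U 3, ∃ z₄ ∈ R.V 4, ∃ x₅ ∈ R.U 5, ∃ z₆ ∈ R.V 6, e = z₂ * x₃ * z₄ * x₅ * z₆ := by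
  obtain ⟨z, hz, d, hd, z', hz', rfl, hE⟩ := h.E_dec he
  obtain ⟨d₃, h3, d₄, h4, d₅, h5, rfl⟩ := ob_dec3 hd
  refine ⟨z, hz, d₃, h3, d₄, h.E_U4 ?_ h4, d₅, h5, z', hz', by group⟩
  rw [show d₄ = d₃⁻¹ * (d₃ * d₄ * d₅) * d₅⁻¹ by group]
  exact mul_mem (mul_mem (inv_mem (h.U3_E h3)) hE) (inv_mem (h.U5_E h5))

theorem ob_c3 (hx : x ∈ R.U 5) (ha : a ∈ R.U 8) : ⁅a, x⁆ ∈ R.V 6 := by
  have hc : ⁅a, x⁆ ∈ R.E := by
    rw [commutatorElement_def]; exact mul_mem (h.E_conj8 ha (h.U5_E hx)) (inv_mem (h.U5_E hx))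
  have h1 : ⁅a, x⁆ ∈ R.U 6 := seg_self (R.inf (h.E_seg hc) (R.comm_mem (k := 6) (l := 7) hx ha (by omega)).2
    (by omega)) rfl rfl
  obtain ⟨z₂, h2, x₃, h3, z₄, h4, x₅, h5, z₆, h6, e⟩ := h.E_nf hc
  rw [(R.right_inj h1 (V_U h6) (k := 2) (l := 5) (one_mem _) (mul_mem (mul_mem (mul_mem
    (mem_seg (V_U h2) (by omega) (by omega)) (mem_seg h3 (by omega) (by omega)))
    (mem_seg (V_U h4) (by omega) (by omega))) (mem_seg h5 (by omega) (by omega))) (by omega)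
    (by rw [one_mul]; exact e)).2]
  exact h6

theorem c3 (hi : Odd i) (e : j = i + 3 ∧ k = i + 1 ∨ j = i - 3 ∧ k = i - 1) (hx : x ∈ R.U i) (ha : a ∈ R.U j) :
    ⁅a, x⁆ ∈ R.V k := by
  obtain ⟨t, ht⟩ := hi
  rcases e with ⟨e1, e2⟩ | ⟨e1, e2⟩
  · have := (h.line (i - 5) 1 (Or.inl rfl) ⟨t - 2, by omega⟩).ob_c3 (x := x) (a := a)
      (by rwa [line_U (k := i) (by omega)]) (by rwa [line_U (k := j) (by omega)])
    rwa [line_V (k := k) (by omega)] at this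
  · have := (h.line (i + 5) (-1) (Or.inr rfl) ⟨t + 3, by omega⟩).ob_c3 (x := x) (a := a)
      (by rwa [line_U (k := i) (by omega)]) (by rwa [line_U (k := j) (by omega)])
    rwa [line_V (k := k) (by omega)] at this

theorem ob_nf3 (he : e ∈ R.E) (hs : e ∈ seg R.U 3 7) :
    ∃ x₃ ∈ R.U 3, ∃ z₄ ∈ R.V 4, ∃ x₅ ∈ R.U 5, ∃ z₆ ∈ R.V 6, e = x₃ * z₄ * x₅ * z₆ := by
  obtain ⟨z₂, h2, x₃, h3, z₄, h4, x₅, h5, z₆, h6, e'⟩ := h.E_nf he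
  refine ⟨x₃, h3, z₄, h4, x₅, h5, z₆, h6, ?_⟩
  exact (R.left_inj (one_mem _) (V_U h2) hs (mul_mem (mul_mem (mul_mem
    (mem_seg h3 (by omega) (by omega)) (mem_seg (V_U h4) (by omega) (by omega)))
    (mem_seg h5 (by omega) (by omega))) (mem_seg (V_U h6) (by omega) (by omega))) (by omega)
    (by rw [e']; group)).2

theorem ob_nf4 (he : e ∈ R.E) (hs : e ∈ seg R.U 4 7) :
    ∃ z₄ ∈ R.V 4, ∃ x₅ ∈ R.U 5, ∃ z₆ ∈ R.V 6, e = z₄ * x₅ * z₆ := by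
  obtain ⟨x₃, h3, z₄, h4, x₅, h5, z₆, h6, e'⟩ := h.ob_nf3 he (seg_mono hs (by omega) le_rfl)
  refine ⟨z₄, h4, x₅, h5, z₆, h6, ?_⟩
  exact (R.left_inj (one_mem _) h3 hs (mul_mem (mul_mem (mem_seg (V_U h4) (by omega) (by omega))
    (mem_seg h5 (by omega) (by omega))) (mem_seg (V_U h6) (by omega) (by omega))) (by omega)
    (by rw [e']; group)).2

theorem e5 (hx : x ∈ R.U 3) (ha : a ∈ R.U 8) :
    ∃ z₄ ∈ R.V 4, ∃ x₅ ∈ R.U 5, ∃ z₆ ∈ R.V 6, a * x * a⁻¹ = x * z₄ * x₅ * z₆ := by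
  obtain ⟨z₄, h4, x₅, h5, z₆, h6, e⟩ := h.ob_nf4 (e := x⁻¹ * (a * x * a⁻¹))
    (mul_mem (inv_mem (h.U3_E hx)) (h.E_conj8 ha (h.U3_E hx))) (by
      rw [show x⁻¹ * (a * x * a⁻¹) = ⁅x⁻¹, a⁆ by rw [commutatorElement_def]; group]
      exact (R.comm_mem (inv_mem hx) ha (by omega)).1)
  exact ⟨z₄, h4, x₅, h5, z₆, h6, by rw [inv_mul_eq_iff_eq_mul.1 e]; group⟩

theorem e6 (hz : z ∈ R.V 2) (ha : a ∈ R.U 8) :
    ∃ x₃ ∈ R.U 3, ∃ z₄ ∈ R.V 4, ∃ x₅ ∈ R.U 5, ∃ z₆ ∈ R.V 6, a * z * a⁻¹ = z * x₃ * z₄ * x₅ * z₆ := by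
  obtain ⟨x₃, h3, z₄, h4, x₅, h5, z₆, h6, e⟩ := h.ob_nf3 (e := z⁻¹ * (a * z * a⁻¹))
    (mul_mem (inv_mem (V2_E hz)) (h.E_conj8 ha (V2_E hz))) (by
      rw [show z⁻¹ * (a * z * a⁻¹) = ⁅z⁻¹, a⁆ by rw [commutatorElement_def]; group]
      exact (R.comm_mem (inv_mem (V_U hz)) ha (by omega)).1)
  exact ⟨x₃, h3, z₄, h4, x₅, h5, z₆, h6, by rw [inv_mul_eq_iff_eq_mul.1 e]; group⟩

end RD.Oct

end CfsgLib.Mouf
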