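import Cfsg.Agent.Lib.Mouf.OB

/-!
# Package OB2: the qualitative structure of an octagon, part 2 (see `plans/MOUF.md`)
-/

set_option autoImplicit false

namespace CfsgLib.Mouf
open scoped commutatorElement

namespace RD.Oct
variable {G : Type*} [Group G] [Finite G] {R : RD 8 G} (h : R.Oct) {a u v w x z z₄ z₆ : G}
include h

omit [Finite G] h in
theorem ob2_ne {x₅ : G} (k4 : z₄ ∈ R.V 4) (k5 : x₅ ∈ R.U 5) (k6 : z₆ ∈ R.V 6)
    (e : w * z * w⁻¹ = z * z₄ * x₅ * z₆) (ne : x₅ ≠ 1) : w ≠ 1 := by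
  rintro rfl
  have h1 : z₄ * (x₅ * z₆) = 1 * 1 := by
    apply mul_left_cancel (a := z)
    rw [← mul_assoc, ← mul_assoc, ← e]; group
  have h2 := (R.left_inj (V_U k4) (one_mem _) (k := 5) (l := 6)
    (mul_mem (mem_seg k5 (by omega) (by omega)) (mem_seg (V_U k6) (by omega) (by omega))) (one_mem _) (by omega) h1).2
  exact ne (R.left_inj k5 (one_mem _) (k := 6) (l := 6) (mem_seg (V_U k6) le_rfl le_rfl) (one_mem _) (by omega)
    (by rw [h2, one_mul])).1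

theorem b5 (hx : x ∈ R.U 5) (ne : x ≠ 1) (hw : w ∈ R.V 6) : ∃ a ∈ R.U 8, ⁅a, x⁆ = w := by
  by_cases w1 : w = 1
  · exact ⟨1, one_mem _, by simp [w1]⟩
  obtain ⟨z₀, hz₀, a₀, ha₀, d₃, h3, d₄, h4, d₅, h5, y, hy, e1, ne3⟩ := h.b1
  obtain ⟨w', hw', z₄, k4, z₆, k6, e2⟩ := h.b3_surj hz₀ (ob_ne h3 h4 h5 hy e1 ne3) hx
  have k1 := h.b2 hz₀ ha₀ hw' h3 h4 h5 hy e1 k4 hx k6 e2
  have k2 : ⁅a₀, x⁆ ≠ 1 := by
    rw [← k1, Ne, commutatorElement_eq_one_iff_commute]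
    intro c
    exact (h.nd (i := 8) (j := 3) (by decide) (by omega) hw' h3 c).elim ne3 (ob2_ne k4 hx k6 e2 ne)
  have k3 : ⁅a₀, x⁆ ∈ R.V 6 := h.c3 (i := 5) (j := 8) (by decide) (by omega) hx ha₀
  obtain ⟨a', ha', a1⟩ := R.exists_ne 1
  obtain ⟨p', q', hm'⟩ := exists_mu (j := 9) ha' a1 (by omega)
  obtain ⟨a, ha, ea⟩ := h.surj (i := 6) (j := 1) (k := 4) (by decide) (by omega) hw w1
    (V_conj hm'.act k3 ⟨Or.inr rfl, by omega⟩)
  have a1' : a ≠ 1 := by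
    rintro rfl
    rw [commutatorElement_one_left] at ea
    exact k2 (conj_eq_one_iff.1 ea.symm)
  obtain ⟨p, q, hm⟩ := exists_mu (j := 9) ha a1' (by omega)
  obtain ⟨k5, k7⟩ := h.phi (i := 6) (k := 4) (by decide) (by omega) hw hm (by omega)
  rw [commutatorElement_def, k5, (V_comm hw (V_U k7) (by omega)).eq, mul_inv_cancel_right] at ea
  have cm : ∀ {p a q : G}, R.Mu 1 9 p a q → Commute x (p * a * q) := fun hm =>
    ((h.c2 (by decide) (by omega) hx hm.p_mem).mul_right (h.c2 (by decide) (by omega) hx hm.u_mem)).mul_right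
      (h.c2 (by decide) (by omega) hx hm.q_mem)
  have c1 := ((cm hm).inv_right.mul_right (cm hm')).eq
  have hg := (hm.act.inv (Or.inr ⟨rfl, rfl⟩)).mul hm'.act (d := 0) (δ := 1) (by norm_num)
  refine ⟨_, hg.conj ha₀ (by omega), ?_⟩
  generalize p * a * q = m at ea c1
  generalize p' * a' * q' = m' at ea c1
  calc _ = m⁻¹ * m' * ⁅a₀, (m⁻¹ * m')⁻¹ * (x * (m⁻¹ * m'))⁆ * (m⁻¹ * m')⁻¹ := by
        simp only [commutatorElement_def]; group
    _ = m⁻¹ * (m' * ⁅a₀, x⁆ * m'⁻¹) * m := by rw [c1, inv_mul_cancel_left]; group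
    _ = w := by rw [← ea]; group

theorem b5' (hz : z ∈ R.V 2) (ne : z ≠ 1) (hx : x ∈ R.U 3) :
    ∃ a ∈ R.U 8, ∃ z₄ ∈ R.V 4, ∃ x₅ ∈ R.U 5, ∃ z₆ ∈ R.V 6, a * z * a⁻¹ = z * x * z₄ * x₅ * z₆ := by
  obtain ⟨w, hw, w1⟩ := h.ob_neV (i := 8) (by decide)
  obtain ⟨z₄, k4, x₅, k5, z₆, k6, e, -⟩ := h.zz_dec hz hw
  have x1 : x₅ ≠ 1 := by
    rintro rfl
    exact (h.b3 hz hw k4 k6 (by rw [e, mul_one])).elim ne w1
  obtain ⟨a, ha, ea⟩ := h.b5 k5 x1 (h.cv 8 3 6 (by decide) (by omega) w hw x hx)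
  obtain ⟨x₃, h3, y₄, h4, y₅, h5, y₆, h6, e'⟩ := h.e6 hz ha
  have k := h.b2 hz ha hw h3 (V_U h4) h5 h6 e' k4 k5 k6 e
  rw [h.nd_left (i := 8) (j := 3) (by decide) (by omega) hw w1 h3 hx (k.trans ea)] at e'
  exact ⟨a, ha, y₄, h4, y₅, h5, y₆, h6, e'⟩

theorem b6_aux (hz : z ∈ R.V 2) (ne : z ≠ 1) (ha : a ∈ R.U 8) (k4 : z₄ ∈ R.V 4) (k6 : z₆ ∈ R.V 6)
    (e : a * z * a⁻¹ = z * z₄ * z₆) : a * a = 1 ∧ ∀ u, u ∈ R.U 3 ∨ u ∈ R.U 5 → Commute a u := by
  have c1 : Commute a (z₄ * z₆) := (V_comm k4 ha (by omega)).symm.mul_right (V_comm k6 ha (by omega)).symm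
  have c2 := (V_comm k4 (V_U k6) (by omega)).eq
  have aa : a * a = 1 := by
    obtain ⟨d, hd, y, hy, e', k⟩ := h.a5' hz (mul_mem ha ha)
    have k1 : z * (d * y) = z * (1 * 1) := by
      calc _ = a * (a * z * a⁻¹) * a⁻¹ := by rw [← mul_assoc, ← e']; group
        _ = a * z * a⁻¹ * (a * (z₄ * z₆)) * a⁻¹ := by (conv_lhs => rw [e]); group
        _ = z * z₄ * (z₆ * z₄) * z₆ := by rw [c1.eq, e]; group
        _ = z * (z₄ * z₄) * (z₆ * z₆) := by rw [← c2]; group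
        _ = _ := by rw [h.vsq (by decide) k4, h.vsq (by decide) k6]; group
    exact (k (R.right_inj (V_U hy) (one_mem _) hd (one_mem _) (by omega) (mul_left_cancel k1)).2).resolve_right ne
  have A : ∀ u ∈ R.U 5, Commute a u := by
    intro u hu
    obtain ⟨w, hw, y₄, h4, y₆, h6, e'⟩ := h.b3_surj hz ne hu
    have := h.b2 hz ha hw (one_mem _) (V_U k4) (one_mem _) k6 (by rw [e]; group) h4 hu h6 e'
    rw [commutatorElement_one_left] at this
    exact commutatorElement_eq_one_iff_commute.1 this.symm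
  refine ⟨aa, fun u hu => hu.elim (fun hu => ?_) (A u)⟩
  obtain ⟨b, hb, y₄, h4, y₅, h5, y₆, h6, e'⟩ := h.b5' hz ne hu
  have c3 := (h.ci 8 a ha aa b hb).eq
  have c4 : Commute a (y₄ * y₅ * y₆) :=
    ((V_comm h4 ha (by omega)).symm.mul_right (A _ h5)).mul_right (V_comm h6 ha (by omega)).symm
  have c5 : Commute b (z₄ * z₆) := (V_comm k4 hb (by omega)).symm.mul_right (V_comm k6 hb (by omega)).symm
  have hs : u * (y₄ * y₅ * y₆) ∈ seg R.U 3 6 := mul_mem (mem_seg hu (by omega) (by omega)) (mul_mem (mul_mem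
    (mem_seg (V_U h4) (by omega) (by omega)) (mem_seg h5 (by omega) (by omega))) (mem_seg (V_U h6) (by omega) (by omega)))
  have c6 : Commute (z₄ * z₆) (u * (y₄ * y₅ * y₆)) :=
    (V_comm_seg k4 hs (by omega)).mul_left (V_comm_seg k6 hs (by omega))
  have e'' : b * z * b⁻¹ = z * (u * (y₄ * y₅ * y₆)) := by rw [e']; group
  generalize y₄ * y₅ * y₆ = Y at c4 c6 e''
  have k1 : z * (z₄ * z₆) * (a * u * a⁻¹) * Y = z * (z₄ * z₆) * u * Y := by
    calc _ = (a * z * a⁻¹) * (a * u * a⁻¹) * (a * Y * a⁻¹) := by rw [c4.eq, e]; group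
      _ = a * (b * z * b⁻¹) * a⁻¹ := by rw [e'']; group
      _ = (a * b) * z * (a * b)⁻¹ := by group
      _ = b * (a * z * a⁻¹) * b⁻¹ := by rw [c3]; group
      _ = b * z * b⁻¹ * (b * (z₄ * z₆)) * b⁻¹ := by rw [e]; group
      _ = z * (u * Y * (z₄ * z₆)) := by rw [c5.eq, e'']; group
      _ = _ := by rw [← c6.eq]; group
  exact mul_inv_eq_iff_eq_mul.1 (mul_left_cancel (mul_right_cancel k1))

theorem b6 (hz : z ∈ R.V 2) (ne : z ≠ 1) (ha : a ∈ R.U 8) (k4 : z₄ ∈ R.V 4) (k6 : z₆ ∈ R.V 6)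
    (e : a * z * a⁻¹ = z * z₄ * z₆) : a = 1 := by
  by_contra a1
  obtain ⟨aa, A⟩ := h.b6_aux hz ne ha k4 k6 e
  obtain ⟨p, q, hm⟩ := exists_mu (j := 0) ha a1 (by omega)
  obtain ⟨d, hd, e1, hy⟩ := h.a5 hz hm
  have e2 := Mu.conj_eq p a q z (V_comm hz hm.q_mem (by omega)).symm
  have k1 := (R.right_inj (V_U hy) (V_U k6) hd (mem_seg (V_U k4) (by omega) (by omega)) (by omega)
    (mul_left_cancel (a := z) (by rw [← mul_assoc, ← e1, e, mul_assoc]))).2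
  have k2 : z₆ ≠ 1 := fun e => ne (conj_eq_one_iff.1 (k1.trans e))
  rw [k1, e] at e2
  obtain ⟨-, B⟩ := (h.line 8 (-1) (Or.inr rfl) (by decide)).b6_aux (z := z₆) (a := p⁻¹) (z₄ := z₄) (z₆ := z)
    (by rwa [line_V (k := 6) (by norm_num)]) k2 (by rw [line_U (k := 0) (by norm_num)]; exact inv_mem hm.p_mem)
    (by rwa [line_V (k := 4) (by norm_num)]) (by rwa [line_V (k := 2) (by norm_num)]) (by
      rw [inv_inv, ← e2, (V_comm hz (V_U k4) (by omega)).eq, mul_assoc, (V_comm hz (V_U k6) (by omega)).eq,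
        ← mul_assoc, (V_comm k4 (V_U k6) (by omega)).eq])
  obtain ⟨x, hx, x1⟩ := R.exists_ne 3
  have c1 : Commute p⁻¹ x := B x (Or.inr (by rwa [line_U (k := 3) (by norm_num)]))
  have c2 : Commute (p * a * q) x := by
    rw [(hm.invol aa).1]
    exact ((Commute.inv_left_iff.1 c1).mul_left (A x (Or.inl hx))).mul_left c1
  have k3 : p * a * q * x * (p * a * q)⁻¹ ∈ R.U 5 := hm.act.conj hx (by omega)
  rw [c2.eq, mul_inv_cancel_right] at k3
  exact x1 (R.inf_U hx k3 (by omega))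

theorem ker58 (hx : x ∈ R.U 5) (ne : x ≠ 1) (ha : a ∈ R.U 8) (hc : Commute a x) : a ∈ R.V 8 := by
  obtain ⟨z, hz, z1⟩ := h.ob_neV (i := 2) (by decide)
  obtain ⟨w, hw, z₄, k4, z₆, k6, e⟩ := h.b3_surj hz z1 hx
  obtain ⟨x₃, h3, y₄, h4, y₅, h5, y₆, h6, e'⟩ := h.e6 hz ha
  have k := h.b2 hz ha hw h3 (V_U h4) h5 h6 e' k4 hx k6 e
  rw [commutatorElement_eq_one_iff_commute.2 hc, commutatorElement_eq_one_iff_commute] at k
  obtain rfl := (h.nd (i := 8) (j := 3) (by decide) (by omega) hw h3 k).resolve_right (ob2_ne k4 hx k6 e ne)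
  obtain ⟨w', hw', z₄', k4', z₆', k6', e''⟩ := h.b3_surj hz z1 h5
  have c1 : Commute w' (y₄ * y₅ * y₆) := ((V_comm hw' (V_U h4) (by omega)).mul_right
    (V_comm hw' h5 (by omega))).mul_right (V_comm hw' (V_U h6) (by omega))
  have c2 : Commute z₆' (y₄ * y₅) := (V_comm k6' (V_U h4) (by omega)).mul_right (V_comm k6' h5 (by omega))
  have c3 := (V_comm h4 h5 (by omega)).eq
  have k1 := h.b6 hz z1 (mul_mem (V_U hw') ha) (mul_mem k4' h4) (mul_mem k6' h6) (by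
    calc _ = w' * (a * z * a⁻¹) * w'⁻¹ := by group
      _ = w' * z * w'⁻¹ * (w' * (y₄ * y₅ * y₆)) * w'⁻¹ := by rw [e']; group
      _ = z * z₄' * y₅ * (z₆' * (y₄ * y₅)) * y₆ := by rw [c1.eq, e'']; group
      _ = z * z₄' * (y₅ * y₄) * y₅ * z₆' * y₆ := by rw [c2.eq]; group
      _ = z * z₄' * y₄ * (y₅ * y₅) * z₆' * y₆ := by rw [← c3]; group
      _ = _ := by rw [h.xsq (by decide) h5]; group)
  rw [eq_inv_of_mul_eq_one_right k1]
  exact inv_mem hw' 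

theorem ob2_ker {i j : ℤ} (hi : Odd i) (e : j = i + 3 ∨ j = i - 3) (hx : x ∈ R.U i) (ne : x ≠ 1) (ha : a ∈ R.U j)
    (hc : Commute a x) : a ∈ R.V j := by
  obtain ⟨t, ht⟩ := hi
  rcases e with e | e
  · have := (h.line (i - 5) 1 (Or.inl rfl) ⟨t - 2, by omega⟩).ker58 (x := x) (a := a)
      (by rwa [line_U (k := i) (by omega)]) ne (by rwa [line_U (k := j) (by omega)]) hc
    rwa [line_V (k := j) (by omega)] at this
  · have := (h.line (i + 5) (-1) (Or.inr rfl) ⟨t + 3, by omega⟩).ker58 (x := x) (a := a)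
      (by rwa [line_U (k := i) (by omega)]) ne (by rwa [line_U (k := j) (by omega)]) hc
    rwa [line_V (k := j) (by omega)] at this

theorem ob2_b7 (hu : u ∈ R.U 4) (hv : v ∈ R.U 8) : ∃ c₅ ∈ R.U 5, ∃ c₆ ∈ R.V 6, ⁅u, v⁆ = c₅ * c₆ := by
  have A : ∀ e ∈ R.E, Commute u e := by
    intro e he
    obtain ⟨z₂, h2, x₃, h3, z₄, h4, x₅, h5, z₆, h6, rfl⟩ := h.E_nf he
    exact ((((V_comm h2 hu (by omega)).symm.mul_right (R.adj_comm hu h3 (by omega))).mul_right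
      (V_comm h4 hu (by omega)).symm).mul_right (R.adj_comm hu h5 (by omega))).mul_right (V_comm h6 hu (by omega)).symm
  have B : ∀ e ∈ R.E, Commute e ⁅u, v⁆ := by
    intro e he
    have h1 := (A _ (h.E_conj8 (inv_mem hv) he)).inv_left.eq
    show _ = _
    calc e * ⁅u, v⁆ = (e * u) * v * u⁻¹ * v⁻¹ := by rw [commutatorElement_def]; group
      _ = u * v * (v⁻¹ * e * v⁻¹⁻¹ * u⁻¹) * v⁻¹ := by rw [← (A e he).eq]; group
      _ = ⁅u, v⁆ * e := by rw [← h1, commutatorElement_def]; group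
  obtain ⟨y, hy, c₇, h7, e1⟩ := R.right (k := 6) (R.comm_mem (k := 5) (l := 7) hu hv (by omega)).1 (by omega)
  obtain ⟨c₅, h5, c₆, h6, rfl⟩ := R.left (k := 6) hy (by omega)
  have h6' : c₆ ∈ R.U 6 := seg_self h6 rfl rfl
  obtain ⟨z, hz, z1⟩ := h.ob_neV (i := 2) (by decide)
  have k1 := B z (V2_E hz)
  rw [e1] at k1
  have k1' := (V_comm_seg hz hy (by omega)).inv_right.mul_right k1
  rw [inv_mul_cancel_left] at k1'
  obtain rfl := (h.nd (i := 2) (j := 7) (by decide) (by omega) hz h7 k1'.symm).resolve_right z1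
  obtain ⟨x, hx, x1⟩ := R.exists_ne 3
  have k2 := B x (h.U3_E hx)
  rw [e1, mul_one] at k2
  have k2' := (h.c2 (i := 3) (j := 5) (by decide) (by omega) hx h5).inv_right.mul_right k2
  rw [inv_mul_cancel_left] at k2'
  exact ⟨c₅, h5, c₆, h.ob2_ker (i := 3) (by decide) (by omega) hx x1 h6' k2'.symm, by rw [e1, mul_one]⟩

theorem b7_aux (hu : u ∈ R.U 4) (hv : v ∈ R.U 8) : ⁅u, v⁆ ∈ R.V 6 := by
  obtain ⟨c₅, h5, c₆, h6, e⟩ := h.ob2_b7 hu hv
  obtain ⟨c₇, h7, d₆, k6, e'⟩ := (h.line 12 (-1) (Or.inr rfl) (by decide)).ob2_b7 (u := v) (v := u)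
    (by rwa [line_U (k := 8) (by norm_num)]) (by rwa [line_U (k := 4) (by norm_num)])
  rw [line_U (k := 7) (by norm_num)] at h7
  rw [line_V (k := 6) (by norm_num)] at k6
  have k1 : c₅ = (c₇ * d₆)⁻¹ * c₆⁻¹ := by rw [← e', commutatorElement_inv, e]; group
  have k2 : c₅ = 1 := R.eq_one_left h5 (k := 6) (l := 7) (k1 ▸ mul_mem (inv_mem (mul_mem
    (mem_seg h7 (by omega) (by omega)) (mem_seg (V_U k6) (by omega) (by omega))))
    (inv_mem (mem_seg (V_U h6) (by omega) (by omega)))) (by omega)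
  rw [e, k2, one_mul]
  exact h6

theorem b7 (hu : u ∈ R.U 4) (hv : v ∈ R.U 8) : Commute u v := by
  by_cases v1 : v = 1
  · rw [v1]; exact Commute.one_right u
  obtain ⟨p, q, hm⟩ := exists_mu (j := 0) hv v1 (by omega)
  have A : ∀ r ∈ R.U 0, ⁅r, u⁆ ∈ R.V 2 := by
    intro r hr
    have := (h.line (-4) 1 (Or.inl rfl) (by decide)).b7_aux (u := r) (v := u)
      (by rwa [line_U (k := 0) (by norm_num)]) (by rwa [line_U (k := 4) (by norm_num)])
    rwa [line_V (k := 2) (by norm_num)] at this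
  have hy : ⁅v, u⁆ ∈ R.V 6 := by
    rw [← commutatorElement_inv]; exact inv_mem (h.b7_aux hu hv)
  by_contra hn
  have y1 : ⁅v, u⁆ ≠ 1 := fun e => hn (commutatorElement_eq_one_iff_commute.1 e).symm
  have h1 := A q hm.q_mem
  have h2 := A p hm.p_mem
  have h3 : p * v * q * ⁅q, u⁆ * (p * v * q)⁻¹ ∈ R.V 6 := V_conj hm.act h1 ⟨Or.inr rfl, by omega⟩
  have h4 : p * v * q * u * (p * v * q)⁻¹ * u⁻¹ ∈ R.U 4 := mul_mem (hm.act.conj hu (by omega)) (inv_mem hu)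
  have c1 := (V_comm h1 hm.q_mem (by omega)).eq
  have k1 : p * v * q * u * (p * v * q)⁻¹ * u⁻¹ =
      p * v * q * ⁅q, u⁆ * (p * v * q)⁻¹ * (p * ⁅v, u⁆ * p⁻¹) * ⁅p, u⁆ := by
    calc _ = p * v * (⁅q, u⁆ * q) * (p * v * q)⁻¹ * (p * ⁅v, u⁆ * p⁻¹) * ⁅p, u⁆ := by
          simp only [commutatorElement_def]; group
      _ = _ := by rw [c1]; group
  generalize p * v * q * u * (p * v * q)⁻¹ * u⁻¹ = u₄ at h4 k1
  generalize p * v * q * ⁅q, u⁆ * (p * v * q)⁻¹ = t at h3 k1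
  generalize ⁅p, u⁆ = s at h2 k1
  generalize ⁅v, u⁆ = y at hy y1 k1
  have h5 : u₄ ∈ R.V 4 := h.E_U4 (k1 ▸ mul_mem (mul_mem (V6_E h3) (h.E_conj0 hm.p_mem (V6_E hy))) (V2_E h2)) h4
  have hs : u₄ * s⁻¹ ∈ seg R.U 2 4 :=
    mul_mem (mem_seg h4 (by omega) (by omega)) (mem_seg (inv_mem (V_U h2)) (by omega) (by omega))
  have k2 : p * y * p⁻¹ = t⁻¹ * (u₄ * s⁻¹) := by rw [k1]; group
  have k3 := (R.right_inj (V_U hy) (V_U (inv_mem h3)) (R.comm_mem (k := 1) (l := 5) hm.p_mem (V_U hy) (by omega)).1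
    (seg_mono hs (by omega) (by omega)) (by omega) (by
      rw [← (V_comm_seg (inv_mem h3) hs (by omega)).eq, ← k2, commutatorElement_def]; group)).2
  rw [← k3, ← mul_assoc] at k2
  exact hm.p_ne ((h.line 8 (-1) (Or.inr rfl) (by decide)).b6 (z := y) (a := p) (z₄ := u₄) (z₆ := s⁻¹)
    (by rwa [line_V (k := 6) (by norm_num)]) y1 (by rw [line_U (k := 0) (by norm_num)]; exact hm.p_mem)
    (by rwa [line_V (k := 4) (by norm_num)]) (by rw [line_V (k := 2) (by norm_num)]; exact inv_mem h2) k2)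

theorem oct2 : R.Oct2 := by
  refine { h with
    c2 := fun i j hi e u hu v hv => h.c2 hi (Or.inl e) hu hv
    c4 := fun i j e u hu v hv => ?_
    c3 := fun i j k hi e x hx a ha => h.c3 hi e hx ha
    ker := fun i j hi e x hx ne a ha hc => h.ob2_ker hi e hx ne ha hc
    e5 := fun x hx a ha => h.e5 hx ha
    e6 := fun z hz a ha => h.e6 hz ha
    zz := fun z hz w hw z₄ h4 z₆ h6 e => h.b3 hz hw h4 h6 e }
  rcases Int.even_or_odd i with ⟨t, ht⟩ | hi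
  · exact (h.line (i - 4) 1 (Or.inl rfl) ⟨t - 2, by omega⟩).b7 (by rwa [line_U (k := i) (by omega)])
      (by rwa [line_U (k := j) (by omega)])
  · exact h.c2 hi (by omega) hu hv

end RD.Oct

end CfsgLib.Mouf
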