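import Cfsg.Agent.Lib.Mouf.OA
import Cfsg.Agent.Lib.Mouf.Fld

/-!
# Package OC: the field of an octagon (see `plans/MOUF.md`)
-/

set_option autoImplicit false

namespace CfsgLib.Mouf
open scoped commutatorElement

section
variable {G : Type*} [Group G]

theorem oc_refl {n ω c : G} (h : n * ω * n⁻¹ = ω⁻¹) (hc : Commute c n) (j : ℤ) :
    n * (ω ^ j * c * (ω ^ j)⁻¹) * n⁻¹ = ω ^ (-j) * c * (ω ^ (-j))⁻¹ := by
  have h1 : n * ω ^ j * n⁻¹ = ω ^ (-j) := by rw [← conj_zpow, h, inv_zpow']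
  rw [← h1]
  calc _ = n * ω ^ j * n⁻¹ * (n * c) * (ω ^ j)⁻¹ * n⁻¹ := by group
    _ = _ := by rw [← hc.eq]; group

theorem oc_zpow {U : ℤ → Subgroup G} {ω : G} (h : Act U ω 2 1) (m : ℤ) : Act U (ω ^ m) (2 * m) 1 := by
  induction m using Int.induction_on with
  | zero => simpa using Act.one
  | succ m ih => rw [zpow_add_one]; exact ih.mul h ⟨by ring, by ring⟩
  | pred m ih => rw [zpow_sub_one]; exact ih.mul (h.inv (Or.inl ⟨rfl, rfl⟩)) ⟨by ring, by ring⟩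

end

open RD RD.Oct in
theorem RD.Oct2.exists_O1 {G : Type*} [Group G] [Finite G] {R : RD 8 G} (h : R.Oct2) :
    ∃ (K : Type) (_ : Field K) (_ : Finite K), Nonempty (R.O1 K) := by
  have o := h.toOct
  obtain ⟨⟨e₈, he₈⟩, ne₈⟩ := Subgroup.ne_bot_iff_exists_ne_one.1 (o.neV 8 (by decide))
  have ne₈ : e₈ ≠ 1 := fun e => ne₈ (Subtype.ext e)
  obtain ⟨p₈, q₈, m₈⟩ := exists_mu (j := 0) (V_U he₈) ne₈ (by omega)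
  obtain ⟨rfl, i₈⟩ := m₈.invol (o.vsq (by decide) he₈)
  obtain ⟨e₁, he₁, ne₁⟩ := R.exists_ne 1
  obtain ⟨p₁, q₁, m₁⟩ := exists_mu (j := 9) he₁ ne₁ (by omega)
  obtain ⟨rfl, i₁⟩ := m₁.invol (o.xsq (by decide) he₁)
  have c₈ : ∀ y ∈ R.V 4, Commute y (p₈ * e₈ * p₈⁻¹) := fun y hy => mu_comm4 m₈ hy
  have c₁ : ∀ y ∈ R.U 5, Commute y (p₁ * e₁ * p₁⁻¹) := fun y hy =>
    ((h.c4 5 9 rfl y hy _ m₁.p_mem).mul_right (h.c4 1 5 rfl _ he₁ y hy).symm).mul_right (h.c4 5 9 rfl y hy _ m₁.q_mem)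
  have a₈ : Act R.U (p₈ * e₈ * p₈⁻¹) 8 (-1) := m₈.act' rfl
  have a₁ : Act R.U (p₁ * e₁ * p₁⁻¹) 10 (-1) := m₁.act' rfl
  have m₇ := m₁.conj (i' := 7) (j' := -1) a₈ (by omega)
  obtain ⟨n₈, d₈⟩ : ∃ n, n = p₈ * e₈ * p₈⁻¹ := ⟨_, rfl⟩
  obtain ⟨n₁, d₁⟩ : ∃ n, n = p₁ * e₁ * p₁⁻¹ := ⟨_, rfl⟩
  rw [← d₈] at i₈ c₈ a₈ m₇
  rw [← d₁] at i₁ c₁ a₁
  obtain ⟨ω, dω⟩ : ∃ ω, ω = n₁ * n₈ := ⟨_, rfl⟩
  have aω : Act R.U ω 2 1 := dω ▸ a₁.mul a₈ (by norm_num)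
  have j₈ : n₈⁻¹ = n₈ := inv_eq_of_mul_eq_one_right i₈
  have j₁ : n₁⁻¹ = n₁ := inv_eq_of_mul_eq_one_right i₁
  have r₈ : n₈ * ω * n₈⁻¹ = ω⁻¹ := by rw [dω, mul_inv_rev, j₁, ← mul_assoc, mul_inv_cancel_right, j₈]
  have r₁ : n₁ * ω * n₁⁻¹ = ω⁻¹ := by rw [dω, mul_inv_rev, ← mul_assoc, i₁, one_mul, j₈]
  have h₇ := m₇.u_mem
  have ne₇ := m₇.ne
  have P : ∀ z ∈ R.V 2, ⁅n₈ * e₁ * n₈⁻¹, z⁆ = ω * z * ω⁻¹ := by
    intro z hz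
    obtain ⟨k1, k2⟩ := o.phi (i := 2) (k := 4) (by decide) (by omega) hz m₇ (by omega)
    have k3 : n₈ * p₁ * n₈⁻¹ * (n₈ * e₁ * n₈⁻¹) * (n₈ * p₁⁻¹ * n₈⁻¹) = n₈ * ω := by
      calc _ = n₈ * (p₁ * e₁ * p₁⁻¹ * n₈⁻¹) := by group
        _ = _ := by rw [← d₁, j₈, dω]
    rw [k3] at k1 k2
    rw [commutatorElement_def, k1, (V_comm hz (V_U k2) (by omega)).eq, mul_inv_cancel_right]
    calc _ = n₈ * (ω * z * ω⁻¹) * n₈⁻¹ := by group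
      _ = _ := by rw [← (c₈ _ (V_conj aω hz ⟨Or.inl rfl, by omega⟩)).eq]; group
  obtain ⟨e₇, d₇⟩ : ∃ e, e = n₈ * e₁ * n₈⁻¹ := ⟨_, rfl⟩
  rw [← d₇] at h₇ ne₇ P
  have hv : (ω ^ (3 : ℤ))⁻¹ * e₈ * ω ^ (3 : ℤ) ∈ R.V 2 := V_conj_inv (oc_zpow aω 3) he₈ ⟨Or.inl rfl, by omega⟩
  have v1 : (ω ^ (3 : ℤ))⁻¹ * e₈ * ω ^ (3 : ℤ) ≠ 1 := fun e => ne₈ (by
    rw [show e₈ = ω ^ (3 : ℤ) * ((ω ^ (3 : ℤ))⁻¹ * e₈ * ω ^ (3 : ℤ)) * (ω ^ (3 : ℤ))⁻¹ by group, e]; group)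
  obtain ⟨v₀, dv⟩ : ∃ v, v = (ω ^ (3 : ℤ))⁻¹ * e₈ * ω ^ (3 : ℤ) := ⟨_, rfl⟩
  rw [← dv] at hv v1
  let H : Set G := {g | ∃ w ∈ R.V 8, ∃ p q, R.Mu 8 0 p w q ∧ g = n₈ * (p * w * q)}
  have HA : ∀ g ∈ H, Act R.U g 0 1 := by
    rintro _ ⟨w, -, p, q, hm, rfl⟩
    exact a₈.mul hm.act (by norm_num)
  have HC : ∀ g ∈ H, ∀ y ∈ R.V 4, Commute y g := by
    rintro _ ⟨w, -, p, q, hm, rfl⟩ y hy
    exact (c₈ y hy).mul_right (mu_comm4 hm hy)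
  have HT : ∀ v ∈ R.V 2, v ≠ 1 → ∃ g ∈ H, g * v₀ * g⁻¹ = v := by
    intro v hv' ne
    obtain ⟨w, hw, p, q, hm, e⟩ := o.mu_surj hv v1 (V_conj_inv a₈ hv' (j := 6) ⟨Or.inr rfl, by omega⟩)
      (fun e => ne (by rw [show v = n₈ * (n₈⁻¹ * v * n₈) * n₈⁻¹ by group, e]; group))
    refine ⟨_, ⟨w, hw, p, q, hm, rfl⟩, ?_⟩
    calc _ = n₈ * (p * w * q * v₀ * (p * w * q)⁻¹) * n₈⁻¹ := by group
      _ = v := by rw [e]; group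
  obtain ⟨K, _, _, ζ, ζadd, ζinj, ζV, ζ1, ζH, ζH'⟩ := exists_field (R.V 2) H hv v1
    (fun v hv w hw => V_comm hv (V_U hw) (by omega))
    (fun g hg v hv => V_conj (HA g hg) hv ⟨Or.inl rfl, by omega⟩)
    (by
      rintro _ ⟨w, hw, p, q, hm, rfl⟩ _ ⟨w', hw', p', q', hm', rfl⟩
      by_cases c : w * w' = 1
      · refine Or.inr fun v hv => ?_
        obtain rfl : w = w' := by
          rw [eq_inv_of_mul_eq_one_left c, inv_eq_of_mul_eq_one_right (o.vsq (by decide) hw')]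
        obtain ⟨rfl, rfl⟩ := hm.unique hm'
        exact o.vsq (i := 2) (by decide) (V_conj (HA _ ⟨w, hw, p, q, hm, rfl⟩) hv ⟨Or.inl rfl, by omega⟩)
      · obtain ⟨p'', q'', hm''⟩ := exists_mu (j := 0) (V_U (mul_mem hw hw')) c (by omega)
        refine Or.inl ⟨_, ⟨_, mul_mem hw hw', p'', q'', hm'', rfl⟩, fun v hv => ?_⟩
        calc _ = n₈ * (p'' * (w * w') * q'' * v * (p'' * (w * w') * q'')⁻¹) * n₈⁻¹ := by group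
          _ = _ := by rw [o.mu_add hw hw' hm hm' hm'' hv]; group)
    (by
      intro g hg g' hg'
      have k1 : Act R.U (g * g') 0 1 := (HA g hg).mul (HA g' hg') (by norm_num)
      have k2 : ∀ y ∈ R.V 4, Commute y (g * g') := fun y hy => (HC g hg y hy).mul_right (HC g' hg' y hy)
      generalize g * g' = b at k1 k2
      obtain ⟨k, hk, e⟩ := HT _ (V_conj k1 hv ⟨Or.inl rfl, by omega⟩) fun e => v1 (conj_eq_one_iff.1 e)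
      refine ⟨k, hk, fun v hv' => ?_⟩
      have k3 := o.nd_left (i := 2) (j := 7) (by decide) (by omega) hv v1 ((HA k hk).conj_inv h₇ (by omega))
        (k1.conj_inv h₇ (by omega)) (by rw [o.comm_tor (HA k hk) (HC k hk) h₇ hv, o.comm_tor k1 k2 h₇ hv, e])
      exact o.nd_right (i := 2) (j := 7) (by decide) (by omega) (V_conj (HA k hk) hv' ⟨Or.inl rfl, by omega⟩)
        (V_conj k1 hv' ⟨Or.inl rfl, by omega⟩) h₇ ne₇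
        (by rw [← o.comm_tor (HA k hk) (HC k hk) h₇ hv', ← o.comm_tor k1 k2 h₇ hv', k3]))
    HT
  have hζ : ∀ t, ζ t ∈ R.V 2 := fun t => (ζV _).2 ⟨t, rfl⟩
  have hζ4 : ∀ t, ω * ζ t * ω⁻¹ ∈ R.V 4 := fun t => V_conj aω (hζ t) ⟨Or.inl rfl, by omega⟩
  choose ξ hξ eξ using fun r => o.surj (i := 2) (j := 7) (k := 4) (by decide) (by omega) hv v1 (hζ4 r)
  have uξ : ∀ a ∈ R.U 7, ∀ r, ⁅a, v₀⁆ = ω * ζ r * ω⁻¹ → ξ r = a := fun a ha r e =>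
    o.nd_left (i := 2) (j := 7) (by decide) (by omega) hv v1 (hξ r) ha (by rw [eξ, e])
  have ζ0 : ζ 0 = 1 := by
    have := ζadd 0 0
    rw [add_zero] at this
    exact left_eq_mul.1 this
  have ξadd : ∀ s t, ξ (s + t) = ξ s * ξ t := by
    intro s t
    refine uξ _ (mul_mem (hξ s) (hξ t)) _ ?_
    calc _ = ξ s * ⁅ξ t, v₀⁆ * (ξ s)⁻¹ * ⁅ξ s, v₀⁆ := by simp only [commutatorElement_def]; group
      _ = _ := by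
        rw [eξ, eξ, ← (V_comm (hζ4 t) (hξ s) (by omega)).eq, add_comm, ζadd]; group
  have ξζ : ∀ r t, ⁅ξ r, ζ t⁆ = ω * ζ (t * r) * ω⁻¹ := by
    intro r t
    by_cases c : r = 0
    · rw [uξ 1 (one_mem _) r (by simp [c, ζ0])]
      simp [c, ζ0]
    obtain ⟨g, hg, e⟩ := ζH' r c
    have k1 : ∀ t, ⁅g⁻¹ * e₇ * g, ζ t⁆ = ω * ζ (r * t) * ω⁻¹ := fun t => by
      rw [o.comm_tor (HA g hg) (HC g hg) h₇ (hζ t), e, P _ (hζ _)]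
    rw [uξ _ ((HA g hg).conj_inv h₇ (by omega)) r (by rw [← ζ1, k1, mul_one]), k1, mul_comm r t]
  have n8z : ∀ (k : ℤ) t, n₈ * (ω ^ (k - 1) * ζ t * (ω ^ (k - 1))⁻¹) * n₈⁻¹ =
      ω ^ (4 - k - 1) * ζ t * (ω ^ (4 - k - 1))⁻¹ := by
    intro k t
    calc _ = n₈ * (ω ^ (k - 2) * (ω * ζ t * ω⁻¹) * (ω ^ (k - 2))⁻¹) * n₈⁻¹ := by group
      _ = _ := by rw [oc_refl r₈ (c₈ _ (hζ4 t))]; group
  have n1x : ∀ (k : ℤ) t, n₁ * (ω ^ (k - 3) * ξ t * (ω ^ (k - 3))⁻¹) * n₁⁻¹ =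
      ω ^ (4 - k - 3) * ξ t * (ω ^ (4 - k - 3))⁻¹ := by
    intro k t
    calc _ = n₁ * (ω ^ (k - 2) * (ω⁻¹ * ξ t * ω) * (ω ^ (k - 2))⁻¹) * n₁⁻¹ := by group
      _ = _ := by rw [oc_refl r₁ (c₁ _ (aω.conj_inv (hξ t) (by omega)))]; group
  have n8x : ∀ (k : ℤ) t, n₈ * (ω ^ (k - 3) * ξ t * (ω ^ (k - 3))⁻¹) * n₈⁻¹ =
      ω ^ (3 - k - 3) * ξ t * (ω ^ (3 - k - 3))⁻¹ := by
    intro k t
    have k1 : n₈ = ω⁻¹ * n₁ := by rw [dω, mul_inv_rev, inv_mul_cancel_right, j₈]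
    calc _ = ω⁻¹ * (n₁ * (ω ^ (k - 3) * ξ t * (ω ^ (k - 3))⁻¹) * n₁⁻¹) * ω := by rw [k1]; group
      _ = _ := by rw [n1x]; group
  have x01 : ω ^ ((0 : ℤ) - 3) * ξ 1 * (ω ^ ((0 : ℤ) - 3))⁻¹ = e₁ := by
    have := n8x 3 1
    rw [uξ e₇ h₇ 1 (by rw [P _ hv, ζ1])] at this ⊢
    rw [show (0 : ℤ) - 3 = 3 - 3 - 3 by norm_num, ← this, d₇, j₈]
    calc _ = (n₈ * n₈) * e₁ * (n₈ * n₈) := by group
      _ = _ := by rw [i₈]; group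
  have z41 : ω ^ ((4 : ℤ) - 1) * ζ 1 * (ω ^ ((4 : ℤ) - 1))⁻¹ = e₈ := by rw [ζ1, dv]; group
  refine ⟨K, inferInstance, inferInstance, ⟨{
    x := fun k t => ω ^ (k - 3) * ξ t * (ω ^ (k - 3))⁻¹
    z := fun k t => ω ^ (k - 1) * ζ t * (ω ^ (k - 1))⁻¹
    n1 := n₁
    n8 := n₈
    two := ?_
    xadd := fun k s t => by rw [ξadd]; group
    zadd := fun k s t => by rw [ζadd]; group
    xU := fun k g => ⟨fun hg => ?_, ?_⟩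
    zV := fun k g => ⟨fun hg => ?_, ?_⟩
    xinj := fun k t e => ?_
    zinj := fun k t e => ζinj t (conj_eq_one_iff.1 e)
    n1n1 := i₁
    n8n8 := i₈
    mu1 := ⟨p₁, by rw [x01]; exact ⟨m₁, d₁⟩⟩
    mu8 := ⟨p₈, by rw [z41]; exact ⟨m₈, d₈⟩⟩
    n1x := n1x
    n1z := fun k t => ?_
    n8x := n8x
    n8z := n8z
    xz := fun r t => ?_
    sc := fun v p q hm => ?_ }⟩⟩
  · rw [← one_add_one_eq_two]
    exact ζinj _ (by rw [ζadd, o.vsq (by decide) (hζ 1)])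
  · have k1 := (oc_zpow aω (k - 3)).conj_inv hg (j := 7) (by ring)
    obtain ⟨t, ht⟩ := (ζV _).1 (V_conj_inv aω (o.cv 2 7 4 (by decide) (by omega) _ hv _ k1) (j := 2)
      ⟨Or.inl rfl, by omega⟩)
    exact ⟨t, by rw [uξ _ k1 t (by rw [ht]; group)]; group⟩
  · rintro ⟨t, rfl⟩
    exact (oc_zpow aω (k - 3)).conj (hξ t) (by ring)
  · obtain ⟨t, ht⟩ := (ζV _).1 (V_conj_inv (oc_zpow aω (k - 1)) hg (j := 2) ⟨Or.inl rfl, by ring⟩)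
    exact ⟨t, by rw [ht]; group⟩
  · rintro ⟨t, rfl⟩
    exact V_conj (oc_zpow aω (k - 1)) (hζ t) ⟨Or.inl rfl, by ring⟩
  · have k1 := eξ t
    rw [conj_eq_one_iff.1 e, commutatorElement_one_left] at k1
    exact ζinj t (conj_eq_one_iff.1 k1.symm)
  · have k1 : n₁ = ω * n₈ := by rw [dω, mul_assoc, i₈, mul_one]
    calc _ = ω * (n₈ * (ω ^ (k - 1) * ζ t * (ω ^ (k - 1))⁻¹) * n₈⁻¹) * ω⁻¹ := by
          conv_lhs => rw [k1]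
          group
      _ = _ := by rw [n8z]; group
  · calc _ = ⁅ξ r, ζ t⁆ * ζ t := by rw [commutatorElement_def]; group
      _ = _ := by rw [ξζ, ← (V_comm (hζ t) (V_U (hζ4 _)) (by omega)).eq]; group
  · obtain ⟨s, hs⟩ := ζH _ ⟨_, V_conj (oc_zpow aω (4 - 1)) (hζ v) ⟨Or.inl rfl, by ring⟩, p, q, hm, rfl⟩
    refine ⟨s, fun t => ?_⟩
    have k1 := n8z 3 (s * t)
    generalize p * (ω ^ ((4 : ℤ) - 1) * ζ v * (ω ^ ((4 : ℤ) - 1))⁻¹) * q = m at hs ⊢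
    calc _ = n₈⁻¹ * (n₈ * m * ζ t * (n₈ * m)⁻¹) * n₈ := by group
      _ = n₈⁻¹ * (ω ^ ((4 : ℤ) - 3 - 1) * ζ (s * t) * (ω ^ ((4 : ℤ) - 3 - 1))⁻¹) * n₈ := by rw [hs]; group
      _ = _ := by rw [← k1]; group

end CfsgLib.Mouf
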