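import Cfsg.Agent.Lib.Mouf.Base2

/-!
# Package OS1: calculus for the coordinates O1 (see `plans/MOUF.md`)
-/

set_option autoImplicit false

namespace CfsgLib.Mouf
open scoped commutatorElement

theorem os1_conj {G : Type*} [Group G] (a b x : G) : a * b * x * (a * b)⁻¹ = a * (b * x * b⁻¹) * a⁻¹ := by group

theorem os1_zpow {G : Type*} [Group G] {w : G} {f : ℤ → G} (h : ∀ k, w * f k * w⁻¹ = f (k + 1)) (m k : ℤ) :
    w ^ m * f k * (w ^ m)⁻¹ = f (k + m) := by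
  induction m using Int.induction_on generalizing k with
  | zero => simp
  | succ m ih => rw [zpow_add_one, os1_conj, h, ih, add_assoc, add_comm 1]
  | pred m ih =>
    have := h (k - 1)
    rw [sub_add_cancel] at this
    rw [zpow_sub_one, os1_conj, ← this, show w⁻¹ * (w * f (k - 1) * w⁻¹) * w⁻¹⁻¹ = f (k - 1) by group, ih]
    congr 1
    ring

namespace RD.O1
variable {G : Type*} [Group G] {R : RD 8 G} {K : Type} [Field K] (O : R.O1 K) {i j k l : ℤ} {r s t a b : K} {g h u : G}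

/-- the rotation -/
def ω : G := O.n1 * O.n8

theorem a1 : Act R.U O.n1 10 (-1) := by
  obtain ⟨p, hm, e⟩ := O.mu1
  exact e ▸ hm.act' (by norm_num)

theorem a8 : Act R.U O.n8 8 (-1) := by
  obtain ⟨p, hm, e⟩ := O.mu8
  exact e ▸ hm.act' (by norm_num)

theorem aω : Act R.U O.ω 2 1 := by
  exact O.a1.mul O.a8 (by norm_num)

theorem aω_zpow (m : ℤ) : Act R.U (O.ω ^ m) (2 * m) 1 := by
  induction m using Int.induction_on with
  | zero => simpa using Act.one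
  | succ m ih => rw [zpow_add_one]; exact ih.mul O.aω ⟨by ring, by norm_num⟩
  | pred m ih =>
    rw [zpow_sub_one]
    exact ih.mul (O.aω.inv (c' := -2) (by norm_num)) ⟨by ring, by norm_num⟩

theorem ωx (m : ℤ) (e : l = k + m) (t : K) : O.ω ^ m * O.x k t * (O.ω ^ m)⁻¹ = O.x l t := by
  refine e ▸ os1_zpow (f := fun k => O.x k t) (fun k => ?_) m k
  rw [ω, os1_conj, O.n8x, O.n1x, show 4 - (3 - k) = k + 1 by ring]

theorem ωz (m : ℤ) (e : l = k + m) (t : K) : O.ω ^ m * O.z k t * (O.ω ^ m)⁻¹ = O.z l t := by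
  refine e ▸ os1_zpow (f := fun k => O.z k t) (fun k => ?_) m k
  rw [ω, os1_conj, O.n8z, O.n1z, show 5 - (4 - k) = k + 1 by ring]

theorem n1_inv : O.n1⁻¹ = O.n1 := by
  exact inv_eq_of_mul_eq_one_right O.n1n1

theorem n8_inv : O.n8⁻¹ = O.n8 := by
  exact inv_eq_of_mul_eq_one_right O.n8n8

theorem x_mem (k : ℤ) (t : K) (e : j = 2 * k + 1) : O.x k t ∈ R.U j := by
  exact e ▸ (O.xU k _).2 ⟨t, rfl⟩

theorem z_mem (k : ℤ) (t : K) (e : j = 2 * k) : O.z k t ∈ R.V j := by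
  exact e ▸ (O.zV k _).2 ⟨t, rfl⟩

theorem z_memU (k : ℤ) (t : K) (e : j = 2 * k) : O.z k t ∈ R.U j := by
  exact V_U (O.z_mem k t e)

theorem exists_x (hg : g ∈ R.U j) (k : ℤ) (e : j = 2 * k + 1) : ∃ t, g = O.x k t := by
  exact ((O.xU k g).1 (e ▸ hg)).imp fun _ => Eq.symm

theorem exists_z (hg : g ∈ R.V j) (k : ℤ) (e : j = 2 * k) : ∃ t, g = O.z k t := by
  exact ((O.zV k g).1 (e ▸ hg)).imp fun _ => Eq.symm

include O in
theorem add_self (t : K) : t + t = 0 := by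
  rw [← two_mul, O.two, zero_mul]

theorem x_zero (k : ℤ) : O.x k 0 = 1 := by
  exact left_eq_mul.1 (show O.x k 0 = _ by rw [← O.xadd, add_zero])

theorem z_zero (k : ℤ) : O.z k 0 = 1 := by
  exact left_eq_mul.1 (show O.z k 0 = _ by rw [← O.zadd, add_zero])

theorem x_sq (k : ℤ) (t : K) : O.x k t * O.x k t = 1 := by
  rw [← O.xadd, O.add_self, O.x_zero]

theorem z_sq (k : ℤ) (t : K) : O.z k t * O.z k t = 1 := by
  rw [← O.zadd, O.add_self, O.z_zero]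

theorem x_inv (k : ℤ) (t : K) : (O.x k t)⁻¹ = O.x k t := by
  exact inv_eq_of_mul_eq_one_right (O.x_sq k t)

theorem z_inv (k : ℤ) (t : K) : (O.z k t)⁻¹ = O.z k t := by
  exact inv_eq_of_mul_eq_one_right (O.z_sq k t)

theorem x_inj (h : O.x k s = O.x k t) : s = t := by
  have := O.xinj k (s + t) (by rw [O.xadd, h, O.x_sq])
  linear_combination this - O.add_self t

theorem z_inj (h : O.z k s = O.z k t) : s = t := by
  have := O.zinj k (s + t) (by rw [O.zadd, h, O.z_sq])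
  linear_combination this - O.add_self t

theorem z_comm (k : ℤ) (t : K) (hu : u ∈ R.U j) (e : 2 * k - 4 ≤ j ∧ j ≤ 2 * k + 4) : Commute (O.z k t) u := by
  exact V_comm (O.z_mem k t rfl) hu (by norm_num; omega)

theorem zz_comm (s t : K) (e : k - 2 ≤ l ∧ l ≤ k + 2) : Commute (O.z k s) (O.z l t) := by
  exact O.z_comm k s (O.z_memU l t rfl) (by omega)

theorem zx_comm (s t : K) (e : k - 2 ≤ l ∧ l ≤ k + 1) : Commute (O.z k s) (O.x l t) := by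
  exact O.z_comm k s (O.x_mem l t rfl) (by omega)

theorem x_z (r t : K) (e : j = k + 2 ∧ l = k + 1 ∨ j = k - 3 ∧ l = k - 1) :
    O.x j r * O.z k t * (O.x j r)⁻¹ = O.z k t * O.z l (t * r) := by
  rcases e with ⟨rfl, rfl⟩ | ⟨rfl, rfl⟩
  · have := congrArg (MulAut.conj (O.ω ^ (k - 1))) (O.xz r t)
    simp only [map_mul, map_inv] at this
    simp only [MulAut.conj_apply] at this
    rwa [O.ωx (l := k + 2) _ (by ring), O.ωz (l := k) _ (by ring), O.ωz (l := k + 1) _ (by ring)] at this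
  · have := congrArg (MulAut.conj O.n8) (O.xz r t)
    simp only [map_mul, map_inv] at this
    simp only [MulAut.conj_apply, O.n8x, O.n8z] at this
    replace this := congrArg (MulAut.conj (O.ω ^ (k - 3))) this
    simp only [map_mul, map_inv] at this
    simp only [MulAut.conj_apply] at this
    rwa [O.ωx (l := k - 3) _ (by ring), O.ωz (l := k) _ (by ring), O.ωz (l := k - 1) _ (by ring)] at this

theorem z_x (r t : K) (e : j = k + 2 ∧ l = k + 1 ∨ j = k - 3 ∧ l = k - 1) :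
    O.z k t * O.x j r * (O.z k t)⁻¹ = O.x j r * O.z l (t * r) := by
  have h1 := O.x_z r t e
  have h2 : Commute (O.z l (t * r)) (O.x j r) := O.zx_comm _ _ (by omega)
  rw [mul_inv_eq_iff_eq_mul, mul_assoc, h2.eq] at h1
  rw [O.z_inv, mul_assoc, h1, ← mul_assoc, O.z_sq, one_mul]

/-- the action of the torus on `x` -/
theorem sc_x (hh : Act R.U h 0 1) (ha : Sc h (O.z k) a) (hb : Sc h (O.z l) b) (a0 : a ≠ 0)
    (e : j = k + 2 ∧ l = k + 1 ∨ j = k - 3 ∧ l = k - 1) : Sc h (O.x j) (b / a) := by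
  intro r
  obtain ⟨r', hr⟩ := O.exists_x (hh.conj (O.x_mem j r rfl) (k := 2 * j + 1) (by ring)) j rfl
  have := congrArg (MulAut.conj h) (O.x_z r 1 e)
  simp only [map_mul, map_inv] at this
  simp only [MulAut.conj_apply] at this
  rw [hr, ha, hb, O.x_z _ _ e] at this
  have := O.z_inj (mul_left_cancel this)
  rw [hr]
  congr 1
  field_simp
  linear_combination this

theorem sc_shift_z (m : ℤ) (ha : Sc h (O.z k) a) (e : l = k + m) : Sc (O.ω ^ m * h * (O.ω ^ m)⁻¹) (O.z l) a := by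
  intro t
  rw [← O.ωz m e, ← O.ωz m e, ← ha]
  group

theorem act_shift (m : ℤ) (hh : Act R.U h 0 1) : Act R.U (O.ω ^ m * h * (O.ω ^ m)⁻¹) 0 1 := by
  exact ((O.aω_zpow m).mul hh (d := 2 * m) (δ := 1) ⟨by ring, by norm_num⟩).mul
    ((O.aω_zpow m).inv (c' := -(2 * m)) (.inl ⟨rfl, rfl⟩)) ⟨by ring, by norm_num⟩

theorem os1_mem (k : ℤ) (a b c : K) : O.z k a * O.x k b * O.z (k + 1) c ∈ seg R.U (2 * k) (2 * k + 2) :=
  mul_mem (mul_mem (mem_seg (O.z_memU k a rfl) le_rfl (by omega)) (mem_seg (O.x_mem k b rfl) (by omega) (by omega)))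
    (mem_seg (O.z_memU (k + 1) c rfl) (by omega) (by omega))

theorem os1_nf3 {a₄ a₅ a₆ b₄ b₅ b₆ : K} (e : l = k + 1)
    (h : O.z k a₄ * O.x k a₅ * O.z l a₆ = O.z k b₄ * O.x k b₅ * O.z l b₆) : a₄ = b₄ ∧ a₅ = b₅ ∧ a₆ = b₆ := by
  have m : ∀ a b, O.z k a * O.x k b ∈ seg R.U (2 * k) (2 * k + 1) := fun a b =>
    mul_mem (mem_seg (O.z_memU k a rfl) le_rfl (by omega)) (mem_seg (O.x_mem k b rfl) (by omega) le_rfl)
  obtain ⟨h1, h2⟩ := R.right_inj (O.z_memU l a₆ rfl) (O.z_memU l b₆ rfl) (m _ _) (m _ _) (by omega) h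
  obtain ⟨h3, h4⟩ := R.left_inj (O.z_memU k a₄ rfl) (O.z_memU k b₄ rfl)
    (mem_seg (O.x_mem k a₅ rfl) le_rfl le_rfl) (mem_seg (O.x_mem k b₅ rfl) le_rfl le_rfl) (by omega) h1
  exact ⟨O.z_inj h3, O.x_inj h4, O.z_inj h2⟩

theorem os1_n8 (ha : Sc h (O.z k) a) (e : l = 4 - k) : Sc (O.n8 * h * O.n8⁻¹) (O.z l) a := fun t => by
  rw [e, ← O.n8z, ← O.n8z, ← ha]
  group

/-- uniqueness of the normal form in `E` -/
theorem nfE {a₂ a₃ a₄ a₅ a₆ b₂ b₃ b₄ b₅ b₆ : K}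
    (h : O.z 1 a₂ * O.x 1 a₃ * O.z 2 a₄ * O.x 2 a₅ * O.z 3 a₆ = O.z 1 b₂ * O.x 1 b₃ * O.z 2 b₄ * O.x 2 b₅ * O.z 3 b₆) :
    a₂ = b₂ ∧ a₃ = b₃ ∧ a₄ = b₄ ∧ a₅ = b₅ ∧ a₆ = b₆ := by
  have m : ∀ a₃ a₄ a₅ a₆, O.x 1 a₃ * (O.z 2 a₄ * O.x 2 a₅ * O.z 3 a₆) ∈ seg R.U 3 6 := fun _ _ _ _ =>
    mul_mem (mem_seg (O.x_mem (j := 3) 1 _ (by norm_num)) (by norm_num) (by norm_num))
      (seg_mono (O.os1_mem 2 _ _ _) (by norm_num) (by norm_num))
  obtain ⟨h1, h2⟩ := R.left_inj (O.z_memU (j := 2) 1 a₂ (by norm_num)) (O.z_memU 1 b₂ (by norm_num))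
    (m a₃ a₄ a₅ a₆) (m b₃ b₄ b₅ b₆) (by norm_num) (by simpa only [mul_assoc] using h)
  obtain ⟨h3, h4⟩ := R.left_inj (O.x_mem (j := 3) 1 a₃ (by norm_num)) (O.x_mem 1 b₃ (by norm_num))
    (O.os1_mem 2 _ _ _) (O.os1_mem 2 _ _ _) (by norm_num) h2
  exact ⟨O.z_inj h1, O.x_inj h3, O.os1_nf3 (by norm_num) h4⟩

theorem nf3 {a₄ a₅ a₆ b₄ b₅ b₆ : K} (h : O.z 2 a₄ * O.x 2 a₅ * O.z 3 a₆ = O.z 2 b₄ * O.x 2 b₅ * O.z 3 b₆) :
    a₄ = b₄ ∧ a₅ = b₅ ∧ a₆ = b₆ := by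
  exact O.os1_nf3 (by norm_num) h

theorem xx_comm (h : R.Oct2) (s t : K) (e : k - 2 ≤ l ∧ l ≤ k + 2) : Commute (O.x k s) (O.x l t) := by
  obtain e | e | e | e | e : l = k - 2 ∨ l = k - 1 ∨ l = k ∨ l = k + 1 ∨ l = k + 2 := by omega
  · exact (h.c4 _ _ (by omega) _ (O.x_mem l t rfl) _ (O.x_mem k s rfl)).symm
  · exact (h.c2 _ _ ⟨l, rfl⟩ (by omega) _ (O.x_mem l t rfl) _ (O.x_mem k s rfl)).symm
  · subst e
    exact show _ = _ by rw [← O.xadd, ← O.xadd, add_comm]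
  · exact h.c2 _ _ ⟨k, rfl⟩ (by omega) _ (O.x_mem k s rfl) _ (O.x_mem l t rfl)
  · exact h.c4 _ _ (by omega) _ (O.x_mem k s rfl) _ (O.x_mem l t rfl)

/-- multiplication of normal forms in `E` -/
theorem mulE (h : R.Oct2) (a₂ a₃ a₄ a₅ a₆ b₂ b₃ b₄ b₅ b₆ : K) :
    O.z 1 a₂ * O.x 1 a₃ * O.z 2 a₄ * O.x 2 a₅ * O.z 3 a₆ * (O.z 1 b₂ * O.x 1 b₃ * O.z 2 b₄ * O.x 2 b₅ * O.z 3 b₆) =
      O.z 1 (a₂ + b₂) * O.x 1 (a₃ + b₃) * O.z 2 (a₄ + b₄) * O.x 2 (a₅ + b₅) * O.z 3 (a₆ + b₆) := by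
  have e1 : ∀ s t, O.x 1 s * O.z 1 t = O.z 1 t * O.x 1 s := fun s t => (O.zx_comm t s (by norm_num)).eq.symm
  have e2 : ∀ s t, O.z 2 s * O.z 1 t = O.z 1 t * O.z 2 s := fun s t => (O.zz_comm t s (by norm_num)).eq.symm
  have e3 : ∀ s t, O.x 2 s * O.z 1 t = O.z 1 t * O.x 2 s := fun s t => (O.zx_comm t s (by norm_num)).eq.symm
  have e4 : ∀ s t, O.z 3 s * O.z 1 t = O.z 1 t * O.z 3 s := fun s t => (O.zz_comm t s (by norm_num)).eq.symm
  have e5 : ∀ s t, O.z 2 s * O.x 1 t = O.x 1 t * O.z 2 s := fun s t => (O.zx_comm s t (by norm_num)).eq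
  have e6 : ∀ s t, O.x 2 s * O.x 1 t = O.x 1 t * O.x 2 s := fun s t => (O.xx_comm h s t (by norm_num)).eq
  have e7 : ∀ s t, O.z 3 s * O.x 1 t = O.x 1 t * O.z 3 s := fun s t => (O.zx_comm s t (by norm_num)).eq
  have e8 : ∀ s t, O.x 2 s * O.z 2 t = O.z 2 t * O.x 2 s := fun s t => (O.zx_comm t s (by norm_num)).eq.symm
  have e9 : ∀ s t, O.z 3 s * O.z 2 t = O.z 2 t * O.z 3 s := fun s t => (O.zz_comm t s (by norm_num)).eq.symm
  have e10 : ∀ s t, O.z 3 s * O.x 2 t = O.x 2 t * O.z 3 s := fun s t => (O.zx_comm s t (by norm_num)).eq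
  have f : ∀ {a b : G}, a * b = b * a → ∀ c, a * (b * c) = b * (a * c) := fun e c => by
    rw [← mul_assoc, e, mul_assoc]
  simp only [O.zadd, O.xadd, mul_assoc]
  rw [f (e4 _ _), f (e3 _ _), f (e2 _ _), f (e1 _ _), f (e7 _ _), f (e6 _ _), f (e5 _ _), f (e9 _ _), f (e8 _ _),
    f (e10 _ _)]

/-- the action of `μ(x₁(s))` -/
theorem mu_x1 {p q : G} (hm : R.Mu 1 9 p (O.x 0 s) q) : p = O.x 4 s⁻¹ ∧ q = O.x 4 s⁻¹ ∧
    Act R.U (O.n1 * (p * O.x 0 s * q)) 0 1 ∧ Sc (O.n1 * (p * O.x 0 s * q)) (O.z 2) s⁻¹ ∧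
    Sc (O.n1 * (p * O.x 0 s * q)) (O.z 3) s := by
  obtain ⟨r, rfl⟩ := O.exists_x hm.p_mem 4 (by norm_num)
  obtain ⟨rfl, h2⟩ := hm.invol (O.x_sq 0 s)
  have s0 : s ≠ 0 := fun e => hm.ne (e ▸ O.x_zero 0)
  have ha := hm.act' (c := 10) (by norm_num)
  set m := O.x 4 r * O.x 0 s * (O.x 4 r)⁻¹ with hm'
  have h3 : ∀ t, m * O.z 3 t * m⁻¹ = O.z 2 (t * s) * O.z 3 (t * s * r + t) := fun t => by
    have c1 : ∀ t, O.x 4 r * O.z 3 t * (O.x 4 r)⁻¹ = O.z 3 t := fun t =>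
      (O.zx_comm (k := 3) (l := 4) t r (by norm_num)).symm.mul_inv_cancel
    have c2 : (O.x 4 r)⁻¹ * O.z 3 t * (O.x 4 r)⁻¹⁻¹ = O.z 3 t := by rw [O.x_inv]; exact c1 t
    rw [hm', os1_conj, os1_conj, c2, O.x_z (l := 2) s t (by norm_num), ← conj_mul, c1,
      O.x_z (l := 3) r _ (by norm_num), O.zadd, ← mul_assoc (O.z 2 _),
      ((O.zz_comm (k := 3) (l := 2) _ _ (by norm_num)).mul_right (O.zz_comm _ _ (by norm_num))).eq]
  have h4 : s * r = 1 := by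
    have h5 := ha.conj (O.z_memU (j := 6) 3 1 (by norm_num)) (k := 4) (by norm_num)
    rw [h3, Subgroup.mul_mem_cancel_left _ (O.z_memU 2 _ (by norm_num))] at h5
    have := O.zinj _ _ (R.inf_U h5 (O.z_memU (j := 6) 3 _ (by norm_num)) (by norm_num))
    linear_combination this - O.two
  have h5 : ∀ t, m * O.z 3 t * m⁻¹ = O.z 2 (s * t) := fun t => by
    rw [h3, mul_assoc t, h4, mul_one, O.add_self, O.z_zero, mul_one, mul_comm]
  obtain rfl : r = s⁻¹ := eq_inv_of_mul_eq_one_right h4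
  refine ⟨rfl, O.x_inv _ _, O.a1.mul ha (by norm_num), fun t => ?_, fun t => ?_⟩
  · have h6 := h5 (s⁻¹ * t)
    rw [mul_inv_cancel_left₀ s0] at h6
    rw [os1_conj, ← h6, ← os1_conj m m, h2, one_mul, inv_one, mul_one, O.n1z]
    norm_num
  · rw [os1_conj, h5, O.n1z]
    norm_num

end RD.O1

namespace RD.O2
variable {G : Type*} [Group G] {R : RD 8 G} {K : Type} [Field K] {σ : K →+* K} (O : R.O2 K σ) {k l m : ℤ} {a b : K}
  {h : G}

theorem z_z (v t : K) (k : ℤ) : O.z (k + 3) v * O.z k t * (O.z (k + 3) v)⁻¹ =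
    O.z k t * O.z (k + 1) (σ t * v) * O.x (k + 1) (O.c * t * v) * O.z (k + 2) (t * σ v) := by
  have := congrArg (MulAut.conj (O.ω ^ (k - 1))) (O.zz v t)
  simp only [map_mul, map_inv] at this
  simp only [MulAut.conj_apply] at this
  rwa [O.ωz (l := k + 3) _ (by ring), O.ωz (l := k) _ (by ring), O.ωz (l := k + 1) _ (by ring),
    O.ωx (l := k + 1) _ (by ring), O.ωz (l := k + 2) _ (by ring)] at this

theorem os1_up (hh : Act R.U h 0 1) (ha : Sc h (O.z k) a) (hb : Sc h (O.z (k + 1)) b) (a0 : a ≠ 0) :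
    Sc h (O.z (k + 2)) (σ b / a) := by
  obtain ⟨v, hv⟩ := O.exists_z (V_conj hh (O.z_mem (k + 3) 1 rfl) (k := 2 * (k + 3)) ⟨.inl rfl, by ring⟩) _ rfl
  have key : ∀ t, σ a * σ t * v = b * σ t ∧ h * O.z (k + 2) t * h⁻¹ = O.z (k + 2) (a * t * σ v) := fun t => by
    obtain ⟨r, hr⟩ := O.exists_x (hh.conj (O.x_mem (k + 1) (O.c * t * 1) rfl) (k := 2 * (k + 1) + 1) (by ring)) _ rfl
    obtain ⟨w, hw⟩ := O.exists_z (V_conj hh (O.z_mem (k + 2) t rfl) (k := 2 * (k + 2)) ⟨.inl rfl, by ring⟩) _ rfl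
    have := congrArg (MulAut.conj h) (O.z_z 1 t k)
    simp only [map_mul (MulAut.conj h), map_inv, map_one σ, mul_one t] at this
    simp only [MulAut.conj_apply] at this
    rw [hv, ha, hb, hr, hw, O.z_z] at this
    simp only [mul_assoc (O.z k _)] at this
    obtain ⟨h1, -, h2⟩ := O.os1_nf3 (by ring) (mul_left_cancel this)
    exact ⟨by rw [← map_mul, h1, mul_one], by rw [hw, h2]⟩
  intro t
  have h1 := congrArg σ (key 1).1
  simp only [map_mul, map_one, O.ss, mul_one] at h1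
  rw [(key t).2, ← h1]
  congr 1
  field_simp

theorem sc_up (hh : Act R.U h 0 1) (ha : Sc h (O.z k) a) (hb : Sc h (O.z l) b) (a0 : a ≠ 0)
    (e : l = k + 1 ∧ m = k + 2 ∨ l = k - 1 ∧ m = k - 2) : Sc h (O.z m) (σ b / a) := by
  rcases e with ⟨rfl, rfl⟩ | ⟨rfl, rfl⟩
  · exact O.os1_up hh ha hb a0
  have h1 := O.os1_up (k := 4 - k) ((O.a8.mul hh (d := 8) (δ := -1) (by norm_num)).mul
    (O.a8.inv (c' := 8) (by norm_num)) (by norm_num)) (O.os1_n8 ha rfl) (O.os1_n8 hb (by ring)) a0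
  have h2 := O.os1_n8 (l := k - 2) h1 (by ring)
  rwa [← os1_conj, O.n8n8, one_mul, inv_one, mul_one] at h2

end RD.O2

end CfsgLib.Mouf
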