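import Cfsg.Agent.Lib.Mouf.OS1
import Cfsg.Agent.Lib.Mouf.OA

/-!
# Package OR: the relations between x and z (see `plans/MOUF.md`)
-/

set_option autoImplicit false

namespace CfsgLib.Mouf
open scoped commutatorElement

theorem or_cl {G : Type*} [Group G] {w a b : G} (h : Commute w (a * b)) (ha : Commute w a) : Commute w b := by
  simpa using ha.inv_right.mul_right h

theorem or_cr {G : Type*} [Group G] {w a b : G} (h : Commute w (a * b)) (hb : Commute w b) : Commute w a := by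
  simpa using h.mul_right hb.inv_right

theorem or_cj {G : Type*} [Group G] {w a : G} (h : Commute w a) : w * a * w⁻¹ = a := by
  rw [h.eq, mul_inv_cancel_right]

theorem or_mul {G : Type*} [Group G] (w a b : G) : w * (a * b) * w⁻¹ = w * a * w⁻¹ * (w * b * w⁻¹) := by group

theorem or_invol {G : Type*} [Group G] {n : G} (h : n * n = 1) (m v : G) :
    n * (n * m * v * (n * m)⁻¹) * n⁻¹ = m * v * m⁻¹ := by
  calc _ = n * n * m * v * m⁻¹ * (n * n)⁻¹ := by group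
    _ = _ := by rw [h]; group

theorem RD.dec26 {G : Type*} [Group G] (R : RD 8 G) {y : G} (hy : y ∈ seg R.U 2 6) :
    ∃ c2 ∈ R.U 2, ∃ c3 ∈ R.U 3, ∃ c4 ∈ R.U 4, ∃ c5 ∈ R.U 5, ∃ c6 ∈ R.U 6, y = c2 * (c3 * (c4 * (c5 * c6))) := by
  obtain ⟨c2, h2, y3, hy3, rfl⟩ := R.left (k := 3) hy (by norm_num)
  obtain ⟨c3, h3, y4, hy4, rfl⟩ := R.left (k := 4) hy3 (by norm_num)
  obtain ⟨c4, h4, y5, hy5, rfl⟩ := R.left (k := 5) hy4 (by norm_num)
  obtain ⟨c5, h5, c6, h6, rfl⟩ := R.left (k := 6) hy5 (by norm_num)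
  exact ⟨c2, h2, c3, h3, c4, h4, c5, h5, c6, seg_self h6 rfl rfl, rfl⟩

namespace RD.O2
variable {G : Type*} [Group G] {R : RD 8 G} {K : Type} [Field K] {σ : K →+* K} (O : R.O2 K σ) (h : R.Oct2)

theorem x_ne {s : K} (k : ℤ) (hs : s ≠ 0) : O.x k s ≠ 1 := fun e => hs (O.xinj k s e)

theorem xz7 {s : K} (hs : s ≠ 0) (v : K) :
    O.x 0 s * O.z 4 v * (O.x 0 s)⁻¹ = O.x 4 s⁻¹ * O.z 1 (s * σ s * v) * (O.x 4 s⁻¹)⁻¹ := by
  obtain ⟨p, q, hm⟩ := R.exists_mu (j := 9) (O.x_mem 0 s (j := 1) (by norm_num)) (O.x_ne 0 hs) (by norm_num)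
  obtain ⟨e1, e2, h1, h2, h3⟩ := O.mu_x1 hm
  have h4 := O.sc_up (m := 4) h1 h2 h3 (inv_ne_zero hs) (by norm_num) v
  have h5 := O.n1z 4 (σ s / s⁻¹ * v)
  rw [← h4, or_invol O.n1n1] at h5
  rw [Mu.conj_eq p _ q _ (e2 ▸ (O.zx_comm v s⁻¹ (k := 4) (l := 4) (by norm_num)).symm), h5, e1, O.x_inv,
    show s * σ s * v = σ s / s⁻¹ * v by field_simp]
  rfl

include h

theorem xx_aux (t u : K) : ∃ f₃ f₄ f₅, O.x 0 t * O.x 3 u * (O.x 0 t)⁻¹ = O.x 3 u * O.x 1 f₃ * O.z 2 f₄ * O.x 2 f₅ := by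
  by_cases ht : t = 0
  · exact ⟨0, 0, 0, by simp [ht, O.x_zero, O.z_zero]⟩
  by_cases hu : u = 0
  · exact ⟨0, 0, 0, by simp [hu, O.x_zero, O.z_zero]⟩
  have ha := O.x_mem 0 t (j := 1) (by norm_num)
  have hb := O.x_mem 3 u (j := 7) (by norm_num)
  have a1 := O.x_ne 0 ht
  have b1 := O.x_ne 3 hu
  have a2 := O.x_inv 0 t
  have b2 := O.x_inv 3 u
  have cx : ∀ k s, 1 ≤ k ∧ k ≤ 2 → Commute (O.x k s) (O.x 0 t) ∧ Commute (O.x k s) (O.x 3 u) := fun k s hk =>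
    ⟨O.xx_comm h s t (by omega), O.xx_comm h s u (by omega)⟩
  set a := O.x 0 t
  set b := O.x 3 u
  obtain ⟨c2, h2, c3, h3, c4, h4, c5, h5, c6, h6, e⟩ :=
    R.dec26 (R.comm_mem ha hb (k := 2) (l := 6) (by norm_num)).2
  have cc : ∀ k s, 1 ≤ k ∧ k ≤ 2 → Commute (O.x k s) (c2 * (c3 * (c4 * (c5 * c6)))) := fun k s hk => by
    rw [← e, commutatorElement_def]
    exact (((cx k s hk).2.mul_right (cx k s hk).1).mul_right (cx k s hk).2.inv_right).mul_right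
      (cx k s hk).1.inv_right
  obtain ⟨f₃, rfl⟩ := O.exists_x h3 1 (by norm_num)
  obtain ⟨f₅, rfl⟩ := O.exists_x h5 2 (by norm_num)
  have m3 := O.x_mem 1 1 (j := 3) (by norm_num)
  have m5 := O.x_mem 2 1 (j := 5) (by norm_num)
  have v2 : c2 ∈ R.V 2 := h.ker 5 2 (by decide) (by norm_num) _ m5 (O.x_ne 2 one_ne_zero) c2 h2
    (or_cr (cc 2 1 (by norm_num)) ((O.xx_comm h _ _ (by norm_num)).mul_right ((R.adj_comm m5 h4 (by norm_num)).mul_right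
      ((O.xx_comm h _ _ (by norm_num)).mul_right (R.adj_comm m5 h6 (by norm_num)))))).symm
  have v6 : c6 ∈ R.V 6 := h.ker 3 6 (by decide) (by norm_num) _ m3 (O.x_ne 1 one_ne_zero) c6 h6
    (or_cl (or_cl (or_cl (or_cl (cc 1 1 (by norm_num)) (R.adj_comm m3 h2 (by norm_num)))
      (O.xx_comm h _ _ (by norm_num))) (R.adj_comm m3 h4 (by norm_num))) (O.xx_comm h _ _ (by norm_num))).symm
  obtain ⟨w, hw, ew, -⟩ := h.toOct.conj_V (i := 6) (j := 1) (k := 4) (by decide) (by norm_num) v6 ha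
  have s2 := h.toOct.vsq (by decide) v2
  have s6 := h.toOct.vsq (by decide) v6
  have k1 : a * ⁅b, a⁆ * a⁻¹ = ⁅b, a⁆⁻¹ := by
    rw [commutatorElement_inv, commutatorElement_def, commutatorElement_def, b2]
    calc _ = a * b * a * b * (a⁻¹ * a⁻¹) := by group
      _ = _ := by rw [a2, O.x_sq, mul_one]
  have k2 : b * ⁅b, a⁆ * b⁻¹ = ⁅b, a⁆⁻¹ := by
    rw [commutatorElement_inv, commutatorElement_def, commutatorElement_def, a2]
    calc _ = (b * b) * a * b⁻¹ * a * b⁻¹ := by group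
      _ = _ := by rw [O.x_sq, one_mul, b2]
  have c34 := R.adj_comm h3 h4 (by norm_num)
  have c45 := R.adj_comm h4 h5 (by norm_num)
  have c35 : Commute (O.x 1 f₃) (O.x 2 f₅) := O.xx_comm h _ _ (by norm_num)
  have V2c : ∀ {j : ℤ} {v : G}, v ∈ R.U j → -2 ≤ j ∧ j ≤ 6 → Commute c2 v := fun hv hj =>
    R.V_comm v2 hv (by norm_num; omega)
  have V6c : ∀ {j : ℤ} {v : G}, v ∈ R.U j → 2 ≤ j ∧ j ≤ 10 → Commute c6 v := fun hv hj =>
    R.V_comm v6 hv (by norm_num; omega)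
  have k3 : ⁅b, a⁆⁻¹ = c2 * (O.x 1 f₃ * (c4⁻¹ * (O.x 2 f₅ * c6))) := by
    rw [e, inv_eq_iff_mul_eq_one, (V2c h3 (by norm_num)).left_comm, (V2c h4 (by norm_num)).left_comm,
      (V2c h5 (by norm_num)).left_comm]
    simp only [mul_assoc]
    rw [(V6c h2 (by norm_num)).left_comm, ← mul_assoc c2, s2, one_mul, (V6c h3 (by norm_num)).left_comm,
      (V6c (inv_mem h4) (by norm_num)).left_comm, (V6c h5 (by norm_num)).left_comm, s6, mul_one,
      c35.symm.left_comm, c45.inv_left.symm.left_comm, O.x_sq, mul_one, c34.symm.left_comm, mul_inv_cancel,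
      mul_one, O.x_sq]
  have k4 : a * c4 * a⁻¹ * w = c4⁻¹ := by
    rw [k3, e, or_mul, or_mul, or_mul, or_mul, or_cj (R.adj_comm ha h2 (by norm_num)),
      or_cj (cx 1 _ (by norm_num)).1.symm, or_cj (cx 2 _ (by norm_num)).1.symm, ew, mul_right_inj, mul_right_inj,
      ← mul_assoc (O.x 2 f₅), ← ((R.V_comm hw h5 (by norm_num)).mul_right (R.V_comm hw h6 (by norm_num))).eq,
      ← mul_assoc, mul_left_inj] at k1
    exact k1
  have k5 : ⁅c4⁻¹, a⁆ = 1 := R.inf_U (i := 2) (j := 4)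
    (R.V_U (h.c3 1 4 2 (by decide) (by norm_num) a ha _ (inv_mem h4))) (by
      rw [commutatorElement_def, inv_inv, mul_assoc, mul_assoc, ← mul_assoc a, eq_mul_inv_of_mul_eq k4]
      exact mul_mem (inv_mem h4) (mul_mem (inv_mem h4) (inv_mem (R.V_U hw)))) (by norm_num)
  have k6 : Commute c4 a := by simpa using (commutatorElement_eq_one_iff_commute.1 k5).inv_left
  have v4 := h.ker 1 4 (by decide) (by norm_num) a ha a1 c4 h4 k6
  have s4 := inv_eq_of_mul_eq_one_right (h.toOct.vsq (by decide) v4)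
  rw [or_cj k6.symm, s4, mul_eq_left] at k4
  rw [k4, mul_one, mul_inv_eq_iff_eq_mul] at ew
  obtain rfl := (h.toOct.nd (i := 6) (by decide) (by norm_num) v6 ha ew).resolve_left a1
  rw [k3, s4, ← e, mul_inv_eq_iff_eq_mul, e] at k2
  obtain rfl := (h.toOct.nd (i := 2) (by decide) (by norm_num) v2 hb (or_cr k2
    ((cx 1 _ (by norm_num)).2.symm.mul_right ((R.V_comm v4 hb (by norm_num)).symm.mul_right
      ((cx 2 _ (by norm_num)).2.symm.mul_right (Commute.one_right _)))))).resolve_left b1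
  obtain ⟨f₄, rfl⟩ := O.exists_z v4 2 (by norm_num)
  refine ⟨f₃, f₄, f₅, ?_⟩
  rw [commutatorElement_def, one_mul, mul_one, b2] at e
  rw [mul_assoc b, mul_assoc b, mul_assoc (O.x 1 f₃), ← e]
  simp only [← mul_assoc]
  rw [O.x_sq, one_mul]

theorem xx3 (t u : K) : ∃ f₅, O.x 0 t * O.x 3 u * (O.x 0 t)⁻¹ = O.x 3 u * O.x 1 (σ t * u) * O.x 2 f₅ := by
  by_cases ht : t = 0
  · exact ⟨0, by simp [ht, O.x_zero]⟩
  obtain ⟨f₃, f₄, f₅, e⟩ := O.xx_aux h t u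
  obtain ⟨p, q, hm⟩ := R.exists_mu (j := 9) (O.x_mem 0 t (j := 1) (by norm_num)) (O.x_ne 0 ht) (by norm_num)
  obtain ⟨e1, e2, h1, h2, h3⟩ := O.mu_x1 hm
  have σt : σ t ≠ 0 := (map_ne_zero σ).2 ht
  have h4 := O.sc_up (m := 1) h1 h3 h2 ht (by norm_num)
  have h5 := O.sc_x (j := 3) h1 h4 h2 (div_ne_zero ((map_ne_zero σ).2 (inv_ne_zero ht)) ht) (by norm_num) u
  have h6 := O.n1x 3 (t⁻¹ / (σ t⁻¹ / t) * u)
  rw [← h5, or_invol O.n1n1] at h6
  have h7 : p * O.x 0 t * q * O.x 3 u * (p * O.x 0 t * q)⁻¹ = O.x 1 (σ t * u) := by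
    rw [show σ t * u = t⁻¹ / (σ t⁻¹ / t) * u by rw [map_inv₀]; field_simp, h6]
    rfl
  obtain ⟨g₃, g₄, g₅, e'⟩ := O.xx_aux h t⁻¹ f₃
  have e'' := congrArg (fun w => O.n1 * w * O.n1⁻¹) e'
  simp only [or_mul, conj_inv.symm, O.n1x, O.n1z] at e''
  norm_num at e''
  have h8 : p * (O.x 0 t * O.x 3 u * (O.x 0 t)⁻¹) * p⁻¹ = O.x 1 (σ t * u) := by
    rw [Mu.conj_eq p (O.x 0 t) q (O.x 3 u) (e2 ▸ O.xx_comm h t⁻¹ u (k := 4) (l := 3) (by norm_num)), h7]; group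
  have c13 : ∀ r s, Commute (O.x 3 r) (O.x 1 s) := fun r s => O.xx_comm h _ _ (by norm_num)
  have cz : ∀ (k : ℤ) r, 0 ≤ k ∧ k ≤ 3 → Commute (O.x k r) (O.z 2 f₄) := fun k r hk =>
    (O.zx_comm _ _ (by omega)).symm
  rw [e, e1, or_mul, or_mul, or_mul, e'', or_cj (O.xx_comm h _ _ (by norm_num)),
    or_cj (O.xx_comm h _ _ (by norm_num)), O.x_z (l := 3) _ _ (by norm_num)] at h8
  simp only [mul_assoc] at h8
  rw [(c13 _ _).left_comm, (cz 2 _ (by norm_num)).left_comm, (O.zz_comm _ _ (k := 3) (l := 2) (by norm_num)).left_comm,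
    (cz 3 _ (by norm_num)).left_comm, (cz 3 _ (by norm_num)).left_comm] at h8
  have mx : ∀ (k : ℤ) r, 2 ≤ k ∧ k ≤ 3 → O.x k r ∈ seg R.U 5 7 := fun k r hk =>
    mem_seg (O.x_mem k r rfl) (by omega) (by omega)
  have mz : ∀ r, O.z 3 r ∈ seg R.U 5 7 := fun r => mem_seg (O.z_memU 3 r rfl) (by norm_num) (by norm_num)
  have ms := mul_mem (mx 3 u (by norm_num)) (mul_mem (mx 3 g₃ (by norm_num)) (mul_mem (mz g₄)
    (mul_mem (mx 2 g₅ (by norm_num)) (mul_mem (mz (f₄ * t⁻¹)) (mx 2 f₅ (by norm_num))))))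
  obtain ⟨k1, k2⟩ := R.left_inj (O.x_mem 1 _ rfl) (O.x_mem 1 _ rfl) (k := 4) (l := 7)
    (mul_mem (mem_seg (O.z_memU 2 f₄ rfl) (by norm_num) (by norm_num)) (seg_mono ms (by norm_num) le_rfl))
    (one_mem _) (by norm_num) (h8.trans (mul_one _).symm)
  have k3 := R.eq_one_left (O.z_memU 2 f₄ rfl) (eq_inv_of_mul_eq_one_left k2 ▸ inv_mem ms) (by norm_num)
  exact ⟨f₅, by rw [e, k1, k3, mul_one]⟩

theorem xx (t u : K) : O.x 0 t * O.x 3 u * (O.x 0 t)⁻¹ = O.x 3 u * O.x 1 (σ t * u) * O.x 2 (t * σ u) := by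
  obtain ⟨f, e⟩ := O.xx3 h t u
  obtain ⟨g, e'⟩ := O.xx3 h u t
  have e'' := congrArg (fun w => O.n8 * w * O.n8⁻¹) e'
  simp only [or_mul, conj_inv.symm, O.n8x] at e''
  norm_num at e''
  have c12 : ∀ r s, Commute (O.x 1 r) (O.x 2 s) := fun r s => O.xx_comm h _ _ (by norm_num)
  have k1 : O.x 1 (σ t * u) * O.x 2 f = (O.x 2 (σ u * t) * O.x 1 g)⁻¹ := by
    rw [mul_assoc (O.x 3 u), ← inv_mul_eq_iff_eq_mul] at e
    rw [mul_assoc (O.x 0 t) (O.x 2 _), ← inv_mul_eq_iff_eq_mul] at e''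
    rw [← e, ← e'']
    simp only [mul_inv_rev, O.x_inv, mul_assoc]
  rw [mul_inv_rev, O.x_inv, O.x_inv] at k1
  obtain ⟨-, k2⟩ := R.left_inj (O.x_mem 1 _ rfl) (O.x_mem 1 _ rfl) (k := 5) (l := 5)
    (mem_seg (O.x_mem 2 _ rfl) (by norm_num) (by norm_num)) (mem_seg (O.x_mem 2 _ rfl) (by norm_num) (by norm_num))
    (by norm_num) k1
  rw [e, k2, mul_comm t]

/-- the centre of `U₂ ⋯ U₇` -/
theorem cen27 {g : G} (hg : g ∈ seg R.U 2 7) (hc : ∀ w ∈ seg R.U 2 7, Commute g w)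
    (ne : ∀ i, Even i → ∃ a ∈ R.U i, a ∉ R.V i) : ∃ a b, g = O.z 2 a * O.z 3 b := by
  have hc' : ∀ {j : ℤ} {w : G}, w ∈ R.U j → 2 ≤ j ∧ j ≤ 7 → Commute w g := fun hw hj =>
    (hc _ (mem_seg hw hj.1 hj.2)).symm
  obtain ⟨y, hy, c7, h7, rfl⟩ := R.right (k := 6) hg (by norm_num)
  have mz := O.z_mem 1 1 (j := 2) (by norm_num)
  obtain rfl := (h.toOct.nd (i := 2) (by decide) (by norm_num) mz h7
    (or_cl (hc' (R.V_U mz) (by norm_num)) (R.V_comm_seg mz hy (by norm_num))).symm).resolve_right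
      fun e => one_ne_zero (O.zinj 1 1 e)
  rw [mul_one] at hc' ⊢
  obtain ⟨c2, h2, c3, h3, c4, h4, c5, h5, c6, h6, rfl⟩ := R.dec26 hy
  have m3 := O.x_mem 1 1 (j := 3) (by norm_num)
  have m5 := O.x_mem 2 1 (j := 5) (by norm_num)
  have m7 := O.x_mem 3 1 (j := 7) (by norm_num)
  have v2 : c2 ∈ R.V 2 := h.ker 5 2 (by decide) (by norm_num) _ m5 (O.x_ne 2 one_ne_zero) c2 h2
    (or_cr (hc' m5 (by norm_num)) ((h.c2 3 5 (by decide) rfl _ h3 _ m5).symm.mul_right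
      ((R.adj_comm m5 h4 (by norm_num)).mul_right
      ((h.toOct.xcomm (by decide) m5 h5).mul_right (R.adj_comm m5 h6 (by norm_num)))))).symm
  have v6 : c6 ∈ R.V 6 := h.ker 3 6 (by decide) (by norm_num) _ m3 (O.x_ne 1 one_ne_zero) c6 h6
    (or_cl (or_cl (or_cl (or_cl (hc' m3 (by norm_num)) (R.adj_comm m3 h2 (by norm_num)))
      (h.toOct.xcomm (by decide) m3 h3)) (R.adj_comm m3 h4 (by norm_num))) (h.c2 3 5 (by decide) rfl _ m3 _ h5)).symm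
  obtain ⟨w, hw, ew, -⟩ := h.toOct.conj_V (i := 2) (j := 7) (k := 4) (by decide) (by norm_num) v2 m7
  have hw' := h.c3 7 4 6 (by decide) (by norm_num) _ m7 _ (inv_mem h4)
  have k1 := or_cj (hc' m7 (by norm_num))
  have k2 : O.x 3 1 * c4 * (O.x 3 1)⁻¹ = c4 * ⁅c4⁻¹, O.x 3 1⁆ := by rw [commutatorElement_def]; group
  rw [or_mul, or_mul, or_mul, or_mul, ew, k2, or_cj (h.c4 3 7 rfl _ h3 _ m7).symm,
    or_cj (h.c2 5 7 (by decide) rfl _ h5 _ m7).symm, or_cj (R.adj_comm m7 h6 (by norm_num)), mul_assoc, mul_right_inj,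
    (R.V_comm hw h3 (by norm_num)).left_comm, mul_right_inj, ← mul_assoc, mul_left_inj,
    (R.V_comm hw h4 (by norm_num)).left_comm, mul_eq_left] at k1
  obtain rfl := R.inf_U (R.V_U hw) (eq_inv_of_mul_eq_one_left k1 ▸ inv_mem (R.V_U hw')) (by norm_num)
  rw [mul_one, mul_inv_eq_iff_eq_mul] at ew
  obtain rfl := (h.toOct.nd (i := 2) (by decide) (by norm_num) v2 m7 ew).resolve_left (O.x_ne 3 one_ne_zero)
  rw [one_mul, commutatorElement_eq_one_iff_commute] at k1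
  have v4 := h.ker 7 4 (by decide) (by norm_num) _ m7 (O.x_ne 3 one_ne_zero) c4 h4 (by simpa using k1.inv_left)
  rw [one_mul] at hc' ⊢
  obtain ⟨a6, n6, n6'⟩ := ne 6 (by decide)
  obtain ⟨a2, n2, n2'⟩ := ne 2 (by decide)
  obtain rfl : c3 = 1 := by
    by_contra e
    exact n6' (h.ker 3 6 (by decide) (by norm_num) _ h3 e _ n6 (or_cr (hc' n6 (by norm_num))
      ((R.V_comm v4 n6 (by norm_num)).symm.mul_right ((R.adj_comm n6 h5 (by norm_num)).mul_right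
        (R.V_comm v6 n6 (by norm_num)).symm))))
  rw [one_mul] at hc' ⊢
  obtain rfl : c5 = 1 := by
    by_contra e
    exact n2' (h.ker 5 2 (by decide) (by norm_num) _ h5 e _ n2 (or_cr (or_cl (hc' n2 (by norm_num))
      (R.V_comm v4 n2 (by norm_num)).symm) (R.V_comm v6 n2 (by norm_num)).symm))
  obtain ⟨a, rfl⟩ := O.exists_z v4 2 (by norm_num)
  obtain ⟨b, rfl⟩ := O.exists_z v6 3 (by norm_num)
  exact ⟨a, b, by rw [one_mul]⟩

end RD.O2

end CfsgLib.Mouf
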