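import Cfsg.Agent.Lib.Mouf.OS1
import Cfsg.Agent.Lib.Mouf.OR
import Cfsg.Agent.Lib.Mouf.Fld

/-!
# Package OY: the action on E (see `plans/MOUF.md`)
-/

set_option autoImplicit false

namespace CfsgLib.Mouf
open scoped commutatorElement

namespace RD.O1
variable {G : Type*} [Group G] {R : RD 8 G} {K : Type} [Field K] (O : R.O1 K)

/-- the normal form in `E` -/
def nf (a₂ a₃ a₄ a₅ a₆ : K) : G := O.z 1 a₂ * O.x 1 a₃ * O.z 2 a₄ * O.x 2 a₅ * O.z 3 a₆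

theorem nf_mul (h : R.Oct2) (a₂ a₃ a₄ a₅ a₆ b₂ b₃ b₄ b₅ b₆ : K) : O.nf a₂ a₃ a₄ a₅ a₆ * O.nf b₂ b₃ b₄ b₅ b₆ =
    O.nf (a₂ + b₂) (a₃ + b₃) (a₄ + b₄) (a₅ + b₅) (a₆ + b₆) := O.mulE h ..

theorem nf2 (t : K) : O.z 1 t = O.nf t 0 0 0 0 := by simp [nf, O.x_zero, O.z_zero]
theorem nf3' (t : K) : O.x 1 t = O.nf 0 t 0 0 0 := by simp [nf, O.x_zero, O.z_zero]
theorem nf4 (t : K) : O.z 2 t = O.nf 0 0 t 0 0 := by simp [nf, O.x_zero, O.z_zero]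
theorem nf5 (t : K) : O.x 2 t = O.nf 0 0 0 t 0 := by simp [nf, O.x_zero, O.z_zero]
theorem nf6 (t : K) : O.z 3 t = O.nf 0 0 0 0 t := by simp [nf, O.x_zero, O.z_zero]

theorem nf_congr {a₂ a₃ a₄ a₅ a₆ b₂ b₃ b₄ b₅ b₆ : K} (e₂ : a₂ = b₂) (e₃ : a₃ = b₃) (e₄ : a₄ = b₄) (e₅ : a₅ = b₅)
    (e₆ : a₆ = b₆) : O.nf a₂ a₃ a₄ a₅ a₆ = O.nf b₂ b₃ b₄ b₅ b₆ := by rw [e₂, e₃, e₄, e₅, e₆]

theorem nf_sc {g : G} {s₂ s₃ s₄ s₅ s₆ : K} (h₂ : Sc g (O.z 1) s₂) (h₃ : Sc g (O.x 1) s₃) (h₄ : Sc g (O.z 2) s₄)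
    (h₅ : Sc g (O.x 2) s₅) (h₆ : Sc g (O.z 3) s₆) (a₂ a₃ a₄ a₅ a₆ : K) :
    g * O.nf a₂ a₃ a₄ a₅ a₆ * g⁻¹ = O.nf (s₂ * a₂) (s₃ * a₃) (s₄ * a₄) (s₅ * a₅) (s₆ * a₆) := by
  rw [nf, or_mul, or_mul, or_mul, or_mul, h₂, h₃, h₄, h₅, h₆, nf]

theorem dat_iff {σ : K →+* K} {a : G} {π ε η ρ γ₄ γ₅ γ₆ π' : K} : O.Dat σ a π ε η ρ γ₄ γ₅ γ₆ π' ↔
    (∀ r, a * O.x 2 r * a⁻¹ = O.nf 0 0 0 r (r * π')) ∧
    (∀ r, a * O.x 1 r * a⁻¹ = O.nf 0 r (σ r * γ₄) (r * γ₅) (r * γ₆)) ∧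
    ∀ t, a * O.z 1 t * a⁻¹ = O.nf t (t * π) (σ t * η) (t * ε) (t * ρ) := by
  simp only [nf, O.x_zero, O.z_zero, one_mul]
  exact ⟨fun d => ⟨d.a5, d.a3, d.a2⟩, fun d => ⟨d.1, d.2.1, d.2.2⟩⟩

theorem n8_ω (m : ℤ) : O.n8 * O.ω ^ m * O.n8⁻¹ = O.ω ^ (-m) := by
  rw [← conj_zpow, zpow_neg, ← inv_zpow, ω, mul_inv_rev, O.n1_inv, O.n8_inv, mul_assoc, mul_assoc, O.n8n8, mul_one]

end RD.O1

namespace RD.O1.Dat
variable {G : Type*} [Group G] {R : RD 8 G} {K : Type} [Field K] {σ : K →+* K} {O : R.O1 K} {a b : G}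
  {π ε η ρ γ₄ γ₅ γ₆ π' π₁ ε₁ η₁ ρ₁ δ₄ δ₅ δ₆ π₁' : K}

theorem act (h : R.Oct2) (ha : a ∈ R.U 8) (d : O.Dat σ a π ε η ρ γ₄ γ₅ γ₆ π') (a₂ a₃ a₄ a₅ a₆ : K) :
    a * O.nf a₂ a₃ a₄ a₅ a₆ * a⁻¹ = O.nf a₂ (a₂ * π + a₃) (σ a₂ * η + σ a₃ * γ₄ + a₄) (a₂ * ε + a₃ * γ₅ + a₅)
      (a₂ * ρ + a₃ * γ₆ + a₅ * π' + a₆) := by
  obtain ⟨d5, d3, d2⟩ := O.dat_iff.1 d
  rw [nf, or_mul, or_mul, or_mul, or_mul, d2, d3, d5, or_cj (O.z_comm 2 a₄ ha (by norm_num)).symm,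
    or_cj (O.z_comm 3 a₆ ha (by norm_num)).symm, O.nf4, O.nf6, O.nf_mul h, O.nf_mul h, O.nf_mul h, O.nf_mul h]
  exact O.nf_congr (by ring) (by ring) (by ring) (by ring) (by ring)

theorem mul (h : R.Oct2) (ha : a ∈ R.U 8) (d : O.Dat σ a π ε η ρ γ₄ γ₅ γ₆ π')
    (d₁ : O.Dat σ b π₁ ε₁ η₁ ρ₁ δ₄ δ₅ δ₆ π₁') :
    O.Dat σ (a * b) (π + π₁) (ε + ε₁ + π₁ * γ₅) (η + η₁ + σ π₁ * γ₄) (ρ + ρ₁ + π₁ * γ₆ + ε₁ * π') (γ₄ + δ₄)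
      (γ₅ + δ₅) (γ₆ + δ₆ + δ₅ * π') (π' + π₁') := by
  obtain ⟨d5, d3, d2⟩ := O.dat_iff.1 d₁
  refine O.dat_iff.2 ⟨fun r => ?_, fun r => ?_, fun r => ?_⟩
  · rw [os1_conj, d5, d.act h ha]
    exact O.nf_congr rfl (by ring) (by simp) (by ring) (by ring)
  · rw [os1_conj, d3, d.act h ha]
    exact O.nf_congr rfl (by ring) (by rw [map_zero]; ring) (by ring) (by ring)
  · rw [os1_conj, d2, d.act h ha]
    exact O.nf_congr rfl (by ring) (by rw [map_mul]; ring) (by ring) (by ring)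

theorem unique (d : O.Dat σ a π ε η ρ γ₄ γ₅ γ₆ π') (d₁ : O.Dat σ a π₁ ε₁ η₁ ρ₁ δ₄ δ₅ δ₆ π₁') :
    π = π₁ ∧ ε = ε₁ ∧ η = η₁ ∧ ρ = ρ₁ ∧ γ₄ = δ₄ ∧ γ₅ = δ₅ ∧ γ₆ = δ₆ ∧ π' = π₁' := by
  obtain ⟨d5, d3, d2⟩ := O.dat_iff.1 d
  obtain ⟨e5, e3, e2⟩ := O.dat_iff.1 d₁
  have k5 := O.nfE ((d5 1).symm.trans (e5 1))
  have k3 := O.nfE ((d3 1).symm.trans (e3 1))
  have k2 := O.nfE ((d2 1).symm.trans (e2 1))
  simp only [map_one, one_mul, true_and] at k5 k3 k2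
  exact ⟨k2.1, k2.2.2.1, k2.2.1, k2.2.2.2, k3.1, k3.2.1, k3.2.2, k5⟩

theorem one : O.Dat σ 1 0 0 0 0 0 0 0 0 := by
  refine ⟨fun r => ?_, fun r => ?_, fun r => ?_⟩ <;> simp [O.x_zero, O.z_zero]

theorem conj {g : G} {s₂ s₃ s₄ s₅ s₆ : K} (d : O.Dat σ a π ε η ρ γ₄ γ₅ γ₆ π') (h₂ : Sc g (O.z 1) s₂)
    (h₃ : Sc g (O.x 1) s₃) (h₄ : Sc g (O.z 2) s₄) (h₅ : Sc g (O.x 2) s₅) (h₆ : Sc g (O.z 3) s₆) (n₂ : s₂ ≠ 0)
    (n₃ : s₃ ≠ 0) (n₅ : s₅ ≠ 0) :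
    O.Dat σ (g * a * g⁻¹) (π * s₃ / s₂) (ε * s₅ / s₂) (η * s₄ / σ s₂) (ρ * s₆ / s₂) (γ₄ * s₄ / σ s₃) (γ₅ * s₅ / s₃)
      (γ₆ * s₆ / s₃) (π' * s₆ / s₅) := by
  obtain ⟨d5, d3, d2⟩ := O.dat_iff.1 d
  have key : ∀ {f : K → G} {s : K}, Sc g f s → s ≠ 0 → ∀ r,
      g * a * g⁻¹ * f r * (g * a * g⁻¹)⁻¹ = g * (a * f (r / s) * a⁻¹) * g⁻¹ := fun {f s} hf hs r => by
    rw [show f r = g * f (r / s) * g⁻¹ by rw [hf, mul_div_cancel₀ _ hs]]; group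
  have m₂ := (map_ne_zero σ).2 n₂
  have m₃ := (map_ne_zero σ).2 n₃
  refine O.dat_iff.2 ⟨fun r => ?_, fun r => ?_, fun r => ?_⟩
  · rw [key h₅ n₅, d5, O.nf_sc h₂ h₃ h₄ h₅ h₆]
    exact O.nf_congr (by ring) (by ring) (by ring) (by field_simp) (by ring)
  · rw [key h₃ n₃, d3, O.nf_sc h₂ h₃ h₄ h₅ h₆]
    exact O.nf_congr (by ring) (by field_simp) (by rw [map_div₀]; ring) (by ring) (by ring)
  · rw [key h₂ n₂, d2, O.nf_sc h₂ h₃ h₄ h₅ h₆]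
    exact O.nf_congr (by field_simp) (by ring) (by rw [map_div₀]; ring) (by ring) (by ring)

theorem congr (d : O.Dat σ a π ε η ρ γ₄ γ₅ γ₆ π') (e : π = π₁ ∧ ε = ε₁ ∧ η = η₁ ∧ ρ = ρ₁ ∧ γ₄ = δ₄ ∧ γ₅ = δ₅ ∧
    γ₆ = δ₆ ∧ π' = π₁') : O.Dat σ a π₁ ε₁ η₁ ρ₁ δ₄ δ₅ δ₆ π₁' := by
  obtain ⟨rfl, rfl, rfl, rfl, rfl, rfl, rfl, rfl⟩ := e
  exact d

end RD.O1.Dat

namespace RD.O2
variable {G : Type*} [Group G] {R : RD 8 G} {K : Type} [Field K] {σ : K →+* K} (O : R.O2 K σ) (h : R.Oct2) {a b : G}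
  {π ε η ρ γ₄ γ₅ γ₆ π' π₁ ε₁ η₁ ρ₁ δ₄ δ₅ : K}

theorem dat_z (v : K) : O.Dat σ (O.z 4 v) 0 (O.c * v) v (σ v) 0 0 v 0 := by
  refine ⟨fun r => ?_, fun r => ?_, fun r => ?_⟩
  · rw [or_cj (O.zx_comm _ _ (by norm_num)), mul_zero, O.z_zero, mul_one]
  · rw [O.z_x (l := 3) _ _ (by norm_num), mul_comm v]
    simp [O.x_zero, O.z_zero]
  · rw [O.zz, mul_zero, O.x_zero, mul_one, mul_comm O.c r, mul_assoc r]

include h

theorem dat_ext (ha : a ∈ R.U 8) (hb : b ∈ R.U 8) (d : O.Dat σ a π ε η ρ γ₄ γ₅ γ₆ π')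
    (d₁ : O.Dat σ b π₁ ε₁ η₁ ρ₁ δ₄ δ₅ γ₆ π') : a = b := by
  have e := (d.a5 1).trans (d₁.a5 1).symm
  obtain ⟨v, hv⟩ := O.exists_z (h.ker 5 8 (by decide) (by norm_num) _ (O.x_mem 2 1 (by norm_num))
    (O.x_ne 2 one_ne_zero) (a⁻¹ * b) (mul_mem (inv_mem ha) hb) (by
      change a⁻¹ * b * O.x 2 1 = O.x 2 1 * (a⁻¹ * b)
      calc _ = a⁻¹ * (b * O.x 2 1 * b⁻¹) * b := by group
        _ = _ := by rw [← e]; group)) 4 (by norm_num)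
  rw [inv_mul_eq_iff_eq_mul] at hv
  have k := ((d.mul h ha (O.dat_z v)).unique (hv ▸ d₁)).2.2.2.2.2.2.1
  rw [zero_mul, add_zero, add_eq_left] at k
  rw [hv, k, O.z_zero, mul_one]

variable [Finite K]

omit [Finite K] in
theorem exists_dat (ha : a ∈ R.U 8) : ∃ π ε η ρ γ₄ γ₅ γ₆ π', O.Dat σ a π ε η ρ γ₄ γ₅ γ₆ π' := by
  have tor : ∀ r, r ≠ 0 → ∃ g : G, Commute g a ∧ Sc g (O.z 1) r ∧ Sc g (O.x 1) r ∧ Sc g (O.z 2) (σ r) ∧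
      Sc g (O.x 2) r ∧ Sc g (O.z 3) r := fun r hr => by
    obtain ⟨g, hg, h1, h2, h3⟩ := O.tor r⁻¹ (inv_ne_zero hr)
    have k1 := O.act_shift (-2) h1
    have k2 := O.sc_shift_z (-2) (l := -1) h2 (by norm_num)
    have k3 := O.sc_shift_z (-2) (l := 0) h3 (by norm_num)
    have k4 := O.sc_up (m := 1) k1 k2 k3 (inv_ne_zero hr) (by norm_num)
    rw [map_one, div_inv_eq_mul, one_mul] at k4
    have k5 := O.sc_up (m := 2) k1 k3 k4 one_ne_zero (by norm_num)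
    rw [div_one] at k5
    have k6 := O.sc_up (m := 3) k1 k4 k5 hr (by norm_num)
    rw [O.ss, mul_div_cancel_right₀ _ hr] at k6
    have k7 := O.sc_x (j := 1) k1 k2 k3 (inv_ne_zero hr) (by norm_num)
    rw [div_inv_eq_mul, one_mul] at k7
    have k8 := O.sc_x (j := 2) k1 k3 k4 one_ne_zero (by norm_num)
    rw [div_one] at k8
    refine ⟨_, ?_, k4, k7, k5, k8, k6⟩
    have m := (O.aω_zpow (-2)).conj_inv (j := 12) ha (by norm_num)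
    have c : g ∈ Subgroup.centralizer {(O.ω ^ (-2 : ℤ))⁻¹ * a * O.ω ^ (-2 : ℤ)} :=
      (sup_le (fun u hu => Subgroup.mem_centralizer_singleton_iff.2
        (h.c4 12 16 rfl _ m u (R.per' (i := 0) (j := 16) (by norm_num) ▸ hu)).symm)
        fun u hu => Subgroup.mem_centralizer_singleton_iff.2 (h.c4 8 12 rfl u hu _ m) :
          R.U 0 ⊔ R.U 8 ≤ Subgroup.centralizer _) hg
    rw [Subgroup.mem_centralizer_singleton_iff] at c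
    change _ * a = a * _
    calc _ = O.ω ^ (-2 : ℤ) * (g * ((O.ω ^ (-2 : ℤ))⁻¹ * a * O.ω ^ (-2 : ℤ))) * (O.ω ^ (-2 : ℤ))⁻¹ := by group
      _ = _ := by rw [c]; group
  have key : ∀ {f : K → G} {g : G} {r : K}, Commute g a → Sc g f r →
      a * f r * a⁻¹ = g * (a * f 1 * a⁻¹) * g⁻¹ := fun {f g r} c hf => by
    rw [or_mul, or_mul, or_cj c, or_cj c.inv_right, hf, mul_one]
  obtain ⟨π', e5⟩ := O.exists_z (h.c3 5 8 6 (by decide) (by norm_num) _ (O.x_mem 2 1 (by norm_num)) a ha) 3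
    (by norm_num)
  have d5 : a * O.x 2 1 * a⁻¹ = O.nf 0 0 0 1 π' := by
    rw [mul_inv_eq_iff_eq_mul.1 e5, O.nf6, O.nf5, O.nf_mul h]; simp
  obtain ⟨z₄, m₄, x₅, m₅, z₆, m₆, d3⟩ := h.e5 _ (O.x_mem 1 1 (by norm_num)) a ha
  obtain ⟨γ₄, rfl⟩ := O.exists_z m₄ 2 (by norm_num)
  obtain ⟨γ₅, rfl⟩ := O.exists_x m₅ 2 (by norm_num)
  obtain ⟨γ₆, rfl⟩ := O.exists_z m₆ 3 (by norm_num)
  replace d3 : a * O.x 1 1 * a⁻¹ = O.nf 0 1 γ₄ γ₅ γ₆ := by rw [d3, O1.nf, O.z_zero, one_mul]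
  obtain ⟨x₃, n₃, z₄, n₄, x₅, n₅, z₆, n₆, d2⟩ := h.e6 _ (O.z_mem 1 1 (by norm_num)) a ha
  obtain ⟨π, rfl⟩ := O.exists_x n₃ 1 (by norm_num)
  obtain ⟨η, rfl⟩ := O.exists_z n₄ 2 (by norm_num)
  obtain ⟨ε, rfl⟩ := O.exists_x n₅ 2 (by norm_num)
  obtain ⟨ρ, rfl⟩ := O.exists_z n₆ 3 (by norm_num)
  change _ = O.nf 1 π η ε ρ at d2
  refine ⟨π, ε, η, ρ, γ₄, γ₅, γ₆, π', O.dat_iff.2 ⟨fun r => ?_, fun r => ?_, fun r => ?_⟩⟩ <;>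
    by_cases hr : r = 0
  · simp [hr, O1.nf, O.x_zero, O.z_zero]
  · obtain ⟨g, c, h₂, h₃, h₄, h₅, h₆⟩ := tor r hr
    rw [key c h₅, d5, O.nf_sc h₂ h₃ h₄ h₅ h₆]; simp
  · simp [hr, O1.nf, O.x_zero, O.z_zero]
  · obtain ⟨g, c, h₂, h₃, h₄, h₅, h₆⟩ := tor r hr
    rw [key c h₃, d3, O.nf_sc h₂ h₃ h₄ h₅ h₆]; simp
  · simp [hr, O1.nf, O.x_zero, O.z_zero]
  · obtain ⟨g, c, h₂, h₃, h₄, h₅, h₆⟩ := tor r hr
    rw [key c h₂, d2, O.nf_sc h₂ h₃ h₄ h₅ h₆]; simp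

omit [Finite K] in
theorem exists_b : O.c = 1 ∧ ∃ b ∈ R.U 8, O.Dat σ b 1 0 1 1 1 1 1 1 ∧ O.z 0 1 * b = b * O.n8 := by
  obtain ⟨p, hm, e8⟩ := O.mu8
  have hb : O.n8 * p⁻¹ * O.n8⁻¹ ∈ R.U 8 := O.a8.conj (inv_mem hm.p_mem) (by norm_num)
  have st : O.z 0 1 * (O.n8 * p⁻¹ * O.n8⁻¹) = O.n8 * p⁻¹ * O.n8⁻¹ * O.n8 := by
    rw [show (0 : ℤ) = 4 - 4 from rfl, ← O.n8z]
    calc _ = O.n8 * (O.z 4 1 * p⁻¹ * O.n8⁻¹) := by group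
      _ = _ := by
        rw [inv_mul_cancel_right, mul_right_inj, O.n8_inv, e8]
        calc _ = O.z 4 1 * O.z 4 1 * p⁻¹ := by group
          _ = _ := by rw [O.z_sq, one_mul]
  have mir : ∀ v t, O.z 0 v * O.z 3 t * (O.z 0 v)⁻¹ = O.nf (t * σ v) (O.c * t * v) (σ t * v) 0 t := fun v t => by
    have e := congrArg (fun w => O.n8 * w * O.n8⁻¹) (O.zz v t)
    simp only [or_mul, conj_inv.symm, O.n8x, O.n8z] at e
    norm_num at e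
    rw [e, O.nf6, O.nf4, O.nf3', O.nf2, O.nf_mul h, O.nf_mul h, O.nf_mul h]; simp
  set b := O.n8 * p⁻¹ * O.n8⁻¹ with eb
  obtain ⟨π, ε, η, ρ, γ₄, γ₅, γ₆, π', d⟩ := O.exists_dat h hb
  obtain ⟨d5, d3, d2⟩ := O.dat_iff.1 d
  have k2 : b * O.z 1 1 * b⁻¹ = O.nf 1 O.c 1 0 1 := by
    have e := mir 1 1
    rw [show (0 : ℤ) = 4 - 4 from rfl, show (3 : ℤ) = 4 - 1 from rfl, ← O.n8z, ← O.n8z, conj_inv, ← or_mul,
      ← or_mul, Mu.conj_eq p _ p⁻¹ _ (O.z_comm 1 1 (inv_mem hm.p_mem) (by norm_num)).symm, ← e8] at e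
    simp only [map_one, mul_one] at e
    rw [← e, eb, O.n8_inv]
    simp only [mul_inv_rev, inv_inv, O.n8_inv, mul_assoc]
  have k2' := O.nfE ((d2 1).symm.trans k2)
  simp only [map_one, one_mul, true_and] at k2'
  obtain ⟨rfl, rfl, rfl, rfl⟩ := k2'
  have k5 := ((d.mul h hb (O.dat_z 1)).unique ((O.z_comm 4 1 hb (by norm_num)).eq ▸
    (O.dat_z 1).mul h (O.z_memU 4 1 (by norm_num)) d)).2.2.2.1
  obtain rfl : π' = 1 := mul_left_cancel₀ O.c0 (by linear_combination k5)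
  have k3 : b * O.x 1 1 * b⁻¹ = O.nf 0 O.c 1 1 1 := by
    rw [show O.x 1 1 = O.n8 * O.x 2 1 * O.n8⁻¹ from (O.n8x 2 1).symm, ← os1_conj, ← st, os1_conj, d.a5, or_mul,
      O.z_x (l := 1) _ _ (by norm_num), mir, O.nf5, O.nf2, O.nf_mul h, O.nf_mul h]
    simp [O.add_self]
  have k3' := O.nfE ((d3 1).symm.trans k3)
  simp only [map_one, one_mul, true_and] at k3'
  obtain ⟨c1, rfl, rfl, rfl⟩ := k3'
  exact ⟨c1.symm, b, hb, c1 ▸ d, st⟩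

theorem exists_y (u : K) : ∃ y ∈ R.U 8, O.Dat σ y u (u * σ u) 0 (u * u * σ u) u (σ u) 0 u := by
  by_cases hu : u = 0
  · exact ⟨1, one_mem _, O1.Dat.one.congr (by simp [hu])⟩
  obtain ⟨c1, b, hb, d, -⟩ := O.exists_b h
  obtain ⟨s, hs, e1, e2⟩ := exists_tits_root σ O.ss hu
  obtain ⟨g, -, h1, h2, h3⟩ := O.tor s hs
  have σs := (map_ne_zero σ).2 hs
  have σu := (map_ne_zero σ).2 hu
  have k3 := O.sc_up (m := 3) h1 h2 h3 hs (by norm_num)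
  have k0 := O.sc_up (m := 0) h1 h3 h2 one_ne_zero (by norm_num)
  have k4 := O.sc_up (m := 4) h1 h3 k3 one_ne_zero (by norm_num)
  simp only [map_one, map_div₀, div_one] at k3 k0 k4
  have x2 := O.sc_x (j := 2) h1 k0 h2 σs (by norm_num)
  have x1 := O.sc_x (j := 1) h1 k4 k3 (one_div_ne_zero σs) (by norm_num)
  have hb' := h1.conj (k := 8) hb (by norm_num)
  have d' := d.conj h2 x1 h3 x2 k3 hs (div_ne_zero (one_div_ne_zero hs) (one_div_ne_zero σs)) (div_ne_zero hs σs)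
  have f1 : σ s * (u * σ u) = 1 := by rw [e1]; field_simp
  have f2 : s * s * (u * u * σ u) = 1 := by rw [e2]; field_simp
  have f3 : σ s = s * s * u := mul_right_cancel₀ (mul_ne_zero hu σu) (by rw [f1, ← f2]; ring)
  have d'' : O.Dat σ (g * b * g⁻¹) u 0 (u * σ u) (u * u * σ u) u (σ u) (u * σ u) u := d'.congr (by
    simp only [map_one, map_div₀, O.ss]
    refine ⟨?_, by simp, ?_, ?_, ?_, ?_, ?_, ?_⟩ <;> field_simp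
    · linear_combination f3
    · linear_combination -f1
    · linear_combination -f2
    · linear_combination f3
    · rw [f3]; linear_combination (-s ^ 2) * f2
    · linear_combination -f1
    · linear_combination f3)
  refine ⟨_, mul_mem hb' (O.z_memU 4 (u * σ u) (by norm_num)), (d''.mul h hb' (O.dat_z _)).congr ?_⟩
  simp only [c1, map_mul, map_zero, O.ss, zero_mul, add_zero, zero_add, one_mul, O.add_self, true_and, and_true]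
  linear_combination (u * u * σ u) * O.two

include O in
theorem exists_O3 : Nonempty (R.O3 K σ) := by
  choose y4 m4 d4 using O.exists_y h
  obtain ⟨c1, b, hb, d, st⟩ := O.exists_b h
  have dyz := fun s t => (d4 s).mul h (m4 s) (O.dat_z t)
  have myz := fun s t => mul_mem (m4 s) (O.z_memU 4 t (j := 8) (by norm_num))
  simp only [zero_mul, add_zero, zero_add] at dyz
  let y : ℤ → K → G := fun k t => O.ω ^ (k - 4) * y4 t * (O.ω ^ (k - 4))⁻¹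
  have y_4 : ∀ t, y 4 t = y4 t := fun t => by simp [y]
  have ωy : ∀ (m k : ℤ) t, O.ω ^ m * y k t * (O.ω ^ m)⁻¹ = y (k + m) t := fun m k t => by
    simp only [y]
    rw [← os1_conj, ← zpow_add, show m + (k - 4) = k + m - 4 by ring]
  have yz : ∀ k s t, y k s * O.z k t = O.ω ^ (k - 4) * (y4 s * O.z 4 t) * (O.ω ^ (k - 4))⁻¹ := fun k s t => by
    rw [or_mul, O.ωz (k - 4) (l := k) (by ring)]
  have n8y : ∀ k t, O.n8 * y k t * O.n8⁻¹ = y (4 - k) t := fun k t => by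
    obtain ⟨p, hm, e8⟩ := O.mu8
    have m2 : y 2 t ∈ R.U 4 := (O.aω_zpow _).conj (m4 t) (by norm_num)
    have cp := h.c4 0 4 rfl p hm.p_mem _ m2
    have c : Commute O.n8 (y 2 t) :=
      e8 ▸ (cp.mul_left (O.z_comm 4 1 m2 (by norm_num))).mul_left cp.inv_left
    rw [show k = 2 + (k - 2) by ring, ← ωy, or_mul, or_mul, ← conj_inv, O.n8_ω, or_cj c, ωy]
    congr 1; ring
  exact ⟨{ O with
    y := y
    c1 := c1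
    yadd := fun k s t => by
      rw [yz, ← O.dat_ext h (mul_mem (m4 s) (m4 t)) (myz (s + t) (s * σ t)) ((d4 s).mul h (m4 s) (d4 t))
        ((dyz _ _).congr ⟨rfl, rfl, rfl, rfl, rfl, rfl, by ring, rfl⟩), or_mul]
    yU := fun k g => ⟨fun hg => by
      have m := (O.aω_zpow (k - 4)).conj_inv (j := 8) hg (by ring)
      obtain ⟨π, ε, η, ρ, γ₄, γ₅, γ₆, π', e⟩ := O.exists_dat h m
      exact ⟨π', γ₆, by rw [yz, ← O.dat_ext h m (myz π' γ₆) e (dyz _ _)]; group⟩, by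
      rintro ⟨s, t, rfl⟩
      rw [yz]
      exact (O.aω_zpow _).conj (myz s t) (by ring)⟩
    yinj := fun k s t e => by
      rw [yz, conj_eq_one_iff] at e
      have k := (dyz s t).unique (e ▸ O1.Dat.one)
      exact ⟨k.1, k.2.2.2.2.2.2.1⟩
    n1y := fun k t => by
      have e : O.n1 = O.ω ^ (1 : ℤ) * O.n8 := by rw [zpow_one, O1.ω, mul_assoc, O.n8n8, mul_one]
      rw [e, os1_conj, n8y, ωy]
      congr 1; ring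
    n8y := n8y
    dat := fun u => by rw [y_4]; exact d4 u
    st := by rw [y_4, ← O.dat_ext h hb (myz 1 1) d (dyz 1 1)]; exact st }⟩

end RD.O2

end CfsgLib.Mouf
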