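import Cfsg.Agent.Lib.Mouf.OE
import Cfsg.Agent.Lib.Mouf.OS1
import Cfsg.Agent.Lib.Mouf.OY

/-!
# Package OD: the Tits endomorphism (see `plans/MOUF.md`)
-/

set_option autoImplicit false

namespace CfsgLib.Mouf
open scoped commutatorElement

namespace RD.O1
variable {G : Type*} [Group G] {R : RD 8 G} {K : Type} [Field K] (O : R.O1 K) (h : R.Oct2)
include h

theorem od_dec (t v : K) : ∃ f β g, O.z 4 v * O.z 1 t * (O.z 4 v)⁻¹ = O.nf t 0 f β g := by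
  obtain ⟨z₄, m₄, x₅, m₅, z₆, m₆, e, -⟩ := h.toOct.zz_dec (O.z_mem 1 t (by norm_num)) (O.z_mem 4 v (by norm_num))
  obtain ⟨f, rfl⟩ := O.exists_z m₄ 2 (by norm_num)
  obtain ⟨β, rfl⟩ := O.exists_x m₅ 2 (by norm_num)
  obtain ⟨g, rfl⟩ := O.exists_z m₆ 3 (by norm_num)
  exact ⟨f, β, g, by rw [e, nf, O.x_zero, mul_one]⟩

theorem od_mu {t v f β g s : K} {p q : G} (e : O.z 4 v * O.z 1 t * (O.z 4 v)⁻¹ = O.nf t 0 f β g)
    (hm : R.Mu 8 0 p (O.z 4 v) q) (hs : p * O.z 4 v * q * O.z 1 t * (p * O.z 4 v * q)⁻¹ = O.z 3 s) : g = s := by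
  obtain ⟨d, hd, e', -⟩ := h.toOct.a5V (O.z_mem 1 t (by norm_num)) (O.z_mem 4 v (by norm_num)) hm
  rw [e, hs] at e'
  have m1 : O.z 1 t ∈ seg R.U 2 5 := mem_seg (O.z_memU 1 t rfl) (by norm_num) (by norm_num)
  exact O.z_inj (R.right_inj (k := 2) (l := 5) (O.z_memU 3 g rfl) (O.z_memU 3 s rfl)
    (mul_mem (mul_mem (mul_mem m1 (mem_seg (O.x_mem 1 0 rfl) (by norm_num) (by norm_num)))
      (mem_seg (O.z_memU 2 f rfl) (by norm_num) (by norm_num))) (mem_seg (O.x_mem 2 β rfl) (by norm_num) (by norm_num)))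
    (mul_mem m1 (seg_mono hd (by norm_num) le_rfl)) (by norm_num) e').2

omit h in
/-- conjugation of the relation by a torus element -/
theorem od_conj {k : G} {a b t v f β g f' β' g' : K} (hk : Act R.U k 0 1) (ha : Sc k (O.z 4) a)
    (hb : Sc k (O.z 1) b) (e : O.z 4 v * O.z 1 t * (O.z 4 v)⁻¹ = O.nf t 0 f β g)
    (e' : O.z 4 (a * v) * O.z 1 (b * t) * (O.z 4 (a * v))⁻¹ = O.nf (b * t) 0 f' β' g') :
    k * O.x 2 β * k⁻¹ = O.x 2 β' ∧ k * O.z 3 g * k⁻¹ = O.z 3 g' := by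
  obtain ⟨f₁, e₄⟩ := O.exists_z (R.V_conj (k := 4) hk (O.z_mem 2 f rfl) (by norm_num)) 2 (by norm_num)
  obtain ⟨β₁, e₅⟩ := O.exists_x (hk.conj (k := 5) (O.x_mem 2 β rfl) (by norm_num)) 2 (by norm_num)
  obtain ⟨g₁, e₆⟩ := O.exists_z (R.V_conj (k := 6) hk (O.z_mem 3 g rfl) (by norm_num)) 3 (by norm_num)
  rw [← ha, ← hb, conj_inv, ← or_mul, ← or_mul, e, nf, or_mul, or_mul, or_mul, or_mul, hb, e₄, e₅, e₆, O.x_zero,
    mul_one, mul_inv_cancel, ← O.x_zero 1] at e'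
  obtain ⟨-, -, -, rfl, rfl⟩ := O.nfE e'
  exact ⟨e₅, e₆⟩

omit h in
/-- the torus element attached to `z₈(w)` -/
theorem od_tor {w s : K} {p q : G} (hm : R.Mu 8 0 p (O.z 4 w) q) (s0 : s ≠ 0)
    (hs : ∀ t, p * O.z 4 w * q * O.z 1 t * (p * O.z 4 w * q)⁻¹ = O.z 3 (s * t)) :
    ∃ k ∈ R.U 0 ⊔ R.U 8, Act R.U k 0 1 ∧ Sc k (O.z 1) s ∧ Sc k (O.z 2) 1 ∧ Sc k (O.z 3) s⁻¹ ∧ Sc k (O.z 5) s⁻¹ := by
  obtain ⟨p₈, hm₈, e₈⟩ := O.mu8
  have mem : ∀ {p q u : G}, R.Mu 8 0 p u q → p * u * q ∈ R.U 0 ⊔ R.U 8 := fun hm =>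
    mul_mem (mul_mem (Subgroup.mem_sup_left hm.p_mem) (Subgroup.mem_sup_right hm.u_mem))
      (Subgroup.mem_sup_left hm.q_mem)
  have h3 : Sc (O.n8 * (p * O.z 4 w * q)) (O.z 3) s⁻¹ := fun t => by
    rw [os1_conj, show O.z 3 t = O.z 3 (s * (s⁻¹ * t)) by rw [mul_inv_cancel_left₀ s0], ← hs, ← os1_conj (p * O.z 4 w * q),
      (hm.invol (O.z_sq 4 w)).2, one_mul, inv_one, mul_one, O.n8z]
    rfl
  have nz : ∀ k t, O.ω ^ (2 : ℤ) * O.n8 * (O.ω ^ (2 : ℤ))⁻¹ * O.z k t * (O.ω ^ (2 : ℤ) * O.n8 * (O.ω ^ (2 : ℤ))⁻¹)⁻¹ =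
      O.z (8 - k) t := fun k t => by
    rw [← O.ωz 2 (k := k - 2) (l := k) (by ring), conj_inv, ← or_mul, ← or_mul, O.n8z, O.ωz 2 (l := 8 - k) (by ring)]
  have na : Act R.U (O.ω ^ (2 : ℤ) * O.n8 * (O.ω ^ (2 : ℤ))⁻¹) 16 (-1) :=
    ((O.aω_zpow 2).mul (d := 12) (δ := -1) O.a8 (by norm_num)).mul
      ((O.aω_zpow 2).inv (c' := -4) (by norm_num)) (by norm_num)
  set ν := O.ω ^ (2 : ℤ) * O.n8 * (O.ω ^ (2 : ℤ))⁻¹
  have nc : ∀ {p q : G} {w : K}, R.Mu 8 0 p (O.z 4 w) q → ν * (p * O.z 4 w * q) * ν⁻¹ = p * O.z 4 w * q :=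
    fun {p q w} hm => by
      have k := hm.conj (i' := 8) (j' := 0) na (by norm_num)
      have e : ν * O.z 4 w * ν⁻¹ = O.z 4 w := nz 4 w
      rw [e] at k
      rw [or_mul, or_mul, e, (k.unique hm).1, (k.unique hm).2]
  refine ⟨O.n8 * (p * O.z 4 w * q), mul_mem (e₈ ▸ mem hm₈) (mem hm), O.a8.mul (hm.act' (c := 8) rfl) (by norm_num),
    fun t => by rw [os1_conj, hs, O.n8z]; rfl, fun t => ?_, h3, fun t => ?_⟩
  · rw [os1_conj, or_cj (Oct.mu_comm4 hm (O.z_mem 2 t (by norm_num))).symm, O.n8z, one_mul]; rfl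
  · have e : ν * (O.n8 * (p * O.z 4 w * q)) * ν⁻¹ = O.n8 * (p * O.z 4 w * q) := by
      rw [or_mul, nc hm, e₈, nc hm₈]
    rw [show (5 : ℤ) = 8 - 3 from rfl, ← nz, ← nz, ← h3, or_mul ν, or_mul ν, ← conj_inv, e]

end RD.O1

theorem RD.O1.exists_O2 {G : Type*} [Group G] [Finite G] {R : RD 8 G} {K : Type} [Field K] [Finite K] (O : R.O1 K)
    (h : R.Oct2) : ∃ σ : K →+* K, Nonempty (R.O2 K σ) := by
  choose f β g e using O.od_dec h
  have e0 : ∀ t, β t 0 = 0 ∧ g t 0 = 0 := fun t => by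
    have k := e t 0
    rw [O.z_zero, one_mul, inv_one, mul_one, O.nf2] at k
    exact ⟨(O.nfE k).2.2.2.1.symm, (O.nfE k).2.2.2.2.symm⟩
  have mu : ∀ v, v ≠ 0 → ∃ p q, R.Mu 8 0 p (O.z 4 v) q ∧
      ∀ t, p * O.z 4 v * q * O.z 1 t * (p * O.z 4 v * q)⁻¹ = O.z 3 (g 1 v * t) := fun v hv => by
    obtain ⟨p, q, hm⟩ := R.exists_mu (j := 0) (O.z_memU 4 v (j := 8) (by norm_num)) (fun k => hv (O.zinj 4 v k))
      (by norm_num)
    obtain ⟨s, hs⟩ := O.sc v p q hm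
    exact ⟨p, q, hm, by rwa [O.od_mu h (e 1 v) hm (hs 1), mul_one]⟩
  have eg : ∀ t v, g t v = t * g 1 v := fun t v => by
    by_cases hv : v = 0
    · rw [hv, (e0 t).2, (e0 1).2, mul_zero]
    · obtain ⟨p, q, hm, hs⟩ := mu v hv
      rw [O.od_mu h (e t v) hm (hs t), mul_comm]
  have g0 : ∀ v, v ≠ 0 → g 1 v ≠ 0 := fun v hv k => by
    obtain ⟨p, q, -, hs⟩ := mu v hv
    have := hs 1
    rw [k, zero_mul, O.z_zero, conj_eq_one_iff] at this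
    exact one_ne_zero (O.zinj 1 1 this)
  have gadd : ∀ v w, g 1 (v + w) = g 1 v + g 1 w := fun v w => by
    have k := e 1 (v + w)
    rw [O.zadd, os1_conj, e 1 w, O1.nf, or_mul, or_mul, or_mul, or_mul, e 1 v, O.x_zero, mul_one, mul_inv_cancel,
      mul_one, or_cj (O.zz_comm _ _ (by norm_num)), or_cj (O.zx_comm _ _ (by norm_num)),
      or_cj (O.zz_comm _ _ (by norm_num)), O.nf4, O.nf5, O.nf6, O.nf_mul h, O.nf_mul h, O.nf_mul h] at k
    simpa using (O.nfE k).2.2.2.2.symm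
  have g1 : g 1 1 = 1 := by
    obtain ⟨p, hm, e₈⟩ := O.mu8
    exact O.od_mu h (e 1 1) hm (e₈ ▸ O.n8z 1 1)
  have inj : Function.Injective (g 1) := fun v w k => by
    by_contra ne
    refine g0 (v + w) (fun k' => ne ?_) (by rw [gadd, k, O.add_self])
    linear_combination k' - O.add_self w
  have tor : ∀ a, a ≠ 0 → ∃ k ∈ R.U 0 ⊔ R.U 8, Act R.U k 0 1 ∧ Sc k (O.z 1) a ∧ Sc k (O.z 2) 1 ∧
      Sc k (O.z 3) a⁻¹ ∧ Sc k (O.z 5) a⁻¹ := fun a ha => by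
    obtain ⟨w, rfl⟩ := Finite.surjective_of_injective inj a
    obtain ⟨p, q, hm, hs⟩ := mu w fun k => ha (k ▸ (e0 1).2)
    exact O.od_tor hm ha hs
  have sym : ∀ t v, f t v = g v t ∧ β t v = β v t := fun t v => by
    have c : ∀ t v, O.z 1 t * O.z 4 v * O.z 1 t * O.z 4 v = O.nf 0 0 (f t v) (β t v) (g t v) := fun t v => by
      have k := congrArg (O.z 1 t * ·) (e t v)
      simp only [O.z_inv, ← mul_assoc] at k
      rw [k, O.nf2, O.nf_mul h]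
      simp [O.add_self]
    have k := congrArg (fun w => O.n1 * w * O.n1⁻¹) (c t v)
    simp only [O1.nf, O.x_zero, O.z_zero, one_mul, or_mul, O.n1x, O.n1z] at k
    norm_num at k
    have k' := congrArg (·⁻¹) (c v t)
    simp only [mul_inv_rev, O1.nf, O.x_zero, O.z_zero, one_mul, O.x_inv, O.z_inv, ← mul_assoc] at k'
    rw [k, O.nf6, O.nf5, O.nf4, O.nf6, O.nf5, O.nf4, O.nf_mul h, O.nf_mul h, O.nf_mul h, O.nf_mul h] at k'
    have := O.nfE k'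
    simp only [add_zero, zero_add] at this
    exact ⟨this.2.2.2.2, this.2.2.2.1⟩
  have main : ∀ a, a ≠ 0 → (∀ v, g 1 (a * v) = g 1 a * g 1 v) ∧ (∀ t v, β t (a * v) = a * β t v) ∧
      g 1 (g 1 a) = a * a := fun a ha => by
    obtain ⟨k, -, h1, h2, h3, h4, h5⟩ := tor a⁻¹ (inv_ne_zero ha)
    rw [inv_inv] at h4 h5
    have k1 := O.act_shift (-1) h1
    have k0 := O.sc_shift_z (-1) (l := 0) h2 (by norm_num)
    have k2 := O.sc_shift_z (-1) (l := 1) h3 (by norm_num)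
    have k4 := O.sc_shift_z (-1) (l := 4) h5 (by norm_num)
    have kx := O.sc_x (j := 2) k1 k0 k2 (inv_ne_zero ha) (by norm_num)
    rw [div_inv_eq_mul, one_mul] at kx
    have cj := fun t v => O.od_conj k1 k4 k2 (e t v) (e (1 * t) (a * v))
    have k3 : Sc _ (O.z 3) (g 1 a) := fun t => by
      have := (cj t 1).2
      rwa [eg, g1, mul_one, eg, mul_one, one_mul, mul_comm] at this
    have k5 := O.sc_shift_z 1 (l := 4) k3 (by norm_num)
    rw [show O.ω ^ (1 : ℤ) * (O.ω ^ (-1 : ℤ) * k * (O.ω ^ (-1 : ℤ))⁻¹) * (O.ω ^ (1 : ℤ))⁻¹ = k by group] at k5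
    refine ⟨fun v => ?_, fun t v => ?_, ?_⟩
    · have := (cj 1 v).2
      rw [k3, mul_one] at this
      exact (O.z_inj this).symm
    · have := (cj t v).1
      rw [kx, one_mul] at this
      exact (O.x_inj this).symm
    · have := (O.od_conj h1 k5 h2 (e 1 1) (e _ _)).2
      rw [h4, g1, eg, mul_one, mul_one, mul_one] at this
      exact ((eq_inv_mul_iff_mul_eq₀ ha).1 (O.z_inj this)).symm
  have eβ : ∀ t v, β t v = v * β t 1 := fun t v => by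
    by_cases hv : v = 0
    · rw [hv, (e0 t).1, zero_mul]
    · rw [← (main v hv).2.1, mul_one]
  let σ : K →+* K :=
    { toFun := g 1
      map_one' := g1
      map_mul' := fun a v => by
        by_cases ha : a = 0
        · rw [ha, zero_mul, (e0 1).2, zero_mul]
        · exact (main a ha).1 v
      map_zero' := (e0 1).2
      map_add' := gadd }
  have zz : ∀ v t, O.z 4 v * O.z 1 t * (O.z 4 v)⁻¹ =
      O.z 1 t * O.z 2 (σ t * v) * O.x 2 (β 1 1 * t * v) * O.z 3 (t * σ v) := fun v t => by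
    rw [e, O1.nf, O.x_zero, mul_one, (sym t v).1, eg v t, eg t v, eβ t v, (sym t 1).2, eβ 1 t, mul_comm v,
      mul_comm v, mul_comm t (β 1 1)]
    rfl
  refine ⟨σ, ⟨{ O with
    c := β 1 1
    c0 := fun k => ?_
    ss := fun t => ?_
    zz := zz
    tor := fun s hs => ?_ }⟩⟩
  · have := zz 1 1
    rw [k, zero_mul, zero_mul, O.x_zero, mul_one] at this
    rcases h.zz _ (O.z_mem 1 1 (by norm_num)) _ (O.z_mem 4 1 (by norm_num)) _ (O.z_mem 2 _ (by norm_num)) _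
      (O.z_mem 3 _ (by norm_num)) this with k | k <;> exact one_ne_zero (O.zinj _ _ k)
  · by_cases ht : t = 0
    · simp [ht]
    · exact (main t ht).2.2
  · obtain ⟨k, m, h1, h2, h3, -⟩ := tor s hs
    exact ⟨k, m, h1, h2, h3⟩

end CfsgLib.Mouf
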