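import Cfsg.Agent.Lib.Mouf.OA

/-!
# Package OE: the subgroup E of an octagon (see `plans/MOUF.md`)
-/

set_option autoImplicit false

namespace CfsgLib.Mouf
open scoped commutatorElement

namespace RD
variable {G : Type*} [Group G] {R : RD 8 G} {a d e e' g p q u w x z : G}

theorem V4_E (hz : z ∈ R.V 4) : z ∈ R.E := by
  exact Subgroup.mem_sup_left (Subgroup.mem_sup_left hz)

theorem V6_E (hz : z ∈ R.V 6) : z ∈ R.E := by
  exact Subgroup.mem_sup_left (Subgroup.mem_sup_right hz)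

theorem gen_E (ha : a ∈ R.U 8) (hz : z ∈ R.V 2) : a * z * a⁻¹ ∈ R.E :=
  Subgroup.mem_sup_right (Subgroup.subset_closure ⟨a, ha, z, hz, rfl⟩)

theorem E_le {H : Subgroup G} (h4 : ∀ z ∈ R.V 4, z ∈ H) (h6 : ∀ z ∈ R.V 6, z ∈ H)
    (h8 : ∀ a ∈ R.U 8, ∀ z ∈ R.V 2, a * z * a⁻¹ ∈ H) : R.E ≤ H :=
  sup_le (sup_le h4 h6) ((Subgroup.closure_le _).2 (by rintro _ ⟨a, ha, z, hz, rfl⟩; exact h8 a ha z hz))

theorem V2_E (hz : z ∈ R.V 2) : z ∈ R.E := by
  simpa using gen_E (one_mem _) hz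

namespace Oct
variable (h : R.Oct)
include h

theorem E_conj8 (ha : a ∈ R.U 8) (he : e ∈ R.E) : a * e * a⁻¹ ∈ R.E := by
  refine E_le (H := R.E.comap (MulAut.conj a).toMonoidHom) (fun z hz => ?_) (fun z hz => ?_)
    (fun b hb z hz => ?_) he
  · show a * z * a⁻¹ ∈ R.E
    rw [(V_comm hz ha (by norm_num)).symm.eq, mul_inv_cancel_right]; exact V4_E hz
  · show a * z * a⁻¹ ∈ R.E
    rw [(V_comm hz ha (by norm_num)).symm.eq, mul_inv_cancel_right]; exact V6_E hz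
  · show a * (b * z * b⁻¹) * a⁻¹ ∈ R.E
    rw [show a * (b * z * b⁻¹) * a⁻¹ = a * b * z * (a * b)⁻¹ by group]
    exact gen_E (mul_mem ha hb) hz

theorem E_conj0 (ha : a ∈ R.U 0) (he : e ∈ R.E) : a * e * a⁻¹ ∈ R.E := by
  have A : ∀ a ∈ R.U 0, ∀ z ∈ R.V 6, a * z * a⁻¹ ∈ R.E := fun a ha z hz => by
    by_cases h1 : a = 1
    · simpa [h1] using V6_E hz
    obtain ⟨p, q, hm⟩ := exists_mu (j := 8) ha h1 (by norm_num)
    have := gen_E (inv_mem hm.p_mem) (V_conj hm.act hz (k := 2) (by norm_num))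
    rwa [inv_inv, ← Mu.conj_eq p a q z (V_comm hz hm.q_mem (by norm_num)).symm] at this
  refine E_le (H := R.E.comap (MulAut.conj a).toMonoidHom) (fun z hz => ?_) (fun z hz => A a ha z hz)
    (fun b hb z hz => ?_) he
  · show a * z * a⁻¹ ∈ R.E
    rw [(V_comm hz ha (by norm_num)).symm.eq, mul_inv_cancel_right]; exact V4_E hz
  · show a * (b * z * b⁻¹) * a⁻¹ ∈ R.E
    by_cases h1 : b = 1
    · rw [h1, one_mul, inv_one, mul_one, (V_comm hz ha (by norm_num)).symm.eq, mul_inv_cancel_right]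
      exact V2_E hz
    obtain ⟨p, q, hm⟩ := exists_mu (j := 0) hb h1 (by norm_num)
    have := A _ (mul_mem ha (inv_mem hm.p_mem)) _ (V_conj hm.act hz (k := 6) (by norm_num))
    rw [Mu.conj_eq p b q z (V_comm hz hm.q_mem (by norm_num)).symm]
    convert this using 1
    group

/-- `E` does not depend on the orientation -/
theorem E_line : (R.line 8 (-1) (Or.inr rfl)).E = R.E := by
  refine le_antisymm (E_le (fun z hz => ?_) (fun z hz => ?_) fun a ha z hz => ?_)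
    (E_le (fun z hz => ?_) (fun z hz => ?_) fun a ha z hz => ?_)
  · rw [line_V (k := 4) (by norm_num)] at hz; exact V4_E hz
  · rw [line_V (k := 2) (by norm_num)] at hz; exact V2_E hz
  · rw [line_V (k := 6) (by norm_num)] at hz
    rw [line_U (k := 0) (by norm_num)] at ha
    exact h.E_conj0 ha (V6_E hz)
  · exact V4_E (by rwa [line_V (k := 4) (by norm_num)])
  · exact V2_E (by rwa [line_V (k := 6) (by norm_num)])
  · exact (h.line 8 (-1) (Or.inr rfl) (by decide)).E_conj0 (by rwa [line_U (k := 8) (by norm_num)])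
      (V6_E (by rwa [line_V (k := 2) (by norm_num)]))

theorem E_seg (he : e ∈ R.E) : e ∈ seg R.U 2 6 := by
  refine E_le (H := seg R.U 2 6) (fun z hz => mem_seg (V_U hz) (by norm_num) (by norm_num))
    (fun z hz => mem_seg (V_U hz) (by norm_num) (by norm_num)) (fun a ha z hz => ?_) he
  obtain ⟨d, hd, z₆, h6, e1, -⟩ := h.a5' hz ha
  rw [e1]
  exact mul_mem (mul_mem (mem_seg (V_U hz) (by norm_num) (by norm_num))
    (seg_mono hd (by norm_num) (by norm_num))) (mem_seg (V_U h6) (by norm_num) (by norm_num))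

theorem E_comm (he : e ∈ R.E) (he' : e' ∈ R.E) : Commute e e' := by
  refine (Subgroup.mem_centralizer_singleton_iff.1 (E_le (H := Subgroup.centralizer ({e'} : Set G))
    (fun z hz => ?_) (fun z hz => ?_) (fun a ha z hz => ?_) he))
  · exact Subgroup.mem_centralizer_singleton_iff.2 (V_comm_seg hz (h.E_seg he') (by norm_num))
  · exact Subgroup.mem_centralizer_singleton_iff.2 (V_comm_seg hz (h.E_seg he') (by norm_num))
  · refine Subgroup.mem_centralizer_singleton_iff.2 ?_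
    have := (V_comm_seg hz (h.E_seg (h.E_conj8 (inv_mem ha) he')) (by norm_num)).eq
    calc a * z * a⁻¹ * e' = a * (z * (a⁻¹ * e' * a⁻¹⁻¹)) * a⁻¹ := by group
      _ = e' * (a * z * a⁻¹) := by rw [this]; group

theorem E_sq (he : e ∈ R.E) : e * e = 1 := by
  let H : Subgroup G :=
    { carrier := {e | e ∈ R.E ∧ e * e = 1}
      one_mem' := ⟨one_mem _, by simp⟩
      mul_mem' := by
        rintro x y ⟨hx, hx'⟩ ⟨hy, hy'⟩
        exact ⟨mul_mem hx hy, by rw [(h.E_comm hx hy).symm.mul_mul_mul_comm, hx', hy', mul_one]⟩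
      inv_mem' := by
        rintro x ⟨hx, hx'⟩
        exact ⟨inv_mem hx, by rw [← mul_inv_rev, hx', inv_one]⟩ }
  refine (E_le (H := H) (fun z hz => ⟨V4_E hz, h.vsq (by decide) hz⟩)
    (fun z hz => ⟨V6_E hz, h.vsq (by decide) hz⟩) (fun a ha z hz => ⟨gen_E ha hz, ?_⟩) he).2
  rw [show a * z * a⁻¹ * (a * z * a⁻¹) = a * (z * z) * a⁻¹ by group, h.vsq (by decide) hz]
  simp

theorem E_Q (he : e ∈ R.E) (hg : g ∈ seg R.U 1 7) : ⁅e, g⁆ ∈ R.V 4 := by
  have N : ∀ x ∈ seg R.U 0 8, ∀ c ∈ R.V 4, x * c * x⁻¹ ∈ R.V 4 := fun x hx c hc => by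
    rwa [(V_comm_seg hc hx (by norm_num)).symm.eq, mul_inv_cancel_right]
  have N' : ∀ x ∈ R.E, x ∈ seg R.U 0 8 := fun x hx => seg_mono (h.E_seg hx) (by norm_num) (by norm_num)
  let H : Subgroup G :=
    { carrier := {e | e ∈ R.E ∧ ∀ g ∈ seg R.U 1 7, ⁅e, g⁆ ∈ R.V 4}
      one_mem' := ⟨one_mem _, fun g _ => by simp⟩
      mul_mem' := by
        rintro x y ⟨hx, hx'⟩ ⟨hy, hy'⟩
        refine ⟨mul_mem hx hy, fun g hg => ?_⟩
        rw [show ⁅x * y, g⁆ = x * ⁅y, g⁆ * x⁻¹ * ⁅x, g⁆ by simp only [commutatorElement_def]; group]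
        exact mul_mem (N x (N' x hx) _ (hy' g hg)) (hx' g hg)
      inv_mem' := by
        rintro x ⟨hx, hx'⟩
        refine ⟨inv_mem hx, fun g hg => ?_⟩
        rw [show ⁅x⁻¹, g⁆ = x⁻¹ * ⁅x, g⁆⁻¹ * x⁻¹⁻¹ by simp only [commutatorElement_def]; group]
        exact N _ (N' _ (inv_mem hx)) _ (inv_mem (hx' g hg)) }
  refine (E_le (H := H) (fun z hz => ⟨V4_E hz, fun g hg => ?_⟩) (fun z hz => ⟨V6_E hz, fun g hg => ?_⟩)
    (fun a ha z hz => ⟨gen_E ha hz, fun g hg => ?_⟩) he).2 g hg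
  · rw [(V_comm_seg hz hg (by norm_num)).commutator_eq]; exact one_mem _
  · obtain ⟨u, hu, y, hy, rfl⟩ := R.left (k := 2) hg (by norm_num)
    have h1 := (V_comm_seg (inv_mem hz) hy (by norm_num)).eq
    rw [show ⁅z, u * y⁆ = z * u * (y * z⁻¹) * y⁻¹ * u⁻¹ by simp only [commutatorElement_def]; group, ← h1,
      show z * u * (z⁻¹ * y) * y⁻¹ * u⁻¹ = ⁅u, z⁆⁻¹ by simp only [commutatorElement_def]; group]
    exact inv_mem (h.cv 6 1 4 (by decide) (by norm_num) z hz u hu)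
  · obtain ⟨y, hy, u, hu, e1⟩ := R.right (k := 6) (R.conj_seg (mem_seg (inv_mem ha) le_rfl le_rfl) hg
      (by norm_num)) (by norm_num)
    have h1 := (V_comm_seg hz hy (by norm_num)).eq
    rw [show g = a * (y * u) * a⁻¹ by rw [← e1]; group,
      show ⁅a * z * a⁻¹, a * (y * u) * a⁻¹⁆ = a * (z * y) * (u * z⁻¹ * u⁻¹ * y⁻¹ * a⁻¹) by
        simp only [commutatorElement_def]; group, h1,
      show a * (y * z) * (u * z⁻¹ * u⁻¹ * y⁻¹ * a⁻¹) = a * y * ⁅u, z⁆⁻¹ * (a * y)⁻¹ by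
        simp only [commutatorElement_def]; group]
    exact N _ (mul_mem (mem_seg ha (by norm_num) le_rfl) (seg_mono hy (by norm_num) (by norm_num))) _
      (inv_mem (h.cv 2 7 4 (by decide) (by norm_num) z hz u hu))

theorem E_dec' (he : e ∈ R.E) : ∃ z ∈ R.V 2, ∃ d ∈ seg R.U 3 5, ∃ z' ∈ R.V 6, e = z * d * z' ∧
    ∀ u, u ∈ R.U 1 ∨ u ∈ R.U 7 → Commute d u := by
  let H : Subgroup G :=
    { carrier := {e | ∃ z ∈ R.V 2, ∃ d ∈ seg R.U 3 5, ∃ z' ∈ R.V 6, e = z * d * z' ∧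
        ∀ u, u ∈ R.U 1 ∨ u ∈ R.U 7 → Commute d u}
      one_mem' := ⟨1, one_mem _, 1, one_mem _, 1, one_mem _, by simp, by simp⟩
      mul_mem' := by
        rintro _ _ ⟨z, hz, d, hd, z', hz', rfl, h1⟩ ⟨w, hw, c, hc, w', hw', rfl, h2⟩
        refine ⟨_, mul_mem hz hw, _, mul_mem hd hc, _, mul_mem hz' hw', ?_, fun u hu => (h1 u hu).mul_left (h2 u hu)⟩
        have c1 := (V_comm_seg hw hd (by norm_num)).eq
        have c2 := (V_comm hw (V_U hz') (by norm_num)).eq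
        have c3 := (V_comm_seg hz' hc (by norm_num)).eq
        calc z * d * z' * (w * c * w') = z * d * (z' * w) * c * w' := by group
          _ = z * (d * w) * (z' * c) * w' := by rw [← c2]; group
          _ = _ := by rw [← c1, c3]; group
      inv_mem' := by
        rintro _ ⟨z, hz, d, hd, z', hz', rfl, h1⟩
        refine ⟨_, inv_mem hz, _, inv_mem hd, _, inv_mem hz', ?_, fun u hu => (h1 u hu).inv_left⟩
        have c1 := (V_comm_seg hz hd (by norm_num)).eq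
        have c2 := (V_comm hz (V_U hz') (by norm_num)).eq
        have c3 := (V_comm_seg hz' hd (by norm_num)).eq
        rw [← mul_inv_rev, ← mul_inv_rev, ← c1, ← mul_assoc z', ← c2, mul_assoc z z', c3, mul_assoc] }
  refine E_le (H := H) (fun z hz => ⟨1, one_mem _, z, mem_seg (V_U hz) (by norm_num) (by norm_num), 1,
    one_mem _, by simp, fun u hu => hu.elim (fun hu => V_comm hz hu (by norm_num))
      fun hu => V_comm hz hu (by norm_num)⟩)
    (fun z hz => ⟨1, one_mem _, 1, one_mem _, z, hz, by simp, by simp⟩) (fun a ha z hz => ?_) he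
  by_cases h1 : a = 1
  · exact ⟨z, hz, 1, one_mem _, 1, one_mem _, by simp [h1], by simp⟩
  obtain ⟨p, q, hm⟩ := exists_mu (j := 0) ha h1 (by norm_num)
  obtain ⟨d, hd, e1, h6⟩ := h.a5 hz hm
  have e2 := Mu.conj_eq p a q z (V_comm hz hm.q_mem (by norm_num)).symm
  generalize p * a * q * z * (p * a * q)⁻¹ = z₆ at e1 h6 e2
  refine ⟨z, hz, d, hd, z₆, h6, e1, ?_⟩
  rintro u (hu | hu)
  · obtain ⟨w, hw, e3, -⟩ := h.conj_V (k := 4) (by decide) (by norm_num) h6 hu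
    have c1 := (R.adj_comm hm.p_mem hu (by norm_num)).eq
    have c2 := (V_comm hw hm.p_mem (by norm_num)).eq
    have c3 := (V_comm hz hu (by norm_num)).eq
    have e4 : u * (z * d * z₆) * u⁻¹ = z * d * z₆ * w := by
      rw [← e1, e2]
      calc u * (p⁻¹ * z₆ * p) * u⁻¹ = p⁻¹ * (p * u) * p⁻¹ * z₆ * (p * u⁻¹ * p⁻¹) * p := by group
        _ = p⁻¹ * (u * z₆ * u⁻¹) * p := by
          rw [show p * u⁻¹ * p⁻¹ = p * (p * u)⁻¹ by group, c1]; group
        _ = _ := by rw [e3, mul_assoc, mul_assoc z₆, c2]; group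
    show _ = _
    calc d * u = z⁻¹ * (z * d * z₆ * w) * (z₆ * w)⁻¹ * u := by group
      _ = z⁻¹ * (u * z) * d := by rw [← e4, ← e3]; group
      _ = u * d := by rw [← c3]; group
  · obtain ⟨w, hw, e3, -⟩ := h.conj_V (k := 4) (by decide) (by norm_num) hz hu
    have c1 := (R.adj_comm ha hu (by norm_num)).eq
    have c2 := (V_comm hw (inv_mem ha) (by norm_num)).eq
    have c3 := (V_comm h6 hu (by norm_num)).eq
    have c4 := (V_comm_seg hw hd (by norm_num)).eq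
    have c5 := (V_comm hw (V_U h6) (by norm_num)).eq
    have e4 : u * (z * d * z₆) * u⁻¹ = z * w * d * z₆ := by
      calc u * (z * d * z₆) * u⁻¹ = u * a * z * (u * a)⁻¹ := by rw [← e1]; group
        _ = a * (u * z * u⁻¹) * a⁻¹ := by rw [← c1]; group
        _ = z * d * z₆ * w := by rw [e3, ← mul_assoc a, mul_assoc _ w, c2, ← mul_assoc, e1]
        _ = _ := by rw [mul_assoc _ z₆, ← c5, ← mul_assoc, mul_assoc z d, ← c4, ← mul_assoc]
    show _ = _
    calc d * u = (z * w)⁻¹ * (z * w * d * z₆) * u * (u⁻¹ * z₆⁻¹ * u) := by group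
      _ = u * d * (z₆ * u⁻¹ * z₆⁻¹ * u) := by nth_rewrite 1 [← e3]; rw [← e4]; group
      _ = u * d := by rw [show z₆ * u⁻¹ * z₆⁻¹ * u = z₆ * (z₆ * u)⁻¹ * u by group, c3]; group

theorem E_dec (he : e ∈ R.E) : ∃ z ∈ R.V 2, ∃ d ∈ seg R.U 3 5, ∃ z' ∈ R.V 6, e = z * d * z' ∧ d ∈ R.E := by
  obtain ⟨z, hz, d, hd, z', hz', e1, -⟩ := h.E_dec' he
  refine ⟨z, hz, d, hd, z', hz', e1, ?_⟩
  rw [show d = z⁻¹ * e * z'⁻¹ by rw [e1]; group]
  exact mul_mem (mul_mem (inv_mem (V2_E hz)) he) (inv_mem (V6_E hz'))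

theorem D_comm (hd : d ∈ R.E) (hs : d ∈ seg R.U 3 5) (hu : u ∈ R.U 1 ∨ u ∈ R.U 7) : Commute d u := by
  obtain ⟨z, hz, d', hd', z', hz', e1, h1⟩ := h.E_dec' hd
  have h2 := R.left_inj (V_U hz) (one_mem _) (k := 3) (l := 6)
    (mul_mem (seg_mono hd' le_rfl (by norm_num)) (mem_seg (V_U hz') (by norm_num) le_rfl))
    (seg_mono hs le_rfl (by norm_num)) (by norm_num) (by rw [← mul_assoc, ← e1, one_mul])
  have h3 := R.right_inj (V_U hz') (one_mem _) hd' hs (by norm_num) (by rw [h2.2, mul_one])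
  exact h3.1 ▸ h1 u hu

theorem E_cen (he : e ∈ R.E) (hc : ∀ g ∈ seg R.U 1 7, Commute e g) : e ∈ R.V 4 := by
  let A : Subgroup G := R.E ⊓ Subgroup.centralizer (seg R.U 1 7 : Set G)
  have mk : ∀ {x : G}, x ∈ R.E → (∀ g ∈ seg R.U 1 7, Commute x g) → x ∈ A :=
    fun hx hc => ⟨hx, fun g hg => (hc g hg).symm.eq⟩
  have cm : ∀ {x : G}, x ∈ A → ∀ {k : ℤ} {u : G}, u ∈ R.U k → 1 ≤ k → k ≤ 7 → Commute x u :=
    fun hx k u hu h1 h2 => (show Commute u _ from hx.2 u (mem_seg hu h1 h2)).symm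
  have N : ∀ a, a ∈ R.U 0 ∨ a ∈ R.U 8 → ∀ x ∈ A, a * x * a⁻¹ ∈ A := fun a ha x hx => by
    refine mk (ha.elim (fun ha => h.E_conj0 ha hx.1) fun ha => h.E_conj8 ha hx.1) fun g hg => ?_
    have h1 : a⁻¹ * g * a⁻¹⁻¹ ∈ seg R.U 1 7 := ha.elim
      (fun ha => R.conj_seg (mem_seg (inv_mem ha) le_rfl le_rfl) hg (by norm_num))
      fun ha => R.conj_seg (mem_seg (inv_mem ha) le_rfl le_rfl) hg (by norm_num)
    have h2 := hx.2 _ h1
    show _ = _
    calc a * x * a⁻¹ * g = a * (x * (a⁻¹ * g * a⁻¹⁻¹)) * a⁻¹ := by group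
      _ = g * (a * x * a⁻¹) := by rw [← h2]; group
  have A1 : ∀ x ∈ A, x ∈ seg R.U 3 5 := fun x hx => by
    obtain ⟨z, hz, d, hd, z', hz', e1, h1⟩ := h.E_dec' hx.1
    obtain ⟨u, hu, u1⟩ := R.exists_ne 7
    obtain ⟨v, hv, v1⟩ := R.exists_ne 1
    have h2 : z = 1 := (h.nd (by decide) (by norm_num) hz hu (by
      rw [show z = x * z'⁻¹ * d⁻¹ by rw [e1]; group]
      exact (((cm hx hu (by norm_num) le_rfl).mul_left (V_comm (inv_mem hz') hu (by norm_num))).mul_left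
        (h1 u (Or.inr hu)).inv_left).symm)).resolve_left u1
    have h3 : z' = 1 := (h.nd (by decide) (by norm_num) hz' hv (by
      rw [show z' = d⁻¹ * z⁻¹ * x by rw [e1]; group]
      exact (((h1 v (Or.inl hv)).inv_left.mul_left (V_comm (inv_mem hz) hv (by norm_num))).mul_left
        (cm hx hv le_rfl (by norm_num))).symm)).resolve_left v1
    rwa [e1, h2, h3, one_mul, mul_one]
  have A2 : ∀ x ∈ A, x ∈ R.U 4 := fun x hx => by
    obtain ⟨u, hu, y, hy, e1⟩ := R.left (k := 4) (A1 x hx) (by norm_num)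
    obtain ⟨w, hw, w1⟩ :=
      (Subgroup.nontrivial_iff_exists_ne_one _).1 ((R.V 8).nontrivial_iff_ne_bot.2 (h.neV 8 (by decide)))
    obtain ⟨w', hw', w1'⟩ :=
      (Subgroup.nontrivial_iff_exists_ne_one _).1 ((R.V 0).nontrivial_iff_ne_bot.2 (h.neV 0 (by decide)))
    obtain ⟨c, hc, -, e2⟩ := h.conj_V (k := 6) (by decide) (by norm_num) hw hu
    have h1 : c = x⁻¹ * (w * x * w⁻¹) := by
      rw [eq_inv_mul_iff_mul_eq, e1, mul_assoc u, ← (V_comm_seg hc hy (by norm_num)).eq, ← mul_assoc, ← e2,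
        ← mul_assoc w, mul_assoc (w * u) y, ← (V_comm_seg (inv_mem hw) hy (by norm_num)).eq, ← mul_assoc]
    have h2 : c = 1 := R.eq_one_left (V_U hc)
      (A1 c (h1 ▸ mul_mem (inv_mem hx) (N w (Or.inr (V_U hw)) x hx))) (by norm_num)
    have h3 : u = 1 := (h.nd (by decide) (by norm_num) hw hu (by
      rw [h2, mul_one, mul_inv_eq_iff_eq_mul] at e2; exact e2.symm)).resolve_right w1
    rw [h3, one_mul] at e1
    subst e1
    obtain ⟨y, hy, u, hu, e1⟩ := R.right (k := 4) hy (by norm_num)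
    obtain ⟨c, hc, -, e2⟩ := h.conj_V (k := 2) (by decide) (by norm_num) hw' hu
    have h1 : c = x⁻¹ * (w' * x * w'⁻¹) := by
      rw [eq_inv_mul_iff_mul_eq, e1, mul_assoc y, ← e2, ← mul_assoc w',
        (V_comm_seg hw' hy (by norm_num)).eq]
      group
    have h2 : c = 1 := R.eq_one_left (V_U hc)
      (A1 c (h1 ▸ mul_mem (inv_mem hx) (N w' (Or.inl (V_U hw')) x hx))) (by norm_num)
    have h3 : u = 1 := (h.nd (by decide) (by norm_num) hw' hu (by
      rw [h2, mul_one, mul_inv_eq_iff_eq_mul] at e2; exact e2.symm)).resolve_right w1'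
    rw [e1, h3, mul_one]
    exact seg_self hy rfl rfl
  have hA := mk he hc
  have h4 := A2 e hA
  refine R.mem_V.2 ⟨h4, fun j j1 j2 u hu => ?_⟩
  have h5 : u ∈ R.U 0 ∨ u ∈ R.U 8 → ⁅u, e⁆ ∈ R.U 4 := fun h0 => A2 _ (mul_mem (N u h0 e hA) (inv_mem hA))
  by_cases c0 : j = 0
  · subst c0
    exact (commutatorElement_eq_one_iff_commute.1 (R.eq_one_left (h5 (Or.inl hu))
      (R.comm_mem hu h4 (k := 1) (l := 3) (by norm_num)).1 (by norm_num))).symm
  by_cases c8 : j = 8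
  · subst c8
    exact (commutatorElement_eq_one_iff_commute.1 (R.eq_one_left (h5 (Or.inr hu))
      (R.comm_mem h4 hu (k := 5) (l := 7) (by norm_num)).2 (by norm_num))).symm
  exact cm hA hu (by omega) (by omega)

theorem E_U4 (he : e ∈ R.E) (hu : e ∈ R.U 4) : e ∈ R.V 4 := by
  have hs : e ∈ seg R.U 3 5 := mem_seg hu (by norm_num) (by norm_num)
  refine h.E_cen he fun g hg => seg_commute (fun k k1 k2 u hk => ?_) hg
  have h1 := V_U (h.E_Q he (mem_seg hk k1 k2))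
  interval_cases k
  · exact h.D_comm he hs (Or.inl hk)
  · exact commutatorElement_eq_one_iff_commute.1 (R.eq_one_left h1
      (R.comm_mem hk hu (k := 3) (l := 3) (by norm_num)).2 (by norm_num))
  · exact R.adj_comm hu hk (by norm_num)
  · exact h.ci 4 e hu (h.E_sq he) u hk
  · exact R.adj_comm hu hk (by norm_num)
  · exact commutatorElement_eq_one_iff_commute.1 (R.eq_one_left h1
      (R.comm_mem hu hk (k := 5) (l := 5) (by norm_num)).1 (by norm_num))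
  · exact h.D_comm he hs (Or.inr hk)

theorem zz_dec (hz : z ∈ R.V 2) (hw : w ∈ R.V 8) : ∃ z₄ ∈ R.V 4, ∃ x₅ ∈ R.U 5, ∃ z₆ ∈ R.V 6,
    w * z * w⁻¹ = z * z₄ * x₅ * z₆ ∧ x₅ ∈ R.E ∧
      ∀ u, u ∈ R.U 1 ∨ u ∈ R.U 3 ∨ u ∈ R.U 7 ∨ u ∈ R.U 9 → Commute x₅ u := by
  obtain ⟨d, hd, z₆, h6, e1, -⟩ := h.a5' hz (V_U hw)
  have h' := h.line 10 (-1) (Or.inr rfl) (by decide)
  have hw' : w ∈ (R.line 10 (-1) (Or.inr rfl)).V 2 := by rwa [line_V (k := 8) (by norm_num)]
  have hz' : z⁻¹ ∈ (R.line 10 (-1) (Or.inr rfl)).U 8 := by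
    rw [line_U (k := 2) (by norm_num)]; exact inv_mem (V_U hz)
  obtain ⟨d', hd', z₄, h4, e2, -⟩ := h'.a5' hw' hz'
  have hE' : d' ∈ (R.line 10 (-1) (Or.inr rfl)).E := by
    rw [show d' = w⁻¹ * (z⁻¹ * w * z⁻¹⁻¹) * z₄⁻¹ by rw [e2]; group]
    exact mul_mem (mul_mem (inv_mem (V2_E hw')) (gen_E hz' hw')) (inv_mem (V6_E h4))
  have hc : ∀ u, u ∈ R.U 9 ∨ u ∈ R.U 3 → Commute d' u := fun u hu => h'.D_comm hE' hd' (by
    rwa [line_U (k := 9) (by norm_num), line_U (k := 3) (by norm_num)])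
  rw [line_V (k := 4) (by norm_num)] at h4
  rw [line_seg (i' := 5) (j' := 7) (by norm_num)] at hd'
  have e3 : z₄⁻¹ * d = d' * z₆⁻¹ := by
    have c1 := (V_comm_seg hw hd' (by norm_num)).eq
    have c2 := (V_comm h4 (V_U hw) (by norm_num)).eq
    have c3 := (V_comm_seg h4 hd' (by norm_num)).eq
    rw [inv_mul_eq_iff_eq_mul, ← mul_assoc, eq_mul_inv_iff_mul_eq, c3]
    calc d * z₆ = z⁻¹ * (w * z * w⁻¹) := by rw [e1]; group
      _ = z⁻¹ * w * z⁻¹⁻¹ * w⁻¹ := by group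
      _ = d' * z₄ := by rw [e2, c1, mul_assoc d', ← c2]; group
  have hs : z₄⁻¹ * d ∈ seg R.U 3 5 := mul_mem (inv_mem (mem_seg (V_U h4) (by norm_num) (by norm_num))) hd
  have hE : z₄⁻¹ * d ∈ R.E := by
    rw [show d = z⁻¹ * (w * z * w⁻¹) * z₆⁻¹ by rw [e1]; group]
    exact mul_mem (inv_mem (V4_E h4))
      (mul_mem (mul_mem (inv_mem (V2_E hz)) (gen_E (V_U hw) hz)) (inv_mem (V6_E h6)))
  refine ⟨z₄, h4, z₄⁻¹ * d, seg_self (R.inf hs (k := 5) (l := 7) (e3 ▸ mul_mem hd'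
    (inv_mem (mem_seg (V_U h6) (by norm_num) (by norm_num)))) (by norm_num)) rfl rfl, z₆, h6,
    by rw [e1]; group, hE, ?_⟩
  rintro u (hu | hu | hu | hu)
  · exact h.D_comm hE hs (Or.inl hu)
  · exact e3 ▸ (hc u (Or.inr hu)).mul_left (V_comm (inv_mem h6) hu (by norm_num))
  · exact h.D_comm hE hs (Or.inr hu)
  · exact e3 ▸ (hc u (Or.inl hu)).mul_left (V_comm (inv_mem h6) hu (by norm_num))

end Oct

end RD

end CfsgLib.Mouf
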