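import Cfsg.Agent.Lib.Mouf.OS1
import Cfsg.Agent.Lib.Mouf.Fld

/-!
# Package OS3: calculus for the coordinates O3 (see `plans/MOUF.md`)
-/

set_option autoImplicit false

namespace CfsgLib.Mouf
open scoped commutatorElement

theorem os3_conj {G : Type*} [Group G] (w a x : G) :
    w * a * w⁻¹ * (w * x * w⁻¹) * (w * a * w⁻¹)⁻¹ = w * (a * x * a⁻¹) * w⁻¹ := by group

namespace RD.O3
variable {G : Type*} [Group G] {R : RD 8 G} {K : Type} [Field K] {σ : K →+* K} (O : R.O3 K σ) {j k l : ℤ} {a b : K}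
  {g h : G}

theorem ωy (m : ℤ) (e : l = k + m) (t : K) : O.ω ^ m * O.y k t * (O.ω ^ m)⁻¹ = O.y l t := by
  refine e ▸ os1_zpow (f := fun k => O.y k t) (fun k => ?_) m k
  rw [O1.ω, os1_conj, O.n8y, O.n1y, show 5 - (4 - k) = k + 1 by ring]

theorem y_mem (k : ℤ) (t : K) (e : j = 2 * k) : O.y k t ∈ R.U j := by
  exact e ▸ (O.yU k _).2 ⟨t, 0, by rw [O.z_zero, mul_one]⟩

theorem y_zero (k : ℤ) : O.y k 0 = 1 := by
  have := O.yadd k 0 0
  rwa [add_zero, zero_mul, O.z_zero, mul_one, mul_eq_left] at this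

theorem y_inv (k : ℤ) (t : K) : (O.y k t)⁻¹ = O.y k t * O.z k (t * σ t) := by
  refine inv_eq_of_mul_eq_one_right ?_
  rw [← mul_assoc, O.yadd, O.add_self, O.y_zero, one_mul, O.z_sq]

include O in
theorem y_not_V (i : ℤ) (hi : Even i) : ∃ a ∈ R.U i, a ∉ R.V i := by
  obtain ⟨k, rfl⟩ := hi
  refine ⟨_, O.y_mem k 1 (by ring), fun h => ?_⟩
  obtain ⟨t, ht⟩ := O.exists_z h k (by ring)
  exact one_ne_zero (O.yinj k 1 t (by rw [ht, O.z_sq])).1

theorem y_x (u r : K) (e : j = k - 2 ∧ l = k - 1 ∨ j = k + 1 ∧ l = k + 1) :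
    O.y k u * O.x j r * (O.y k u)⁻¹ = O.x j r * O.z l (r * u) := by
  have A : ∀ k, O.y k u * O.x (k - 2) r * (O.y k u)⁻¹ = O.x (k - 2) r * O.z (k - 1) (r * u) := fun k => by
    rw [← O.ωy (k - 4) (k := 4) (by ring), ← O.ωx (k - 4) (k := 2) (by ring), ← O.ωz (k - 4) (k := 3) (by ring),
      os3_conj, (O.dat u).a5, conj_mul]
  rcases e with ⟨rfl, rfl⟩ | ⟨rfl, rfl⟩
  · exact A k
  · have := A (4 - k)
    rw [← O.n8y, show 4 - k - 2 = 3 - (k + 1) by ring, show 4 - k - 1 = 4 - (k + 1) by ring, ← O.n8x, ← O.n8z,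
      os3_conj, conj_mul] at this
    simpa using this

theorem yy (t u : K) (e : l = k + 1) : O.y l u * O.y k t * (O.y l u)⁻¹ = O.y k t * O.x k (t * u) := by
  have A : O.y 2 u * O.y 1 t * (O.y 2 u)⁻¹ = O.y 1 t * O.x 1 (t * u) := by
    obtain ⟨B, hB⟩ := O.exists_x (seg_self (R.comm_mem (inv_mem (O.y_mem 1 t rfl)) (O.y_mem 2 u rfl)
      (k := 3) (l := 3) (by norm_num)).1 rfl rfl) 1 (by norm_num)
    have e1 : O.y 2 u * O.y 1 t = O.y 1 t * O.x 1 B * O.y 2 u := by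
      rw [← hB, commutatorElement_def]; group
    have e2 : O.y 1 t * O.z 4 1 * (O.y 1 t)⁻¹ =
        O.z 4 1 * O.x 3 t * O.x 2 (t * σ t) * O.z 2 (t * t * σ t) := by
      have := congrArg (fun g => O.n1 * g * O.n1⁻¹) ((O.dat t).a2 1)
      simp only [← conj_mul, ← conj_inv, O.n1x, O.n1y, O.n1z, mul_zero, O.z_zero, mul_one, one_mul] at this
      norm_num at this ⊢
      exact this
    have c1 := (O.z_comm 4 1 (O.y_mem 2 u rfl) (by norm_num)).eq
    have c2 := (R.adj_comm (O.y_mem 2 u rfl) (O.x_mem 2 (t * σ t) rfl) (by norm_num)).eq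
    have c3 := (O.z_comm 2 (t * t * σ t) (O.y_mem 2 u rfl) (by norm_num)).eq
    have c4 := (O.z_comm 3 B (O.y_mem 1 t rfl) (by norm_num)).eq
    have c5 := (O.zx_comm (k := 3) (l := 2) (t * u) (t * σ t) (by norm_num)).eq
    have c6 := (O.zz_comm (k := 3) (l := 2) (t * u) (t * t * σ t) (by norm_num)).eq
    have e3 : O.y 2 u * O.y 1 t * O.z 4 1 * (O.y 2 u * O.y 1 t)⁻¹ =
        O.y 1 t * O.z 4 1 * (O.y 1 t)⁻¹ * O.z 3 (t * u) := by
      rw [os1_conj, e2, ← conj_mul, ← conj_mul, ← conj_mul, ← c1, c2, ← c3, mul_inv_cancel_right,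
        mul_inv_cancel_right, mul_inv_cancel_right, O.y_x (l := 3) u t (by norm_num), ← mul_assoc, mul_assoc _ (O.z 3 _), c5,
        ← mul_assoc, mul_assoc _ (O.z 3 _), c6, ← mul_assoc]
    rw [e1, os1_conj, ← c1, mul_inv_cancel_right, os1_conj, O.x_z (l := 3) B 1 (by norm_num), one_mul, ← conj_mul,
      ← c4, mul_inv_cancel_right, mul_right_inj] at e3
    rw [e1, O.z_inj e3, mul_inv_cancel_right]
  rw [← O.ωy (k - 1) (k := 2) (l := l) (by omega), ← O.ωy (k - 1) (k := 1) (l := k) (by ring),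
    ← O.ωx (k - 1) (k := 1) (l := k) (by ring), os3_conj, A, conj_mul]

theorem sc_y (h2 : R.Oct2) (hh : Act R.U h 0 1) (ha : Sc h (O.x j) a) (hb : Sc h (O.z l) b) (a0 : a ≠ 0)
    (e : j = k - 2 ∧ l = k - 1) : Sc h (O.y k) (b / a) := by
  obtain ⟨rfl, rfl⟩ := e
  intro u
  obtain ⟨s, t, e1⟩ := (O.yU k _).1 (hh.conj (O.y_mem k u rfl) (by ring))
  have e2 := congrArg (fun g => h * g * h⁻¹) (O.y_x (k := k) u 1 (Or.inl ⟨rfl, rfl⟩))
  rw [← os3_conj, ← conj_mul (b := h)] at e2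
  rw [← e1, ha, hb, os1_conj, (O.zx_comm t _ (by omega)).eq, mul_inv_cancel_right,
    O.y_x s _ (Or.inl ⟨rfl, rfl⟩), mul_right_inj] at e2
  have e3 : s = b / a * u := by
    have := O.z_inj e2
    field_simp
    linear_combination this
  have A : ∀ u r, O.y k u * O.x (k - 3) r * (O.y k u)⁻¹ =
      O.x (k - 3) r * (O.z (k - 2) (σ r * u) * O.x (k - 2) (r * σ u)) := fun u r => by
    rw [← O.ωy (k - 4) (k := 4) (by ring), ← O.ωx (k - 4) (k := 1) (l := k - 3) (by ring),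
      ← O.ωx (k - 4) (k := 2) (l := k - 2) (by ring), ← O.ωz (k - 4) (k := 2) (by ring),
      os3_conj, (O.dat u).a3, conj_mul, conj_mul, mul_zero, O.z_zero, mul_one, mul_assoc (O.x 1 r)]
  obtain ⟨r, hr⟩ := O.exists_x (hh.conj (k := 2 * (k - 3) + 1) (O.x_mem (k - 3) 1 rfl) (by ring)) (k - 3) rfl
  obtain ⟨c, hc⟩ := O.exists_z (V_conj hh (k := 2 * (k - 2)) (O.z_mem (k - 2) (σ 1 * u) rfl)
    ⟨Or.inl rfl, by ring⟩) (k - 2) rfl
  have r0 : r ≠ 0 := by
    rintro rfl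
    rw [O.x_zero, conj_eq_one_iff] at hr
    exact one_ne_zero (O.xinj _ _ hr)
  have e4 := congrArg (fun g => h * g * h⁻¹) (A u 1)
  rw [← os3_conj, ← conj_mul (b := h), ← conj_mul (b := h)] at e4
  rw [← e1, hr, hc, ha, os1_conj, O.z_x (l := k - 1) r t (by omega), ← conj_mul, A,
    ← (O.z_comm (k - 1) _ (O.y_mem k s rfl) (by omega)).eq, mul_inv_cancel_right, mul_assoc, mul_right_inj] at e4
  rw [← mul_one (O.z (k - 2) c * _), ← O.z_zero (k - 1)] at e4
  have e5 := (O.os1_nf3 (by ring) e4).2.2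
  rw [← e1, (mul_eq_zero.1 e5).resolve_right r0, O.z_zero, mul_one, e3]

/-- the torus of `⟨U₀, U₈⟩` -/
theorem tor' [Finite K] (h2 : R.Oct2) {m : K} (hm : m ≠ 0) : ∃ s, s ≠ 0 ∧ σ s = (m * σ m)⁻¹ ∧ ∃ h : G,
    Sc h (O.x 0) s ∧ Sc h (O.x 1) (σ s / s) ∧ Sc h (O.x 2) (s / σ s) ∧ Sc h (O.x 3) s⁻¹ ∧
    Sc h (O.z 1) s ∧ Sc h (O.z 2) 1 ∧ Sc h (O.z 3) s⁻¹ ∧ Sc h (O.z 4) (σ s)⁻¹ ∧
    Sc h (O.y 1) (σ s / s) ∧ Sc h (O.y 2) 1 ∧ Sc h (O.y 3) (s / σ s) ∧ Sc h (O.y 4) m := by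
  obtain ⟨s, s0, h1, h3⟩ := exists_tits_root σ O.ss hm
  obtain ⟨h, -, hh, z1, z2⟩ := O.tor s s0
  have t0 : σ s ≠ 0 := (map_ne_zero σ).2 s0
  have m0 : σ m ≠ 0 := (map_ne_zero σ).2 hm
  have cg : ∀ {f : K → G} {a b : K}, Sc h f a → a = b → Sc h f b := fun ha e => e ▸ ha
  have z3 := cg (O.sc_up (m := 3) hh z1 z2 s0 (by norm_num)) (show _ = s⁻¹ by simp)
  have z4 := cg (O.sc_up (m := 4) hh z2 z3 one_ne_zero (by norm_num)) (show _ = (σ s)⁻¹ by simp)
  have z0 := cg (O.sc_up (m := 0) hh z2 z1 one_ne_zero (by norm_num)) (div_one _)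
  have x0 := cg (O.sc_x (j := 0) hh z3 z2 (inv_ne_zero s0) (by norm_num)) (show _ = s by simp)
  have x1 := cg (O.sc_x (j := 1) hh z4 z3 (inv_ne_zero t0) (by norm_num)) (show _ = σ s / s by field_simp)
  have x2 := O.sc_x (j := 2) hh z0 z1 t0 (by norm_num)
  have x3 := cg (O.sc_x (j := 3) hh z1 z2 s0 (by norm_num)) (one_div _)
  have x9 := cg (O.sc_x (j := -1) hh z2 z1 one_ne_zero (by norm_num)) (div_one _)
  refine ⟨s, s0, h1, h, x0, x1, x2, x3, z1, z2, z3, z4, O.sc_y h2 hh x9 z0 s0 (by norm_num),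
    cg (O.sc_y h2 hh x0 z1 s0 (by norm_num)) (div_self s0),
    cg (O.sc_y h2 hh x1 z2 (div_ne_zero t0 s0) (by norm_num)) (by field_simp),
    cg (O.sc_y h2 hh x2 z3 (div_ne_zero s0 t0) (by norm_num)) ?_⟩
  rw [show s⁻¹ / (s / σ s) = σ s / (s * s) by field_simp, h1, h3]
  field_simp

include O in
theorem card : Nat.card (R.U 1) = Nat.card K ∧ Nat.card (R.U 0) = Nat.card K ^ 2 := by
  constructor
  · exact (Nat.card_eq_of_bijective (fun t : K => (⟨O.x 0 t, O.x_mem 0 t (by norm_num)⟩ : R.U 1))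
      ⟨fun s t e => O.x_inj (congrArg Subtype.val e), fun g =>
        (O.exists_x g.2 0 (by norm_num)).imp fun t e => Subtype.ext e.symm⟩).symm
  · rw [sq, ← Nat.card_prod]
    refine (Nat.card_eq_of_bijective (fun p : K × K => (⟨O.y 0 p.1 * O.z 0 p.2,
      mul_mem (O.y_mem 0 _ (by norm_num)) (O.z_memU 0 _ (by norm_num))⟩ : R.U 0)) ⟨fun p q e => ?_, fun g => ?_⟩).symm
    · have e1 : O.y 0 p.1 * O.z 0 p.2 = O.y 0 q.1 * O.z 0 q.2 := congrArg Subtype.val e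
      have e2 : q.1 = p.1 := by
        have := (O.yinj 0 (p.1 + q.1) (p.1 * σ q.1 + (q.2 + (p.2 + p.1 * σ p.1))) (by
          rw [O.zadd, ← mul_assoc, ← O.yadd, O.zadd, mul_assoc, ← mul_assoc (O.y 0 q.1), ← e1, O.zadd, mul_assoc,
            ← mul_assoc (O.z 0 p.2), O.z_sq, one_mul, ← O.y_inv, mul_inv_cancel])).1
        linear_combination this - O.add_self p.1
      rw [e2, mul_right_inj] at e1
      exact Prod.ext e2.symm (O.z_inj e1)
    · obtain ⟨s, t, e⟩ := (O.yU 0 g).1 (by simpa using g.2)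
      exact ⟨(s, t), Subtype.ext e⟩

include O in
/-- transport along an isomorphism of fields -/
theorem comap {K' : Type} [Field K'] {σ' : K' →+* K'} (e : K' ≃+* K) (he : ∀ t, e (σ' t) = σ (e t)) :
    Nonempty (R.O3 K' σ') := by
  refine ⟨{
    x := fun k t => O.x k (e t)
    z := fun k t => O.z k (e t)
    y := fun k t => O.y k (e t)
    n1 := O.n1
    n8 := O.n8
    two := e.injective (by rw [map_ofNat, O.two, map_zero])
    xadd := fun k s t => by rw [map_add, O.xadd]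
    zadd := fun k s t => by rw [map_add, O.zadd]
    xU := fun k g => by rw [O.xU, e.surjective.exists]
    zV := fun k g => by rw [O.zV, e.surjective.exists]
    xinj := fun k t h => e.map_eq_zero_iff.1 (O.xinj k _ h)
    zinj := fun k t h => e.map_eq_zero_iff.1 (O.zinj k _ h)
    n1n1 := O.n1n1
    n8n8 := O.n8n8
    mu1 := by simpa using O.mu1
    mu8 := by simpa using O.mu8
    n1x := fun k t => O.n1x k _
    n1z := fun k t => O.n1z k _
    n8x := fun k t => O.n8x k _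
    n8z := fun k t => O.n8z k _
    xz := fun r t => by rw [O.xz, map_mul]
    sc := fun v p q hm => by
      obtain ⟨s, hs⟩ := O.sc _ p q hm
      exact ⟨e.symm s, fun t => by rw [hs, map_mul, e.apply_symm_apply]⟩
    c := 1
    c0 := one_ne_zero
    ss := fun t => e.injective (by rw [he, he, O.ss, map_mul])
    zz := fun v t => by simp [O.zz, he, O.c1]
    tor := fun s hs => by
      obtain ⟨h, h1, h2, h3, h4⟩ := O.tor (e s) (by simpa using hs)
      exact ⟨h, h1, h2, fun t => by simp [h3 _], fun t => by simp [h4 _]⟩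
    c1 := rfl
    yadd := fun k s t => by simp [O.yadd, he]
    yU := fun k g => by simp only [O.yU, e.surjective.exists]
    yinj := fun k s t h => by simpa using O.yinj k _ _ h
    n1y := fun k t => O.n1y k _
    n8y := fun k t => O.n8y k _
    dat := fun u => ⟨fun r => by simp [(O.dat _).a5], fun r => by simp [(O.dat _).a3, he],
      fun r => by simp [(O.dat _).a2, he]⟩
    st := by simpa using O.st }⟩

end RD.O3

end CfsgLib.Mouf
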