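import Cfsg.Agent.Lib.Mouf.Glue
import Cfsg.Agent.Lib.Mouf.OR
import Cfsg.Agent.Lib.Mouf.OY
import Cfsg.Agent.Lib.Mouf.OS3

/-!
# Package OG1: the graphs for two octagons (see `plans/MOUF.md`)
-/

set_option autoImplicit false

namespace CfsgLib.Mouf
open scoped commutatorElement

theorem og_mem {G G' : Type*} [Group G] [Group G'] {H : Subgroup (G × G')} {a b c : G} {a' b' c' : G'}
    (h : a * b * a⁻¹ = c) (h' : a' * b' * a'⁻¹ = c') (m : (c, c') ∈ H) : (a, a') * (b, b') * (a, a')⁻¹ ∈ H := by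
  rwa [← h, ← h'] at m

namespace RD.O3

section One
variable {G : Type*} [Group G] {R : RD 8 G} {K : Type} [Field K] {σ : K →+* K} (O : R.O3 K σ)

theorem zy_comm {k l : ℤ} (t s : K) (e : k - 2 ≤ l ∧ l ≤ k + 2) : Commute (O.z k t) (O.y l s) :=
  O.z_comm k t (O.y_mem l s rfl) (by omega)

theorem yz_mul (k : ℤ) (s t s' t' : K) :
    O.y k s * O.z k t * (O.y k s' * O.z k t') = O.y k (s + s') * O.z k (s * σ s' + t + t') := by
  rw [mul_assoc, (O.zy_comm t s' (by omega)).left_comm, ← mul_assoc, O.yadd, O.zadd, O.zadd, mul_assoc, mul_assoc]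

theorem yz_inv (k : ℤ) (s t : K) : (O.y k s * O.z k t)⁻¹ = O.y k s * O.z k (t + s * σ s) := by
  rw [mul_inv_rev, O.y_inv, O.z_inv, (O.zy_comm t s (by omega)).left_comm, O.zadd]

theorem yz_mem (k : ℤ) (s t : K) {j : ℤ} (e : j = 2 * k) : O.y k s * O.z k t ∈ R.U j :=
  mul_mem (O.y_mem k s e) (O.z_memU k t e)

theorem r24 (s t s' t' : K) : O.y 2 s' * O.z 2 t' * (O.y 1 s * O.z 1 t) * (O.y 2 s' * O.z 2 t')⁻¹ =
    O.y 1 s * O.z 1 t * O.x 1 (s * s') := by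
  rw [os1_conj, or_cj (O.z_comm 2 t' (O.yz_mem 1 s t rfl) (by norm_num)), or_mul, O.yy _ _ (by norm_num),
    or_cj (O.zy_comm t s' (by norm_num)).symm, (O.zx_comm t _ (by norm_num)).symm.right_comm]

theorem dat_yz (h : R.Oct2) (s t : K) : O.Dat σ (O.y 4 s * O.z 4 t) s (s * σ s + t) t (s * s * σ s + σ t + t * s) s (σ s)
    t s :=
  ((O.dat s).mul h (O.y_mem 4 s (by norm_num)) (O.dat_z t)).congr (by simp [O.c1])

theorem r17 (h : R.Oct2) (t u : K) : ⁅O.x 0 t, O.x 3 u⁆ = O.x 1 (σ t * u) * O.x 2 (t * σ u) := by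
  rw [commutatorElement_def, O.xx h, mul_assoc (O.x 3 u),
    or_cj ((O.xx_comm h _ _ (by norm_num)).mul_right (O.xx_comm h _ _ (by norm_num)))]

end One

variable {G G' : Type*} [Group G] [Group G'] {R : RD 8 G} {R' : RD 8 G'} {K : Type} [Field K] {σ : K →+* K}
  (O : R.O3 K σ) (O' : R'.O3 K σ) {i j k : ℤ} {g : G × G'}

/-- the graphs -/
def Gam (i : ℤ) : Subgroup (G × G') := Subgroup.closure {g | ∃ k t, i = 2 * k + 1 ∧ g = (O.x k t, O'.x k t) ∨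
  i = 2 * k ∧ (g = (O.y k t, O'.y k t) ∨ g = (O.z k t, O'.z k t))}

theorem x_Gam (k : ℤ) (t : K) (e : i = 2 * k + 1) : (O.x k t, O'.x k t) ∈ O.Gam O' i :=
  Subgroup.subset_closure ⟨k, t, .inl ⟨e, rfl⟩⟩

theorem y_Gam (k : ℤ) (t : K) (e : i = 2 * k) : (O.y k t, O'.y k t) ∈ O.Gam O' i :=
  Subgroup.subset_closure ⟨k, t, .inr ⟨e, .inl rfl⟩⟩

theorem z_Gam (k : ℤ) (t : K) (e : i = 2 * k) : (O.z k t, O'.z k t) ∈ O.Gam O' i :=
  Subgroup.subset_closure ⟨k, t, .inr ⟨e, .inr rfl⟩⟩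

theorem Gam_odd (hg : g ∈ O.Gam O' i) (k : ℤ) (e : i = 2 * k + 1) : ∃ t, g = (O.x k t, O'.x k t) := by
  induction hg using Subgroup.closure_induction with
  | mem x hx =>
    obtain ⟨l, t, ⟨e', rfl⟩ | ⟨e', -⟩⟩ := hx
    · exact ⟨t, by rw [show l = k by omega]⟩
    · omega
  | one => exact ⟨0, Prod.ext (O.x_zero k).symm (O'.x_zero k).symm⟩
  | mul x y _ _ hx hy =>
    obtain ⟨s, rfl⟩ := hx
    obtain ⟨t, rfl⟩ := hy
    exact ⟨s + t, Prod.ext (O.xadd k s t).symm (O'.xadd k s t).symm⟩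
  | inv x _ hx =>
    obtain ⟨s, rfl⟩ := hx
    exact ⟨s, Prod.ext (O.x_inv k s) (O'.x_inv k s)⟩

theorem Gam_even (hg : g ∈ O.Gam O' i) (k : ℤ) (e : i = 2 * k) :
    ∃ s t, g = (O.y k s, O'.y k s) * (O.z k t, O'.z k t) := by
  induction hg using Subgroup.closure_induction with
  | mem x hx =>
    obtain ⟨l, t, ⟨e', -⟩ | ⟨e', rfl | rfl⟩⟩ := hx
    · omega
    · exact ⟨t, 0, by simp [show l = k by omega, O.z_zero, O'.z_zero]⟩
    · exact ⟨0, t, by simp [show l = k by omega, O.y_zero, O'.y_zero]⟩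
  | one => exact ⟨0, 0, by simp [O.z_zero, O'.z_zero, O.y_zero, O'.y_zero, Prod.ext_iff]⟩
  | mul x y _ _ hx hy =>
    obtain ⟨s, t, rfl⟩ := hx
    obtain ⟨s', t', rfl⟩ := hy
    exact ⟨_, _, Prod.ext (O.yz_mul k s t s' t') (O'.yz_mul k s t s' t')⟩
  | inv x _ hx =>
    obtain ⟨s, t, rfl⟩ := hx
    exact ⟨_, _, Prod.ext (O.yz_inv k s t) (O'.yz_inv k s t)⟩

theorem mat (a b : ℤ) : R.Match R' (O.Gam O') a b := by
  refine ⟨fun i _ _ g hg => ?_, fun i _ _ u hu => ?_, fun i _ _ u hu => ?_, fun i _ _ g hg => ?_⟩ <;>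
    obtain ⟨k, e | e⟩ := Int.even_or_odd' i
  · obtain ⟨s, t, rfl⟩ := O.Gam_even O' hg k e
    exact ⟨O.yz_mem k s t e, O'.yz_mem k s t e⟩
  · obtain ⟨t, rfl⟩ := O.Gam_odd O' hg k e
    exact ⟨O.x_mem k t e, O'.x_mem k t e⟩
  · obtain ⟨s, t, rfl⟩ := (O.yU k u).1 (e ▸ hu)
    exact ⟨_, mul_mem (O.y_Gam O' k s e) (O.z_Gam O' k t e)⟩
  · obtain ⟨t, rfl⟩ := O.exists_x hu k e
    exact ⟨_, O.x_Gam O' k t e⟩
  · obtain ⟨s, t, rfl⟩ := (O'.yU k u).1 (e ▸ hu)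
    exact ⟨_, mul_mem (O.y_Gam O' k s e) (O.z_Gam O' k t e)⟩
  · obtain ⟨t, rfl⟩ := O'.exists_x hu k e
    exact ⟨_, O.x_Gam O' k t e⟩
  · obtain ⟨s, t, rfl⟩ := O.Gam_even O' hg k e
    refine ⟨fun h => ?_, fun h => ?_⟩
    · obtain ⟨rfl, rfl⟩ := O.yinj k s t h
      simp [O'.y_zero, O'.z_zero]
    · obtain ⟨rfl, rfl⟩ := O'.yinj k s t h
      simp [O.y_zero, O.z_zero]
  · obtain ⟨t, rfl⟩ := O.Gam_odd O' hg k e
    exact ⟨fun h => by rw [O.xinj k t h]; exact O'.x_zero k, fun h => by rw [O'.xinj k t h]; exact O.x_zero k⟩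

/-- an element permuting the coordinates -/
theorem Gam_conj {w : G × G'} {i' : ℤ}
    (hx : ∀ k t, i = 2 * k + 1 → w * (O.x k t, O'.x k t) * w⁻¹ ∈ O.Gam O' i')
    (hy : ∀ k t, i = 2 * k → w * (O.y k t, O'.y k t) * w⁻¹ ∈ O.Gam O' i')
    (hz : ∀ k t, i = 2 * k → w * (O.z k t, O'.z k t) * w⁻¹ ∈ O.Gam O' i') (hg : g ∈ O.Gam O' i) :
    w * g * w⁻¹ ∈ O.Gam O' i' := by
  obtain ⟨k, e | e⟩ := Int.even_or_odd' i
  · obtain ⟨s, t, rfl⟩ := O.Gam_even O' hg k e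
    rw [or_mul]
    exact mul_mem (hy k s e) (hz k t e)
  · obtain ⟨t, rfl⟩ := O.Gam_odd O' hg k e
    exact hx k t e

theorem act_of_invol {U : ℤ → Subgroup G} {w : G} {c : ℤ} (h2 : w * w = 1)
    (h : ∀ j, ∀ g ∈ U j, w * g * w⁻¹ ∈ U (c + -1 * j)) : Act U w c (-1) := fun j g => ⟨h j g, fun hg => by
  have := h _ _ hg
  rwa [← os1_conj, h2, one_mul, inv_one, mul_one, show c + -1 * (c + -1 * j) = j by ring] at this⟩

theorem act1 : Act (O.Gam O') (O.n1, O'.n1) 10 (-1) :=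
  act_of_invol (Prod.ext O.n1n1 O'.n1n1) fun j g hg => O.Gam_conj O'
    (fun k t e => og_mem (O.n1x k t) (O'.n1x k t) (O.x_Gam O' _ t (by omega)))
    (fun k t e => og_mem (O.n1y k t) (O'.n1y k t) (O.y_Gam O' _ t (by omega)))
    (fun k t e => og_mem (O.n1z k t) (O'.n1z k t) (O.z_Gam O' _ t (by omega))) hg

theorem act8 : Act (O.Gam O') (O.n8, O'.n8) 8 (-1) :=
  act_of_invol (Prod.ext O.n8n8 O'.n8n8) fun j g hg => O.Gam_conj O'
    (fun k t e => og_mem (O.n8x k t) (O'.n8x k t) (O.x_Gam O' _ t (by omega)))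
    (fun k t e => og_mem (O.n8y k t) (O'.n8y k t) (O.y_Gam O' _ t (by omega)))
    (fun k t e => og_mem (O.n8z k t) (O'.n8z k t) (O.z_Gam O' _ t (by omega))) hg

theorem actω (m : ℤ) : Act (O.Gam O') (O.ω ^ m, O'.ω ^ m) (2 * m) 1 := by
  have key : ∀ (m j j' : ℤ), j' = 2 * m + 1 * j → ∀ g ∈ O.Gam O' j,
      (O.ω ^ m, O'.ω ^ m) * g * (O.ω ^ m, O'.ω ^ m)⁻¹ ∈ O.Gam O' j' := fun m j j' e' g hg => O.Gam_conj O'
    (fun k t e => og_mem (O.ωx m rfl t) (O'.ωx m rfl t) (O.x_Gam O' _ t (by omega)))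
    (fun k t e => og_mem (O.ωy m rfl t) (O'.ωy m rfl t) (O.y_Gam O' _ t (by omega)))
    (fun k t e => og_mem (O.ωz m rfl t) (O'.ωz m rfl t) (O.z_Gam O' _ t (by omega))) hg
  refine fun j g => ⟨key m j _ rfl g, fun hg => ?_⟩
  have := key (-m) _ j (by ring) _ hg
  rwa [← os1_conj, show (O.ω ^ (-m), O'.ω ^ (-m)) * (O.ω ^ m, O'.ω ^ m) = 1 from Prod.ext (by simp) (by simp),
    one_mul, inv_one, mul_one] at this

/-- the commutator relation for one pair -/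
def C (i j : ℤ) : Prop := ∀ u ∈ O.Gam O' i, ∀ v ∈ O.Gam O' j, ⁅u, v⁆ ∈ seg (O.Gam O') (i + 1) (j - 1)

variable {O O'}

theorem C.shift {i' j' : ℤ} (h : O.C O' i j) (m : ℤ) (e : i' = i + 2 * m ∧ j' = j + 2 * m) : O.C O' i' j' := by
  intro u hu v hv
  have a := O.actω O' m
  have := a.seg (i' := i' + 1) (j' := j' - 1) (h _ (a.conj_inv hu (by omega)) _ (a.conj_inv hv (by omega))) (by omega)
  convert this using 1
  simp only [commutatorElement_def]; group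

theorem C.rev {i' j' : ℤ} (h : O.C O' i j) (e : i' = 8 - j ∧ j' = 8 - i) : O.C O' i' j' := by
  intro u hu v hv
  have a := O.act8 O'
  have := a.seg (i' := i' + 1) (j' := j' - 1) (h _ (a.conj_inv hv (by omega)) _ (a.conj_inv hu (by omega))) (by omega)
  convert inv_mem this using 1
  simp only [commutatorElement_def]; group

theorem C.of_conj (h : ∀ u ∈ O.Gam O' i, ∀ v ∈ O.Gam O' j, ∃ w ∈ seg (O.Gam O') (i + 1) (j - 1),
    v * u * v⁻¹ = u * w) : O.C O' i j := fun u hu v hv => by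
  obtain ⟨w, hw, e⟩ := h _ (inv_mem hu) v hv
  rwa [commutatorElement_def, mul_assoc, mul_assoc, ← mul_assoc v, e, mul_inv_cancel_left]

theorem C.of_comm (h : ∀ u ∈ R.U i, ∀ v ∈ R.U j, Commute u v) (h' : ∀ u ∈ R'.U i, ∀ v ∈ R'.U j, Commute u v) :
    O.C O' i j := fun u hu v hv => by
  have a := (O.mat O' i i).le i le_rfl le_rfl u hu
  have b := (O.mat O' j j).le j le_rfl le_rfl v hv
  rw [commutatorElement_eq_one_iff_commute.2 (show u * v = v * u from Prod.ext (h _ a.1 _ b.1) (h' _ a.2 _ b.2))]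
  exact one_mem _

variable (O O') (h : R.Oct2) (h' : R'.Oct2)

theorem C24 : O.C O' 2 4 := C.of_conj fun u hu v hv => by
  obtain ⟨s, t, rfl⟩ := O.Gam_even O' hu 1 rfl
  obtain ⟨s', t', rfl⟩ := O.Gam_even O' hv 2 rfl
  exact ⟨_, mem_seg (O.x_Gam O' 1 (s * s') rfl) (by norm_num) (by norm_num),
    Prod.ext (O.r24 s t s' t') (O'.r24 s t s' t')⟩

include h h'

theorem C58 : O.C O' 5 8 := C.of_conj fun u hu v hv => by
  obtain ⟨r, rfl⟩ := O.Gam_odd O' hu 2 rfl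
  obtain ⟨s, t, rfl⟩ := O.Gam_even O' hv 4 rfl
  exact ⟨_, mem_seg (O.z_Gam O' 3 (r * s) rfl) (by norm_num) (by norm_num),
    Prod.ext ((O.dat_yz h s t).a5 r) ((O'.dat_yz h' s t).a5 r)⟩

theorem C38 : O.C O' 3 8 := C.of_conj fun u hu v hv => by
  obtain ⟨r, rfl⟩ := O.Gam_odd O' hu 1 rfl
  obtain ⟨s, t, rfl⟩ := O.Gam_even O' hv 4 rfl
  refine ⟨_, mul_mem (mul_mem (mem_seg (O.z_Gam O' 2 (σ r * s) rfl) (by norm_num) (by norm_num))
    (mem_seg (O.x_Gam O' 2 (r * σ s) rfl) (by norm_num) (by norm_num)))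
    (mem_seg (O.z_Gam O' 3 (r * t) rfl) (by norm_num) (by norm_num)), ?_⟩
  rw [← mul_assoc, ← mul_assoc]
  exact Prod.ext ((O.dat_yz h s t).a3 r) ((O'.dat_yz h' s t).a3 r)

theorem C17 : O.C O' 1 7 := fun u hu v hv => by
  obtain ⟨r, rfl⟩ := O.Gam_odd O' hu 0 rfl
  obtain ⟨s, rfl⟩ := O.Gam_odd O' hv 3 rfl
  rw [show ⁅(O.x 0 r, O'.x 0 r), (O.x 3 s, O'.x 3 s)⁆ = (_, _) * (_, _) from Prod.ext (O.r17 h r s) (O'.r17 h' r s)]
  exact mul_mem (mem_seg (O.x_Gam O' 1 _ rfl) (by norm_num) (by norm_num))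
    (mem_seg (O.x_Gam O' 2 _ rfl) (by norm_num) (by norm_num))

theorem C_small (e : i < j ∧ (j ≤ i + 5 ∨ j = i + 6 ∧ Odd i)) : O.C O' i j := by
  have hd : j = i + 1 ∨ j = i + 2 ∨ j = i + 3 ∨ j = i + 4 ∨ j = i + 5 ∨ j = i + 6 ∧ Odd i := by
    rcases e with ⟨e1, e2 | e2⟩
    · omega
    · tauto
  obtain ⟨k, ek | ek⟩ := Int.even_or_odd' i <;> rcases hd with d | d | d | d | d | ⟨d, ho⟩
  · exact C.of_comm (fun u hu v hv => R.adj_comm hu hv (.inl d)) fun u hu v hv => R'.adj_comm hu hv (.inl d)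
  · exact (O.C24 O').shift (k - 1) (by omega)
  · exact ((O.C58 O' h h').rev (i' := 0) (j' := 3) (by norm_num)).shift k (by omega)
  · exact C.of_comm (h.c4 i j d) (h'.c4 i j d)
  · exact ((O.C38 O' h h').rev (i' := 0) (j' := 5) (by norm_num)).shift k (by omega)
  · obtain ⟨l, hl⟩ := ho
    omega
  · exact C.of_comm (fun u hu v hv => R.adj_comm hu hv (.inl d)) fun u hu v hv => R'.adj_comm hu hv (.inl d)
  · exact C.of_comm (h.c2 i j ⟨k, ek⟩ d) (h'.c2 i j ⟨k, ek⟩ d)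
  · exact (O.C58 O' h h').shift (k - 2) (by omega)
  · exact C.of_comm (h.c4 i j d) (h'.c4 i j d)
  · exact (O.C38 O' h h').shift (k - 1) (by omega)
  · exact (O.C17 O' h h').shift k (by omega)

theorem comm_small {a b : ℤ} (e : b ≤ a + 5 ∨ b = a + 6 ∧ Odd a) : Comm 8 (O.Gam O') a b := by
  intro i j h1 h2 h3 _
  refine O.C_small O' h h' ⟨h2, ?_⟩
  rcases e with e | ⟨e, ho⟩
  · exact .inl (by omega)
  · by_cases d : j ≤ i + 5
    · exact .inl d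
    · exact .inr ⟨by omega, by rwa [show i = a by omega]⟩

end RD.O3

end CfsgLib.Mouf
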