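import Cfsg.Agent.Lib.Mouf.OG1

/-!
# Package OG2: the long relations for two octagons (see `plans/MOUF.md`)
-/

set_option autoImplicit false

namespace CfsgLib.Mouf
open scoped commutatorElement

theorem Sc.inv {G : Type*} [Group G] {K : Type} [Field K] {k : G} {f : K → G} {a : K} (h : Sc k f a) (ha : a ≠ 0) :
    Sc k⁻¹ f a⁻¹ := fun t => by
  rw [show f t = k * f (a⁻¹ * t) * k⁻¹ by rw [h, mul_inv_cancel_left₀ ha]]; group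

namespace RD.O3
variable {G G' : Type*} [Group G] [Group G'] {R : RD 8 G} {R' : RD 8 G'} {K : Type} [Field K] {σ : K →+* K}
  (O : R.O3 K σ) (O' : R'.O3 K σ) (h : R.Oct2) (h' : R'.Oct2) {g : G × G'}

theorem xhat_sq (k : ℤ) (t : K) : (O.x k t, O'.x k t) * (O.x k t, O'.x k t) = 1 := Prod.ext (O.x_sq k t) (O'.x_sq k t)

theorem zhat_sq (k : ℤ) (t : K) : (O.z k t, O'.z k t) * (O.z k t, O'.z k t) = 1 := Prod.ext (O.z_sq k t) (O'.z_sq k t)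

theorem C.conj {O : R.O3 K σ} {O' : R'.O3 K σ} {i j a b : ℤ} (c : O.C O' i j) {u v : G × G'} (hu : u ∈ O.Gam O' i)
    (hv : v ∈ O.Gam O' j) (e : a ≤ i ∧ i ≤ b ∧ j - 1 ≤ b) : v * u * v⁻¹ ∈ seg (O.Gam O') a b := by
  rw [show v * u * v⁻¹ = ⁅u, v⁆⁻¹ * u by rw [commutatorElement_def]; group]
  exact mul_mem (inv_mem (seg_mono (c u hu v hv) (by omega) (by omega))) (mem_seg hu e.1 e.2.1)

theorem norm17 {k : G} {k' : G'} (hx : ∀ j, 0 ≤ j → j ≤ 3 → ∃ a, a ≠ 0 ∧ Sc k (O.x j) a ∧ Sc k' (O'.x j) a)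
    (hy : ∀ j, 1 ≤ j → j ≤ 3 → ∃ a, a ≠ 0 ∧ Sc k (O.y j) a ∧ Sc k' (O'.y j) a)
    (hz : ∀ j, 1 ≤ j → j ≤ 3 → ∃ a, a ≠ 0 ∧ Sc k (O.z j) a ∧ Sc k' (O'.z j) a) (hg : g ∈ seg (O.Gam O') 1 7) :
    (k, k') * g * (k, k')⁻¹ ∈ seg (O.Gam O') 1 7 := by
  refine seg_conj (fun i h1 h2 u hu => mem_seg (k := i) (O.Gam_conj O' (fun j t e => ?_) (fun j t e => ?_)
    (fun j t e => ?_) hu) h1 h2) hg
  · obtain ⟨a, -, e1, e2⟩ := hx j (by omega) (by omega)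
    exact og_mem (e1 t) (e2 t) (O.x_Gam O' j _ e)
  · obtain ⟨a, -, e1, e2⟩ := hy j (by omega) (by omega)
    exact og_mem (e1 t) (e2 t) (O.y_Gam O' j _ e)
  · obtain ⟨a, -, e1, e2⟩ := hz j (by omega) (by omega)
    exact og_mem (e1 t) (e2 t) (O.z_Gam O' j _ e)

include h h'

theorem G8_z1 {a : G × G'} (ha : a ∈ O.Gam O' 8) (v : K) : ∃ w ∈ seg (O.Gam O') 3 6,
    a * (O.z 1 v, O'.z 1 v) * a⁻¹ = (O.z 1 v, O'.z 1 v) * w := by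
  obtain ⟨s, t, rfl⟩ := O.Gam_even O' ha 4 rfl
  refine ⟨_, mul_mem (mul_mem (mul_mem (mem_seg (O.x_Gam O' 1 (v * s) rfl) (by norm_num) (by norm_num))
    (mem_seg (O.z_Gam O' 2 (σ v * t) rfl) (by norm_num) (by norm_num)))
    (mem_seg (O.x_Gam O' 2 (v * (s * σ s + t)) rfl) (by norm_num) (by norm_num)))
    (mem_seg (O.z_Gam O' 3 (v * (s * s * σ s + σ t + t * s)) rfl) (by norm_num) (by norm_num)), ?_⟩
  rw [← mul_assoc, ← mul_assoc, ← mul_assoc]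
  exact Prod.ext ((O.dat_yz h s t).a2 v) ((O'.dat_yz h' s t).a2 v)

theorem z8_27 (v : K) (hg : g ∈ seg (O.Gam O') 2 7) :
    (O.z 4 v, O'.z 4 v) * g * (O.z 4 v, O'.z 4 v)⁻¹ ∈ seg (O.Gam O') 2 7 := by
  refine seg_conj (fun k h1 h2 u hu => ?_) hg
  by_cases h3 : 3 ≤ k
  · exact (O.C_small O' h h' (j := 8) (by omega)).conj hu (O.z_Gam O' 4 v rfl) (by omega)
  obtain rfl : k = 2 := by omega
  have a := O.act1 O'
  obtain ⟨w, hw, e⟩ := O.G8_z1 O' h h' (a.conj_inv (j := 8) hu (by norm_num)) v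
  have e1 : (O.n1, O'.n1) * (O.z 1 v, O'.z 1 v) * (O.n1, O'.n1)⁻¹ = (O.z 4 v, O'.z 4 v) :=
    Prod.ext (O.n1z 1 v) (O'.n1z 1 v)
  have e2 : (O.z 4 v, O'.z 4 v) * u * (O.z 4 v, O'.z 4 v)⁻¹ = (O.n1, O'.n1) * w * (O.n1, O'.n1)⁻¹ * u := by
    rw [← inv_mul_eq_iff_eq_mul.2 e, inv_eq_of_mul_eq_one_right (O.zhat_sq O' 1 v),
      inv_eq_of_mul_eq_one_right (O.zhat_sq O' 4 v), ← e1]
    group
  rw [e2]
  exact mul_mem (seg_mono (a.seg (i' := 4) (j' := 7) hw (by norm_num)) (by norm_num) le_rfl)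
    (mem_seg hu le_rfl (by norm_num))

theorem xz_aux (s v : K) : ∃ B ∈ seg (O.Gam O') 2 7, ∃ a,
    ⁅(O.x 0 s, O'.x 0 s), (O.z 4 v, O'.z 4 v)⁆ = B * (1, O'.z 2 a) := by
  by_cases hs : s = 0
  · exact ⟨1, one_mem _, 0, by simp [hs, O.x_zero, O'.x_zero, O'.z_zero, commutatorElement_def]⟩
  have M := O.mat O' 1 8
  have c27 := O.comm_small O' h h' (a := 2) (b := 7) (by norm_num)
  have xs := O.xhat_sq O' 0 s
  have zs := O.zhat_sq O' 4 v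
  have nx : ∀ w ∈ seg (O.Gam O') 2 7, (O.x 0 s, O'.x 0 s) * w * (O.x 0 s, O'.x 0 s)⁻¹ ∈ seg (O.Gam O') 2 7 :=
    fun w hw => (O.comm_small O' h h' (a := 1) (b := 7) (.inr ⟨rfl, by decide⟩)).conj
      (mem_seg (O.x_Gam O' 0 s rfl) le_rfl le_rfl) hw (by norm_num)
  have nz := fun w => O.z8_27 O' h h' v (g := w)
  have m1 := (R.comm_mem (O.x_mem 0 s (j := 1) rfl) (O.z_memU 4 v (j := 8) rfl) (k := 2) (l := 7) (by norm_num)).1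
  have m2 := (R'.comm_mem (O'.x_mem 0 s (j := 1) rfl) (O'.z_memU 4 v (j := 8) rfl) (k := 2) (l := 7) (by norm_num)).1
  change ⁅(O.x 0 s, O'.x 0 s), (O.z 4 v, O'.z 4 v)⁆.1 ∈ _ at m1
  change ⁅(O.x 0 s, O'.x 0 s), (O.z 4 v, O'.z 4 v)⁆.2 ∈ _ at m2
  set x := (O.x 0 s, O'.x 0 s) with ex
  set z := (O.z 4 v, O'.z 4 v)
  have xA : x * ⁅x, z⁆ * x⁻¹ = ⁅x, z⁆⁻¹ := by
    rw [commutatorElement_inv, commutatorElement_def, commutatorElement_def]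
    calc _ = x * x * z * x⁻¹ * z⁻¹ * x⁻¹ := by group
      _ = _ := by rw [xs, one_mul, inv_eq_of_mul_eq_one_right xs]
  have nA : ∀ w ∈ seg (O.Gam O') 2 7, ⁅x, z⁆ * w * ⁅x, z⁆⁻¹ ∈ seg (O.Gam O') 2 7 := fun w hw => by
    rw [commutatorElement_def, inv_eq_of_mul_eq_one_right xs, inv_eq_of_mul_eq_one_right zs, os1_conj, os1_conj,
      os1_conj]
    exact nx _ (nz _ (nx _ (nz _ hw)))
  set A := ⁅x, z⁆
  obtain ⟨B2, hB⟩ := M.lift m1 (by norm_num)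
  have mB := (M.seg_le hB (by norm_num)).2
  have cen := fun w hw => M.comm_snd c27 (by norm_num) (g := A) (g' := (A.1, B2)) rfl nA
    (fun w hw => mul_mem (mul_mem hB hw) (inv_mem hB)) (x' := w) hw
  obtain ⟨a, b, e⟩ := O'.cen27 h' (mul_mem (inv_mem mB) m2) cen O'.y_not_V
  have xB := congrArg Prod.snd (M.eq_seg c27 (nx _ hB) (inv_mem hB) (by norm_num) (congrArg Prod.fst xA :))
  have xA2 := congrArg Prod.snd xA
  change O'.x 0 s * B2 * (O'.x 0 s)⁻¹ = B2⁻¹ at xB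
  change O'.x 0 s * A.2 * (O'.x 0 s)⁻¹ = A.2⁻¹ at xA2
  change B2⁻¹ * A.2 = _ at e
  have cB := cen _ (inv_mem mB)
  change Commute (B2⁻¹ * A.2) B2⁻¹ at cB
  rw [e] at cB
  rw [inv_mul_eq_iff_eq_mul] at e
  rw [e, or_mul, xB, mul_inv_rev, cB.inv_left.eq, mul_right_inj, or_mul, or_cj (O'.zx_comm _ _ (by norm_num)).symm,
    O'.x_z (l := 2) _ _ (by norm_num), mul_inv_rev, O'.z_inv, O'.z_inv, ← mul_assoc,
    (O'.zz_comm a b (by norm_num)).eq, mul_eq_left] at xA2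
  obtain rfl := (mul_eq_zero.1 (O'.zinj 2 _ xA2)).resolve_right hs
  exact ⟨_, hB, a, Prod.ext (mul_one _).symm (by rw [e, O'.z_zero, mul_one]; rfl)⟩

theorem xz_mem (s v : K) : ⁅(O.x 0 s, O'.x 0 s), (O.z 4 v, O'.z 4 v)⁆ ∈ seg (O.Gam O') 2 7 := by
  obtain ⟨B, hB, a, e⟩ := O.xz_aux O' h h' s v
  by_cases hs : s = 0
  · rw [show (O.x 0 s, O'.x 0 s) = 1 from Prod.ext (hs ▸ O.x_zero 0) (hs ▸ O'.x_zero 0), commutatorElement_one_left]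
    exact one_mem _
  have M := O.mat O' 1 8
  have a1 := O.act1 O'
  obtain ⟨B₀, hB₀, a₀, e₀⟩ := O.xz_aux O' h h' s⁻¹ (s * σ s * v)
  have hBs := a1.seg (i' := 3) (j' := 8) hB₀ (by norm_num)
  have ez : (O.n1, O'.n1) * (O.z 4 (s * σ s * v), O'.z 4 (s * σ s * v)) * (O.n1, O'.n1)⁻¹ =
      (O.z 1 (s * σ s * v), O'.z 1 (s * σ s * v)) := Prod.ext (O.n1z 4 _) (O'.n1z 4 _)
  have nz : ∀ w ∈ seg (O.Gam O') 3 8, (O.z 1 (s * σ s * v), O'.z 1 (s * σ s * v))⁻¹ * w *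
      (O.z 1 (s * σ s * v), O'.z 1 (s * σ s * v)) ∈ seg (O.Gam O') 3 8 := fun w hw => by
    have := a1.seg (i' := 3) (j' := 8) (O.z8_27 O' h h' (s * σ s * v) ((a1.inv (c' := 10) (by norm_num)).seg
      (i' := 2) (j' := 7) hw (by norm_num))) (by norm_num)
    rw [or_mul, or_mul, ← conj_inv, ez, inv_eq_of_mul_eq_one_right (O.zhat_sq O' 1 _)] at this
    rw [inv_eq_of_mul_eq_one_right (O.zhat_sq O' 1 _)]
    convert this using 2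
    group
  have e₁ := congrArg (fun w => (O.n1, O'.n1) * w * (O.n1, O'.n1)⁻¹) e₀
  have ex : (O.n1, O'.n1) * (O.x 0 s⁻¹, O'.x 0 s⁻¹) * (O.n1, O'.n1)⁻¹ = (O.x 4 s⁻¹, O'.x 4 s⁻¹) :=
    Prod.ext (O.n1x 0 _) (O'.n1x 0 _)
  have ed : (O.n1, O'.n1) * (1, O'.z 2 a₀) * (O.n1, O'.n1)⁻¹ = (1, O'.z 3 a₀) :=
    Prod.ext (by simp) (O'.n1z 2 _)
  have e7 : (O.x 0 s, O'.x 0 s) * (O.z 4 v, O'.z 4 v) * (O.x 0 s, O'.x 0 s)⁻¹ = (O.x 4 s⁻¹, O'.x 4 s⁻¹) *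
      (O.z 1 (s * σ s * v), O'.z 1 (s * σ s * v)) * (O.x 4 s⁻¹, O'.x 4 s⁻¹)⁻¹ := Prod.ext (O.xz7 hs v) (O'.xz7 hs v)
  beta_reduce at e₁
  rw [commutatorElement_def, or_mul _ B₀, or_mul, or_mul, or_mul, ← conj_inv, ← conj_inv, ex, ez, ed, ← e7,
    mul_inv_eq_iff_eq_mul] at e₁
  set Bs := (O.n1, O'.n1) * B₀ * (O.n1, O'.n1)⁻¹
  have mz := O.z_Gam O' 1 (s * σ s * v) (i := 2) rfl
  have c1 := O'.zz_comm (k := 3) (l := 1) a₀ (s * σ s * v) (by norm_num)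
  set t := s * σ s * v
  have e' := e
  rw [commutatorElement_def, mul_inv_eq_iff_eq_mul, e₁] at e'
  obtain ⟨b, hb, B₃, hB₃, rfl⟩ := (O.comm_small O' h h' (a := 2) (b := 7) (by norm_num)).left (k := 3) hB
    (by norm_num)
  have mP := mul_mem (seg_mono hB₃ le_rfl (by norm_num : (7 : ℤ) ≤ 8))
    (mem_seg (O.z_Gam O' 4 v rfl) (by norm_num) (by norm_num))
  have mQ := nz _ hBs
  have f1 : O.z 1 t * ((O.z 1 t, O'.z 1 t)⁻¹ * Bs * (O.z 1 t, O'.z 1 t)).1 = b.1 * (B₃ * (O.z 4 v, O'.z 4 v)).1 := by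
    simpa [mul_assoc] using congrArg Prod.fst e'
  obtain ⟨k1, k2⟩ := R.left_inj (O.z_memU 1 t rfl) (M.le 2 (by norm_num) (by norm_num) b hb).1
    (M.seg_le mQ (by norm_num)).1 (M.seg_le mP (by norm_num)).1 (by norm_num) f1
  have k3 : O'.z 1 t = b.2 := (M.eq_U mz hb (by norm_num)).1 k1
  have k4 := congrArg Prod.snd (M.eq_seg (O.comm_small O' h h' (a := 3) (b := 8) (by norm_num)) mQ mP
    (by norm_num) k2)
  have f2 := congrArg Prod.snd e'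
  simp only [Prod.snd_mul, Prod.snd_inv] at k4 f2
  rw [← k3, mul_assoc, c1.eq, mul_assoc, (O'.zz_comm (k := 2) (l := 4) a v (by norm_num)).eq, mul_assoc,
    ← mul_assoc B₃.2, ← k4] at f2
  simp only [mul_assoc, mul_inv_cancel_left, mul_right_inj] at f2
  rw [e, R'.inf_U (O'.z_memU 2 a rfl) (f2 ▸ O'.z_memU 3 a₀ rfl) (by norm_num)]
  exact mul_mem hB (one_mem _)

theorem z8_17 (v : K) (hg : g ∈ seg (O.Gam O') 1 7) :
    (O.z 4 v, O'.z 4 v) * g * (O.z 4 v, O'.z 4 v)⁻¹ ∈ seg (O.Gam O') 1 7 := by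
  refine seg_conj (fun k h1 h2 u hu => ?_) hg
  by_cases h3 : 2 ≤ k
  · exact seg_mono (O.z8_27 O' h h' v (mem_seg hu h3 h2)) (by norm_num) le_rfl
  obtain ⟨s, rfl⟩ := O.Gam_odd O' hu 0 (by omega)
  rw [show ∀ u v : G × G', v * u * v⁻¹ = ⁅u, v⁆⁻¹ * u from fun u v => by rw [commutatorElement_def]; group]
  exact mul_mem (inv_mem (seg_mono (O.xz_mem O' h h' s v) (by norm_num) le_rfl)) (mem_seg hu h1 h2)

theorem y1_17 (hg : g ∈ seg (O.Gam O') 1 7) :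
    (O.y 4 1, O'.y 4 1) * g * (O.y 4 1, O'.y 4 1)⁻¹ ∈ seg (O.Gam O') 1 7 := by
  have hb := mul_mem (O.y_Gam O' 4 1 (i := 8) rfl) (O.z_Gam O' 4 1 rfl)
  have st : (O.z 0 1, O'.z 0 1) * ((O.y 4 1, O'.y 4 1) * (O.z 4 1, O'.z 4 1)) =
      (O.y 4 1, O'.y 4 1) * (O.z 4 1, O'.z 4 1) * (O.n8, O'.n8) := Prod.ext O.st O'.st
  have ey : (O.y 4 1, O'.y 4 1) = (O.y 4 1, O'.y 4 1) * (O.z 4 1, O'.z 4 1) * (O.z 4 1, O'.z 4 1) := by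
    rw [mul_assoc, O.zhat_sq, mul_one]
  set b := (O.y 4 1, O'.y 4 1) * (O.z 4 1, O'.z 4 1)
  have a8 := O.act8 O'
  have big : ∀ k, 3 ≤ k → k ≤ 7 → ∀ u ∈ O.Gam O' k, b * u * b⁻¹ ∈ seg (O.Gam O') 1 7 := fun k h1 h2 u hu =>
    (O.C_small O' h h' (j := 8) (by omega)).conj hu hb (by omega)
  rw [ey, os1_conj]
  refine seg_conj (fun k h1 h2 u hu => ?_) (O.z8_17 O' h h' 1 hg)
  by_cases h3 : 3 ≤ k
  · exact big k h3 h2 u hu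
  have m := big (8 - k) (by omega) (by omega) _ (a8.conj_inv hu (by omega))
  have ez : (O.n8, O'.n8) * (O.z 4 1, O'.z 4 1) * (O.n8, O'.n8)⁻¹ = (O.z 0 1, O'.z 0 1) :=
    Prod.ext (O.n8z 4 1) (O'.n8z 4 1)
  have := a8.seg (i' := 1) (j' := 7) (O.z8_17 O' h h' 1 ((a8.inv (c' := 8) (by norm_num)).seg (i' := 1) (j' := 7) m
    (by norm_num))) (by norm_num)
  convert this using 1
  calc _ = b * (O.n8, O'.n8) * ((O.n8, O'.n8)⁻¹ * u * (O.n8, O'.n8)) * (b * (O.n8, O'.n8))⁻¹ := by group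
    _ = _ := by rw [← st, ← ez]; group

theorem y8_17 [Finite K] (u : K) (hg : g ∈ seg (O.Gam O') 1 7) :
    (O.y 4 u, O'.y 4 u) * g * (O.y 4 u, O'.y 4 u)⁻¹ ∈ seg (O.Gam O') 1 7 := by
  by_cases hu : u = 0
  · rwa [show (O.y 4 u, O'.y 4 u) = 1 from Prod.ext (hu ▸ O.y_zero 4) (hu ▸ O'.y_zero 4), one_mul, inv_one, mul_one]
  obtain ⟨s, hs, e, k, x0, x1, x2, x3, z1, z2, z3, -, y1, y2, y3, y4⟩ := O.tor' h hu
  obtain ⟨s', -, e', k', x0', x1', x2', x3', z1', z2', z3', -, y1', y2', y3', y4'⟩ := O'.tor' h' hu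
  obtain rfl : s = s' := σ.injective (e.trans e'.symm)
  have σs := (map_ne_zero σ).2 hs
  have hx : ∀ j, 0 ≤ j → j ≤ 3 → ∃ a, a ≠ 0 ∧ Sc k (O.x j) a ∧ Sc k' (O'.x j) a := fun j h1 h2 => by
    interval_cases j
    exacts [⟨_, hs, x0, x0'⟩, ⟨_, div_ne_zero σs hs, x1, x1'⟩, ⟨_, div_ne_zero hs σs, x2, x2'⟩,
      ⟨_, inv_ne_zero hs, x3, x3'⟩]
  have hy : ∀ j, 1 ≤ j → j ≤ 3 → ∃ a, a ≠ 0 ∧ Sc k (O.y j) a ∧ Sc k' (O'.y j) a := fun j h1 h2 => by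
    interval_cases j
    exacts [⟨_, div_ne_zero σs hs, y1, y1'⟩, ⟨_, one_ne_zero, y2, y2'⟩, ⟨_, div_ne_zero hs σs, y3, y3'⟩]
  have hz : ∀ j, 1 ≤ j → j ≤ 3 → ∃ a, a ≠ 0 ∧ Sc k (O.z j) a ∧ Sc k' (O'.z j) a := fun j h1 h2 => by
    interval_cases j
    exacts [⟨_, hs, z1, z1'⟩, ⟨_, one_ne_zero, z2, z2'⟩, ⟨_, inv_ne_zero hs, z3, z3'⟩]
  have iv : ∀ {f : K → G} {f' : K → G'}, (∃ a, a ≠ 0 ∧ Sc k f a ∧ Sc k' f' a) →
      ∃ a, a ≠ 0 ∧ Sc k⁻¹ f a ∧ Sc k'⁻¹ f' a := fun ⟨a, h1, h2, h3⟩ => ⟨_, inv_ne_zero h1, h2.inv h1, h3.inv h1⟩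
  have := O.norm17 O' hx hy hz (O.y1_17 O' h h' (O.norm17 O' (fun j h1 h2 => iv (hx j h1 h2))
    (fun j h1 h2 => iv (hy j h1 h2)) (fun j h1 h2 => iv (hz j h1 h2)) hg))
  have ey : (k, k') * (O.y 4 1, O'.y 4 1) * (k, k')⁻¹ = (O.y 4 u, O'.y 4 u) :=
    Prod.ext ((y4 1).trans (by rw [mul_one])) ((y4' 1).trans (by rw [mul_one]))
  rw [← ey]
  convert this using 1
  rw [show (k⁻¹, k'⁻¹) = (k, k')⁻¹ from rfl]
  group

theorem comm18 [Finite K] [Finite G] : Comm 8 (O.Gam O') 1 8 := by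
  refine (O.mat O' 1 8).step (k := 7) (O.comm_small O' h h' (.inr ⟨rfl, by decide⟩)) (by norm_num) le_rfl ‹_› ?_
  rintro _ ⟨k, t, ⟨e, -⟩ | ⟨e, rfl | rfl⟩⟩ l h1 h2 g hg
  · omega
  · rw [show k = 4 by omega]
    exact O.y8_17 O' h h' t (mem_seg hg h1 h2)
  · rw [show k = 4 by omega]
    exact O.z8_17 O' h h' t (mem_seg hg h1 h2)

end RD.O3

end CfsgLib.Mouf
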