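import Cfsg.Agent.Lib.Mouf.OB2
import Cfsg.Agent.Lib.Mouf.OC
import Cfsg.Agent.Lib.Mouf.OD
import Cfsg.Agent.Lib.Mouf.OY
import Cfsg.Agent.Lib.Mouf.OG2

/-!
# Octagons: the result (see `plans/MOUF.md`)
-/

set_option autoImplicit false

namespace CfsgLib.Mouf
open scoped commutatorElement

namespace RD.Oct
variable {G G' : Type*} [Group G] [Group G'] [Finite G] [Finite G'] {R : RD 8 G} {R' : RD 8 G'}

theorem exists_O3 (h : R.Oct) : ∃ (K : Type) (_ : Field K) (_ : Finite K) (σ : K →+* K), Nonempty (R.O3 K σ) := by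
  obtain ⟨K, _, _, ⟨O⟩⟩ := h.oct2.exists_O1
  obtain ⟨σ, ⟨O⟩⟩ := O.exists_O2 h.oct2
  exact ⟨K, _, ‹_›, σ, O.exists_O3 h.oct2⟩

theorem card_U (h : R.Oct) : ∃ m, Nat.card (R.U 1) = 2 ^ (2 * m + 1) ∧ Nat.card (R.U 0) = (2 ^ (2 * m + 1)) ^ 2 := by
  obtain ⟨K, _, _, σ, ⟨O⟩⟩ := h.exists_O3
  haveI : Fact (Nat.Prime 2) := ⟨Nat.prime_two⟩
  obtain ⟨k, hk⟩ := IsPGroup.iff_card.1 (h.two 1)
  have e0 : Nat.card (R.U 0) = (2 ^ k) ^ 2 := by rw [O.card.2, ← O.card.1, hk]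
  obtain ⟨r, hr⟩ := h.fh
  rw [e0, hk] at hr
  have h1 : 2 ^ (3 * k + 1) = r ^ 2 := by rw [sq, ← hr]; ring
  have h2 := congrArg (fun a => a.factorization 2) h1
  simp only [Nat.factorization_pow, Finsupp.smul_apply, smul_eq_mul, Nat.Prime.factorization_self Nat.prime_two] at h2
  obtain ⟨m, rfl⟩ : ∃ m, k = 2 * m + 1 := ⟨k / 2, by omega⟩
  exact ⟨m, hk, e0⟩

/-- Two finite Moufang octagons with the same parameters have isomorphic root group sequences. -/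
theorem exists_match (h : R.Oct) (h' : R'.Oct) (hc : Nat.card (R.U 1) = Nat.card (R'.U 1)) :
    ∃ Γ, R.Match R' Γ 1 8 ∧ Comm 8 Γ 1 8 := by
  obtain ⟨K, _, _, σ, ⟨O⟩⟩ := h.exists_O3
  obtain ⟨K', _, _, σ', ⟨O'⟩⟩ := h'.exists_O3
  obtain ⟨e, he⟩ := exists_equiv_tits σ σ' O.two O.ss O'.ss (by rw [← O.card.1, ← O'.card.1, hc])
  obtain ⟨O''⟩ := O'.comap e he
  exact ⟨_, O.mat O'' 1 8, O.comm18 O'' h.oct2 h'.oct2⟩

end RD.Oct

end CfsgLib.Mouf
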